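import Mathlib
import Cfsg.Agent.Lib.Helper7.Commutator

set_option autoImplicit false

namespace Cfsg.Agent.Lib.Helper3

/-- `k`-fold commutator of `X` with the whole group. -/
def iterComm {G : Type*} [Group G] (k : ℕ) (X : Subgroup G) : Subgroup G :=
  (fun Y : Subgroup G => ⁅Y, (⊤ : Subgroup G)⁆)^[k] X

theorem iterComm_zero {G : Type*} [Group G] (X : Subgroup G) : iterComm 0 X = X := rfl

theorem iterComm_succ {G : Type*} [Group G] (k : ℕ) (X : Subgroup G) :
    iterComm (k + 1) X = ⁅iterComm k X, (⊤ : Subgroup G)⁆ :=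
  Function.iterate_succ_apply' _ _ _

theorem iterComm_succ' {G : Type*} [Group G] (k : ℕ) (X : Subgroup G) :
    iterComm (k + 1) X = iterComm k ⁅X, (⊤ : Subgroup G)⁆ :=
  Function.iterate_succ_apply _ _ _

theorem iterComm_normal {G : Type*} [Group G] (k : ℕ) (X : Subgroup G) [X.Normal] :
    (iterComm k X).Normal := by
  induction k with
  | zero => rw [iterComm_zero]; infer_instance
  | succ k ih => rw [iterComm_succ]; haveI := ih; exact Subgroup.commutator_normal _ _

theorem iterComm_le_lcs {G : Type*} [Group G] (k : ℕ) (X : Subgroup G) :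
    iterComm k X ≤ (⊤ : Subgroup G).lowerCentralSeries k := by
  induction k with
  | zero => rw [iterComm_zero]; exact le_top
  | succ k ih =>
    rw [iterComm_succ, Subgroup.lowerCentralSeries_succ]
    exact Subgroup.commutator_mono ih le_rfl

theorem lcs_normal_of_normal {G : Type*} [Group G] (N : Subgroup G) [N.Normal] (k : ℕ) :
    (N.lowerCentralSeries k).Normal := by
  induction k with
  | zero => rw [Subgroup.lowerCentralSeries_zero]; infer_instance
  | succ k ih =>
    rw [Subgroup.lowerCentralSeries_succ]; haveI := ih; exact Subgroup.commutator_normal _ _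

/-- In a finite `p`-group, a normal subgroup of order at most `p ^ m` is killed by `m`-fold
commutation with the whole group. -/
theorem iterComm_eq_bot_of_card_le {Q : Type*} [Group Q] [Finite Q] {p : ℕ} [Fact p.Prime]
    (hQ : IsPGroup p Q) (X : Subgroup Q) [X.Normal] (m : ℕ) (hX : Nat.card X ≤ p ^ m) :
    iterComm m X = ⊥ := by
  have hp : p.Prime := Fact.out
  haveI : Group.IsNilpotent Q := hQ.isNilpotent
  obtain ⟨c, hc⟩ := Subgroup.nilpotent_iff_lowerCentralSeries.mp (inferInstance : Group.IsNilpotent Q)
  have hstrict : ∀ k, iterComm k X ≠ ⊥ → iterComm (k + 1) X ≠ iterComm k X := by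
    intro k hk heq
    have h1 : ∀ j, iterComm (k + j) X = iterComm k X := by
      intro j
      induction j with
      | zero => rfl
      | succ j ih => rw [← add_assoc, iterComm_succ, ih, ← iterComm_succ]; exact heq
    apply hk
    have h2 := iterComm_le_lcs (k + c) X
    rw [h1 c] at h2
    have h3 : (⊤ : Subgroup Q).lowerCentralSeries (k + c) ≤ (⊤ : Subgroup Q).lowerCentralSeries c :=
      Subgroup.lowerCentralSeries_antitone _ (Nat.le_add_left c k)
    rw [hc] at h3
    exact le_bot_iff.mp (h2.trans h3)
  have key : ∀ k, iterComm k X = ⊥ ∨ Nat.card (iterComm k X) * p ^ k ≤ Nat.card X := by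
    intro k
    induction k with
    | zero => right; rw [iterComm_zero, pow_zero, mul_one]
    | succ k ih =>
      by_cases hk : iterComm k X = ⊥
      · left; rw [iterComm_succ, hk]; exact Subgroup.commutator_bot_left _
      · have ih' := ih.resolve_left hk
        haveI := iterComm_normal k X
        have hle : iterComm (k + 1) X ≤ iterComm k X := by
          rw [iterComm_succ]; exact Subgroup.commutator_le_left _ _
        have hne := hstrict k hk
        obtain ⟨a, ha⟩ := IsPGroup.iff_card.mp (hQ.to_subgroup (iterComm k X))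
        obtain ⟨b, hb⟩ := IsPGroup.iff_card.mp (hQ.to_subgroup (iterComm (k + 1) X))
        have hcardlt : Nat.card (iterComm (k + 1) X) < Nat.card (iterComm k X) := by
          by_contra hcon
          exact hne (Subgroup.eq_of_le_of_card_ge hle (not_lt.mp hcon))
        rw [ha, hb] at hcardlt
        have hba : b < a := (Nat.pow_lt_pow_iff_right hp.one_lt).mp hcardlt
        right
        have h5 : p ^ b * p ≤ p ^ a := by
          rw [← pow_succ]; exact Nat.pow_le_pow_right hp.pos hba
        calc Nat.card (iterComm (k + 1) X) * p ^ (k + 1) = (p ^ b * p) * p ^ k := by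
              rw [hb, pow_succ]; ring
          _ ≤ p ^ a * p ^ k := Nat.mul_le_mul_right _ h5
          _ = Nat.card (iterComm k X) * p ^ k := by rw [ha]
          _ ≤ Nat.card X := ih'
  rcases key m with h | h
  · exact h
  · have h1 : Nat.card (iterComm m X) * p ^ m ≤ 1 * p ^ m := by rw [one_mul]; exact h.trans hX
    have h2 : Nat.card (iterComm m X) ≤ 1 :=
      Nat.le_of_mul_le_mul_right h1 (pow_pos hp.pos m)
    exact Subgroup.eq_bot_of_card_le _ h2

/-- `⁅X, γ_{k+1}(G)⁆ ≤ [X, G; k+1]` for normal `X` (three subgroups lemma). -/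
theorem commutator_lcs_le_iterComm {G : Type*} [Group G] (k : ℕ) :
    ∀ (X : Subgroup G) [X.Normal],
      ⁅X, (⊤ : Subgroup G).lowerCentralSeries k⁆ ≤ iterComm (k + 1) X := by
  induction k with
  | zero =>
    intro X _
    rw [iterComm_succ, iterComm_zero, Subgroup.lowerCentralSeries_zero]
  | succ k ih =>
    intro X _
    rw [Subgroup.lowerCentralSeries_succ]
    have e : ⁅X, ⁅(⊤ : Subgroup G).lowerCentralSeries k, (⊤ : Subgroup G)⁆⁆ =
        ⁅⁅(⊤ : Subgroup G).lowerCentralSeries k, (⊤ : Subgroup G)⁆, X⁆ :=
      Subgroup.commutator_comm _ _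
    rw [e]
    haveI : (iterComm (k + 1 + 1) X).Normal := iterComm_normal _ X
    apply Cfsg.Agent.Lib.Helper7.three_subgroups_normal (iterComm (k + 1 + 1) X)
      ((⊤ : Subgroup G).lowerCentralSeries k) ⊤ X
    · have e2 : ⁅(⊤ : Subgroup G), X⁆ = ⁅X, (⊤ : Subgroup G)⁆ := Subgroup.commutator_comm _ _
      rw [e2]
      haveI : (⁅X, (⊤ : Subgroup G)⁆).Normal := Subgroup.commutator_normal _ _
      have h := ih ⁅X, (⊤ : Subgroup G)⁆
      rw [← iterComm_succ'] at h
      exact h
    · rw [iterComm_succ (k + 1)]
      exact Subgroup.commutator_mono (ih X) le_rfl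

end Cfsg.Agent.Lib.Helper3
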