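import Mathlib
import Cfsg.Agent.Lib.Helper3.IterComm

set_option autoImplicit false

namespace Cfsg.Agent.Lib.Helper3

open scoped commutatorElement

section breadth
variable {G : Type*} [Group G]

/-- Elements `x` with `⁅x, k⁆ ∈ D` for all `k ∈ K`. -/
def commCentralizer (K D : Subgroup G) [hD : D.Normal] : Subgroup G where
  carrier := {x | ∀ k ∈ K, ⁅x, k⁆ ∈ D}
  mul_mem' := by
    intro a b ha hb k hk
    have e : ⁅a * b, k⁆ = a * ⁅b, k⁆ * a⁻¹ * ⁅a, k⁆ := by
      simp only [commutatorElement_def]; group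
    rw [e]
    exact D.mul_mem (hD.conj_mem _ (hb k hk) a) (ha k hk)
  one_mem' := by
    intro k _
    simp
  inv_mem' := by
    intro a ha k hk
    have e : ⁅a⁻¹, k⁆ = a⁻¹ * (⁅a, k⁆)⁻¹ * a⁻¹⁻¹ := by
      simp only [commutatorElement_def]; group
    rw [e]
    exact hD.conj_mem _ (D.inv_mem (ha k hk)) a⁻¹

theorem mem_commCentralizer {K D : Subgroup G} [hD : D.Normal] {x : G} :
    x ∈ commCentralizer K D ↔ ∀ k ∈ K, ⁅x, k⁆ ∈ D := Iff.rfl

/-- Elements `k ∈ K` with `⁅x, k⁆ ∈ D`. -/
def commKer (x : G) (K D : Subgroup G) [hD : D.Normal] : Subgroup G where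
  carrier := {k | k ∈ K ∧ ⁅x, k⁆ ∈ D}
  mul_mem' := by
    rintro a b ⟨ha, ha'⟩ ⟨hb, hb'⟩
    refine ⟨K.mul_mem ha hb, ?_⟩
    have e : ⁅x, a * b⁆ = ⁅x, a⁆ * (a * ⁅x, b⁆ * a⁻¹) := by
      simp only [commutatorElement_def]; group
    rw [e]
    exact D.mul_mem ha' (hD.conj_mem _ hb' a)
  one_mem' := ⟨K.one_mem, by simp⟩
  inv_mem' := by
    rintro a ⟨ha, ha'⟩
    refine ⟨K.inv_mem ha, ?_⟩
    have e : ⁅x, a⁻¹⁆ = a⁻¹ * (⁅x, a⁆)⁻¹ * a⁻¹⁻¹ := by
      simp only [commutatorElement_def]; group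
    rw [e]
    exact hD.conj_mem _ (D.inv_mem ha') a⁻¹

theorem mem_commKer {x : G} {K D : Subgroup G} [hD : D.Normal] {k : G} :
    k ∈ commKer x K D ↔ k ∈ K ∧ ⁅x, k⁆ ∈ D := Iff.rfl

instance lcs_top_normal' (j : ℕ) : ((⊤ : Subgroup G).lowerCentralSeries j).Normal :=
  lcs_normal_of_normal ⊤ j

/-- If the `j`-th two-step centralizer is everything, the series stabilizes. -/
theorem lcs_le_of_commCentralizer_eq_top (j : ℕ)
    (h : commCentralizer ((⊤ : Subgroup G).lowerCentralSeries j)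
      ((⊤ : Subgroup G).lowerCentralSeries (j + 2)) = ⊤) :
    (⊤ : Subgroup G).lowerCentralSeries (j + 1) ≤ (⊤ : Subgroup G).lowerCentralSeries (j + 2) := by
  rw [Subgroup.lowerCentralSeries_succ, Subgroup.commutator_le]
  intro k hk g _
  have hg : g ∈ commCentralizer ((⊤ : Subgroup G).lowerCentralSeries j)
      ((⊤ : Subgroup G).lowerCentralSeries (j + 2)) := by rw [h]; exact Subgroup.mem_top g
  have h1 := hg k hk
  have e : ⁅k, g⁆ = (⁅g, k⁆)⁻¹ := by simp
  rw [e]
  exact Subgroup.inv_mem _ h1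

theorem lcs_stable (j : ℕ)
    (h : (⊤ : Subgroup G).lowerCentralSeries (j + 1) ≤ (⊤ : Subgroup G).lowerCentralSeries (j + 2)) :
    ∀ t, (⊤ : Subgroup G).lowerCentralSeries (j + 1) ≤ (⊤ : Subgroup G).lowerCentralSeries (j + 1 + t) := by
  intro t
  induction t with
  | zero => exact le_rfl
  | succ t ih =>
    have e : j + 1 + (t + 1) = (j + 1 + t) + 1 := by omega
    rw [e, Subgroup.lowerCentralSeries_succ]
    calc (⊤ : Subgroup G).lowerCentralSeries (j + 1) ≤ (⊤ : Subgroup G).lowerCentralSeries (j + 2) := h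
      _ = ⁅(⊤ : Subgroup G).lowerCentralSeries (j + 1), ⊤⁆ := rfl
      _ ≤ ⁅(⊤ : Subgroup G).lowerCentralSeries (j + 1 + t), ⊤⁆ := Subgroup.commutator_mono ih le_rfl

variable [Finite G] {p : ℕ} [Fact p.Prime]

theorem relIndex_ne_zero_of_finite' (H K : Subgroup G) : H.relIndex K ≠ 0 := by
  show (H.subgroupOf K).index ≠ 0
  exact Subgroup.index_ne_zero_of_finite

theorem breadth_step_le (x : G) (j : ℕ) :
    (Subgroup.centralizer ({x} : Set G)).relIndex ((⊤ : Subgroup G).lowerCentralSeries (j + 1)) ≤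
      (Subgroup.centralizer ({x} : Set G)).relIndex ((⊤ : Subgroup G).lowerCentralSeries j) :=
  Subgroup.relIndex_le_of_le_right (Subgroup.lowerCentralSeries_antitone _ (Nat.le_succ j))
    (relIndex_ne_zero_of_finite' _ _)

theorem breadth_step_lt (hG : IsPGroup p G) (x : G) (j : ℕ)
    (hx : x ∉ commCentralizer ((⊤ : Subgroup G).lowerCentralSeries j)
      ((⊤ : Subgroup G).lowerCentralSeries (j + 2))) :
    (Subgroup.centralizer ({x} : Set G)).relIndex ((⊤ : Subgroup G).lowerCentralSeries (j + 1)) * p ≤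
      (Subgroup.centralizer ({x} : Set G)).relIndex ((⊤ : Subgroup G).lowerCentralSeries j) := by
  have hp := (Fact.out : p.Prime)
  set C := Subgroup.centralizer ({x} : Set G) with hC
  set A := commKer x ((⊤ : Subgroup G).lowerCentralSeries j)
    ((⊤ : Subgroup G).lowerCentralSeries (j + 2)) with hA
  have hA1 : (⊤ : Subgroup G).lowerCentralSeries (j + 1) ≤ A := by
    intro k hk
    refine ⟨Subgroup.lowerCentralSeries_antitone _ (Nat.le_succ j) hk, ?_⟩
    have h1 : ⁅k, x⁆ ∈ (⊤ : Subgroup G).lowerCentralSeries (j + 2) :=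
      Subgroup.commutator_mem_commutator hk (Subgroup.mem_top x)
    have e : ⁅x, k⁆ = (⁅k, x⁆)⁻¹ := by simp
    rw [e]
    exact Subgroup.inv_mem _ h1
  have hA2 : C ⊓ (⊤ : Subgroup G).lowerCentralSeries j ≤ A := by
    rintro k ⟨hk1, hk2⟩
    refine ⟨hk2, ?_⟩
    have h1 : x * k = k * x := (Subgroup.mem_centralizer_iff.mp hk1) x rfl
    have e : ⁅x, k⁆ = 1 := by
      rw [commutatorElement_eq_one_iff_commute]; exact h1
    rw [e]; exact Subgroup.one_mem _
  have hA3 : A ≤ (⊤ : Subgroup G).lowerCentralSeries j := fun k hk => hk.1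
  have hA4 : ¬ (⊤ : Subgroup G).lowerCentralSeries j ≤ A := by
    intro hle
    apply hx
    intro k hk
    exact (hle hk).2
  have h1 : C.relIndex ((⊤ : Subgroup G).lowerCentralSeries (j + 1)) ≤ C.relIndex A :=
    Subgroup.relIndex_le_of_le_right hA1 (relIndex_ne_zero_of_finite' _ _)
  have h2 : C ⊓ A = C ⊓ (⊤ : Subgroup G).lowerCentralSeries j :=
    le_antisymm (inf_le_inf_left C hA3) (le_inf inf_le_left hA2)
  have h3 : C.relIndex A * A.relIndex ((⊤ : Subgroup G).lowerCentralSeries j) =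
      C.relIndex ((⊤ : Subgroup G).lowerCentralSeries j) := by
    rw [← Subgroup.inf_relIndex_right (H := C) (K := A), h2,
      ← Subgroup.inf_relIndex_right (H := C) (K := (⊤ : Subgroup G).lowerCentralSeries j)]
    exact Subgroup.relIndex_mul_relIndex _ _ _ hA2 hA3
  have h4 : p ≤ A.relIndex ((⊤ : Subgroup G).lowerCentralSeries j) := by
    obtain ⟨n, hn⟩ := (hG.to_subgroup ((⊤ : Subgroup G).lowerCentralSeries j)).index
      (A.subgroupOf ((⊤ : Subgroup G).lowerCentralSeries j))
    have hn' : A.relIndex ((⊤ : Subgroup G).lowerCentralSeries j) = p ^ n := hn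
    rw [hn']
    have hn0 : n ≠ 0 := by
      intro h0
      rw [h0, pow_zero] at hn'
      exact hA4 (Subgroup.relIndex_eq_one.mp hn')
    exact Nat.le_self_pow hn0 p
  calc C.relIndex ((⊤ : Subgroup G).lowerCentralSeries (j + 1)) * p
      ≤ C.relIndex A * A.relIndex ((⊤ : Subgroup G).lowerCentralSeries j) := Nat.mul_le_mul h1 h4
    _ = C.relIndex ((⊤ : Subgroup G).lowerCentralSeries j) := h3

open Classical in
theorem breadth_count (hG : IsPGroup p G) (x : G) (m : ℕ) :
    (Subgroup.centralizer ({x} : Set G)).relIndex ((⊤ : Subgroup G).lowerCentralSeries m) *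
      p ^ (((Finset.range m).filter (fun j => x ∉ commCentralizer
        ((⊤ : Subgroup G).lowerCentralSeries j) ((⊤ : Subgroup G).lowerCentralSeries (j + 2)))).card) ≤
      (Subgroup.centralizer ({x} : Set G)).index := by
  induction m with
  | zero =>
    rw [Finset.range_zero, Finset.filter_empty, Finset.card_empty, pow_zero, mul_one,
      Subgroup.lowerCentralSeries_zero, Subgroup.relIndex_top_right]
  | succ m ih =>
    rw [Finset.range_add_one, Finset.filter_insert]
    by_cases hx : x ∉ commCentralizer ((⊤ : Subgroup G).lowerCentralSeries m)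
        ((⊤ : Subgroup G).lowerCentralSeries (m + 2))
    · rw [if_pos hx, Finset.card_insert_of_notMem (fun h => (lt_irrefl m) (Finset.mem_range.mp (Finset.mem_filter.mp h).1)), pow_succ]
      have h1 := breadth_step_lt hG x m hx
      calc _ = ((Subgroup.centralizer ({x} : Set G)).relIndex ((⊤ : Subgroup G).lowerCentralSeries (m + 1)) * p) *
            p ^ (((Finset.range m).filter (fun j => x ∉ commCentralizer
              ((⊤ : Subgroup G).lowerCentralSeries j) ((⊤ : Subgroup G).lowerCentralSeries (j + 2)))).card) := by ring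
        _ ≤ _ := (Nat.mul_le_mul_right _ h1).trans ih
    · rw [if_neg hx]
      exact (Nat.mul_le_mul_right _ (breadth_step_le x m)).trans ih

end breadth

end Cfsg.Agent.Lib.Helper3
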