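import Mathlib
import Cfsg.Prelude
import Cfsg.Agent.Lib.Helper3.PGroup
import Cfsg.Agent.Lib.Helper3.PiCore
import Cfsg.Agent.Lib.Helper3.GlauRepl

/-! Connectivity of the commuting graph on `E_8`-subgroups of a `2`-group with a normal `E_32`. -/

set_option autoImplicit false

namespace Cfsg.Agent.Lib.Helper3

open Cfsg

theorem elemAb_bot {X : Type*} [Group X] : Cfsg.IsElementaryAbelian 2 (⊥ : Subgroup X) := by
  refine ⟨(isMulCommutative_iff_forall _).mpr ?_, ?_⟩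
  · intro x hx y hy
    rw [Subgroup.mem_bot] at hx hy
    rw [hx, hy]
  · intro a ha
    rw [Subgroup.mem_bot] at ha
    rw [ha, one_pow]

theorem elemAb_of_le {X : Type*} [Group X] {H K : Subgroup X}
    (hK : Cfsg.IsElementaryAbelian 2 K) (hHK : H ≤ K) : Cfsg.IsElementaryAbelian 2 H := by
  refine ⟨(isMulCommutative_iff_forall _).mpr ?_, fun a ha => hK.2 a (hHK ha)⟩
  intro x hx y hy
  exact (isMulCommutative_iff_forall K).mp hK.1 x (hHK hx) y (hHK hy)

/-- Adjoining a commuting involution to an elementary abelian `2`-subgroup. -/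
theorem elemAb_sup_zpowers {X : Type*} [Group X] [Finite X] (H : Subgroup X)
    (hH : Cfsg.IsElementaryAbelian 2 H) (z : X) (hz2 : z ^ 2 = 1) (hzH : z ∉ H)
    (hcomm : ∀ h ∈ H, h * z = z * h) :
    Cfsg.IsElementaryAbelian 2 (H ⊔ Subgroup.zpowers z) ∧
      Nat.card ↥(H ⊔ Subgroup.zpowers z) = 2 * Nat.card ↥H := by
  have hHc := (isMulCommutative_iff_forall H).mp hH.1
  have hzcH : z ∈ Subgroup.centralizer (H : Set X) := Subgroup.mem_centralizer_iff.mpr hcomm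
  have hZcH : Subgroup.zpowers z ≤ Subgroup.centralizer (H : Set X) :=
    Subgroup.zpowers_le.mpr hzcH
  have hHcZ : H ≤ Subgroup.centralizer ((Subgroup.zpowers z : Subgroup X) : Set X) :=
    Subgroup.le_centralizer_iff.mp hZcH
  have hHN : H ≤ Subgroup.normalizer ((Subgroup.zpowers z : Subgroup X) : Set X) :=
    hHcZ.trans (Subgroup.centralizer_le_normalizer _)
  have hHcH : H ≤ Subgroup.centralizer (H : Set X) := fun x hx =>
    Subgroup.mem_centralizer_iff.mpr (fun y hy => hHc y hy x hx)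
  have hZcZ : Subgroup.zpowers z ≤
      Subgroup.centralizer ((Subgroup.zpowers z : Subgroup X) : Set X) := by
    rw [Subgroup.zpowers_le, Subgroup.mem_centralizer_iff]
    rintro _ ⟨k, rfl⟩
    exact ((Commute.refl z).zpow_left k).eq
  have hk2 : ∀ k ∈ Subgroup.zpowers z, k ^ 2 = 1 := by
    rintro _ ⟨n, rfl⟩
    show (z ^ n) ^ 2 = 1
    rw [← zpow_natCast, ← zpow_mul, mul_comm, zpow_mul, zpow_natCast, hz2, one_zpow]
  have hdecomp : ∀ y ∈ H ⊔ Subgroup.zpowers z, ∃ h ∈ H, ∃ k ∈ Subgroup.zpowers z, y = h * k :=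
    fun y hy => exists_mul_of_mem_sup_of_le_normalizer H (Subgroup.zpowers z) hHN hy
  have hsupc : H ⊔ Subgroup.zpowers z ≤
      Subgroup.centralizer ((H ⊔ Subgroup.zpowers z : Subgroup X) : Set X) :=
    sup_le (Subgroup.le_centralizer_iff.mp (sup_le hHcH hZcH))
      (Subgroup.le_centralizer_iff.mp (sup_le hHcZ hZcZ))
  refine ⟨⟨(isMulCommutative_iff_forall _).mpr ?_, ?_⟩, ?_⟩
  · intro x hx y hy
    exact Subgroup.mem_centralizer_iff.mp (hsupc hy) x hx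
  · intro y hy
    obtain ⟨h, hh, k, hk, rfl⟩ := hdecomp y hy
    have hc : h * k = k * h := (Subgroup.mem_centralizer_iff.mp (hHcZ hh) k hk).symm
    rw [pow_two]
    calc h * k * (h * k) = h * (k * h) * k := by group
      _ = h * (h * k) * k := by rw [hc]
      _ = (h * h) * (k * k) := by group
      _ = 1 := by rw [← pow_two, ← pow_two, hH.2 h hh, hk2 k hk, one_mul]
  · have hz1 : z ≠ 1 := by rintro rfl; exact hzH (one_mem _)
    have hord : orderOf z = 2 := orderOf_eq_prime hz2 hz1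
    have hle : Nat.card ↥(H ⊔ Subgroup.zpowers z) ≤ Nat.card ↥H * 2 := by
      have key : ∀ y : ↥(H ⊔ Subgroup.zpowers z), ∃ p : ↥H × ↥(Subgroup.zpowers z),
          (y : X) = p.1 * p.2 := by
        intro y
        obtain ⟨h, hh, k, hk, e⟩ := hdecomp y y.2
        exact ⟨(⟨h, hh⟩, ⟨k, hk⟩), e⟩
      choose f hf using key
      have hinj : Function.Injective f := by
        intro y y' hyy
        apply Subtype.ext
        rw [hf y, hf y', hyy]
      have := Nat.card_le_card_of_injective f hinj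
      rwa [Nat.card_prod, Nat.card_zpowers, hord] at this
    have hdvd : Nat.card ↥H ∣ Nat.card ↥(H ⊔ Subgroup.zpowers z) :=
      Subgroup.card_dvd_of_le le_sup_left
    have hne : Nat.card ↥(H ⊔ Subgroup.zpowers z) ≠ Nat.card ↥H := by
      intro h
      apply hzH
      have : H = H ⊔ Subgroup.zpowers z := Subgroup.eq_of_le_of_card_ge le_sup_left h.le
      rw [this]
      exact Subgroup.mem_sup_right (Subgroup.mem_zpowers z)
    have hpos : 0 < Nat.card ↥H := Nat.card_pos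
    have hpos' : 0 < Nat.card ↥(H ⊔ Subgroup.zpowers z) := Nat.card_pos
    obtain ⟨c, hc⟩ := hdvd
    rw [hc] at hle hne hpos' ⊢
    have hc2 : c ≤ 2 := by
      by_contra h
      push Not at h
      have : Nat.card ↥H * 3 ≤ Nat.card ↥H * c := Nat.mul_le_mul_left _ h
      omega
    have hc1 : c ≠ 1 := by rintro rfl; exact hne (mul_one _)
    have hc0 : c ≠ 0 := by rintro rfl; simp at hpos'
    have : c = 2 := by omega
    rw [this, mul_comm]

/-- The fixed points of an involution on an elementary abelian `2`-group. -/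
theorem card_le_card_fix_sq {X : Type*} [Group X] [Finite X] (F : Subgroup X)
    (hF : Cfsg.IsElementaryAbelian 2 F) (t : X) (ht2 : t ^ 2 = 1)
    (htF : ∀ e ∈ F, t * e * t⁻¹ ∈ F) :
    Nat.card ↥F ≤ Nat.card ↥(F ⊓ Subgroup.centralizer ({t} : Set X)) *
      Nat.card ↥(F ⊓ Subgroup.centralizer ({t} : Set X)) := by
  have hFc := (isMulCommutative_iff_forall F).mp hF.1
  have hti : t⁻¹ = t := inv_eq_of_mul_eq_one_left (by rw [← pow_two]; exact ht2)
  let φ : ↥F →* ↥F := MonoidHom.mk'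
    (fun e => ⟨(e : X) * (t * e * t⁻¹), mul_mem e.2 (htF e e.2)⟩) (by
    intro e e'
    apply Subtype.ext
    show (e : X) * e' * (t * ((e : X) * e') * t⁻¹) =
      (e : X) * (t * e * t⁻¹) * ((e' : X) * (t * e' * t⁻¹))
    have h1 := hFc (e' : X) e'.2 (t * e * t⁻¹) (htF e e.2)
    calc (e : X) * e' * (t * ((e : X) * e') * t⁻¹)
        = (e : X) * ((e' : X) * (t * e * t⁻¹)) * (t * e' * t⁻¹) := by group
      _ = (e : X) * ((t * e * t⁻¹) * (e' : X)) * (t * e' * t⁻¹) := by rw [h1]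
      _ = (e : X) * (t * e * t⁻¹) * ((e' : X) * (t * e' * t⁻¹)) := by group)
  have hφ : ∀ e : ↥F, ((φ e : ↥F) : X) = (e : X) * (t * e * t⁻¹) := fun e => rfl
  obtain ⟨C', hC'⟩ : ∃ C' : Subgroup ↥F,
      C' = (F ⊓ Subgroup.centralizer ({t} : Set X)).subgroupOf F := ⟨_, rfl⟩
  have hcardC : Nat.card ↥C' = Nat.card ↥(F ⊓ Subgroup.centralizer ({t} : Set X)) := by
    rw [hC']
    exact Nat.card_congr (Subgroup.subgroupOfEquivOfLe inf_le_left).toEquiv
  have hmemC : ∀ e : ↥F, e ∈ C' ↔ t * (e : X) = (e : X) * t := by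
    intro e
    rw [hC', Subgroup.mem_subgroupOf, Subgroup.mem_inf, Subgroup.mem_centralizer_iff]
    constructor
    · rintro ⟨-, h⟩; exact h t rfl
    · intro h
      exact ⟨e.2, fun y hy => by rw [Set.mem_singleton_iff] at hy; rw [hy]; exact h⟩
  have hker : φ.ker ≤ C' := by
    intro e he
    rw [MonoidHom.mem_ker] at he
    have h1 : (e : X) * (t * e * t⁻¹) = 1 := by rw [← hφ, he]; rfl
    have he2 : (e : X) * (e : X) = 1 := by rw [← pow_two]; exact hF.2 e e.2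
    rw [hmemC]
    have h2 : t * (e : X) * t⁻¹ = (e : X) := by
      calc t * (e : X) * t⁻¹ = (e : X) * ((e : X) * (t * e * t⁻¹)) := by
            rw [← mul_assoc, he2, one_mul]
        _ = (e : X) := by rw [h1, mul_one]
    calc t * (e : X) = (t * (e : X) * t⁻¹) * t := by group
      _ = (e : X) * t := by rw [h2]
  have hrange : φ.range ≤ C' := by
    rintro _ ⟨e, rfl⟩
    rw [hmemC, hφ]
    have h1 := hFc (e : X) e.2 (t * e * t⁻¹) (htF e e.2)
    have htt : t * t = 1 := by rw [← pow_two]; exact ht2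
    calc t * ((e : X) * (t * e * t⁻¹)) = (t * e * t⁻¹) * (t * t) * (e : X) * t⁻¹ := by group
      _ = (t * e * t⁻¹) * (e : X) * t⁻¹ := by rw [htt, mul_one]
      _ = (e : X) * (t * e * t⁻¹) * t⁻¹ := by rw [← h1]
      _ = (e : X) * (t * e * t⁻¹) * t := by rw [hti]
  have h1 := Subgroup.card_mul_index φ.ker
  rw [Subgroup.index_ker] at h1
  rw [← h1, ← hcardC]
  exact Nat.mul_le_mul (Subgroup.card_le_of_le hker) (Subgroup.card_le_of_le hrange)

theorem two_pow_ge_eight (k : ℕ) (h : 32 ≤ 2 ^ k * 2 ^ k) : 8 ≤ 2 ^ k := by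
  by_contra hcon
  have hk : k ≤ 2 := by
    by_contra hk
    push Not at hk
    have : 2 ^ 3 ≤ 2 ^ k := Nat.pow_le_pow_right (by norm_num) hk
    omega
  interval_cases k <;> omega

theorem two_pow_ge_four (k : ℕ) (h : 8 ≤ 2 ^ k * 2 ^ k) : 4 ≤ 2 ^ k := by
  by_contra hcon
  have hk : k ≤ 1 := by
    by_contra hk
    push Not at hk
    have : 2 ^ 2 ≤ 2 ^ k := Nat.pow_le_pow_right (by norm_num) hk
    omega
  interval_cases k <;> omega

section main

variable {X : Type*} [Group X] [Finite X]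

/-- `|C_E(a)| ≥ 8`. -/
theorem card_fix_ge_eight (hX : IsPGroup 2 X) (E : Subgroup X) [E.Normal]
    (hE : Cfsg.IsElementaryAbelian 2 E) (hE32 : 32 ≤ Nat.card ↥E) (a : X) (ha2 : a ^ 2 = 1) :
    8 ≤ Nat.card ↥(E ⊓ Subgroup.centralizer ({a} : Set X)) := by
  have h1 := card_le_card_fix_sq E hE a ha2 (fun e he => ‹E.Normal›.conj_mem e he a)
  obtain ⟨k, hk⟩ := IsPGroup.iff_card.mp
    (hX.to_subgroup (E ⊓ Subgroup.centralizer ({a} : Set X)))
  rw [hk] at h1 ⊢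
  exact two_pow_ge_eight k (hE32.trans h1)

/-- `|C_E(⟨a, b⟩)| ≥ 4`. -/
theorem card_fix_ge_four (hX : IsPGroup 2 X) (E : Subgroup X) [E.Normal]
    (hE : Cfsg.IsElementaryAbelian 2 E) (hE32 : 32 ≤ Nat.card ↥E) (a b : X) (ha2 : a ^ 2 = 1)
    (hb2 : b ^ 2 = 1) (hab : a * b = b * a) :
    4 ≤ Nat.card ↥(E ⊓ Subgroup.centralizer ({a} : Set X) ⊓
      Subgroup.centralizer ({b} : Set X)) := by
  have h8 := card_fix_ge_eight hX E hE hE32 a ha2
  have hF : Cfsg.IsElementaryAbelian 2 (E ⊓ Subgroup.centralizer ({a} : Set X)) :=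
    elemAb_of_le hE inf_le_left
  have h1 := card_le_card_fix_sq (E ⊓ Subgroup.centralizer ({a} : Set X)) hF b hb2 (by
    intro e he
    obtain ⟨heE, hea⟩ := Subgroup.mem_inf.mp he
    refine Subgroup.mem_inf.mpr ⟨‹E.Normal›.conj_mem e heE b, ?_⟩
    rw [Subgroup.mem_centralizer_iff] at hea ⊢
    intro y hy
    rw [Set.mem_singleton_iff] at hy
    rw [hy]
    have h2 := hea a rfl
    calc a * (b * e * b⁻¹) = b * (a * e) * b⁻¹ := by
          rw [← mul_assoc, ← mul_assoc, hab]; group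
      _ = b * (e * a) * b⁻¹ := by rw [h2]
      _ = b * e * b⁻¹ * a := by
          have hab' : a * b⁻¹ = b⁻¹ * a := by
            calc a * b⁻¹ = b⁻¹ * (b * a) * b⁻¹ := by group
              _ = b⁻¹ * (a * b) * b⁻¹ := by rw [hab]
              _ = b⁻¹ * a := by group
          calc b * (e * a) * b⁻¹ = b * e * (a * b⁻¹) := by group
            _ = b * e * (b⁻¹ * a) := by rw [hab']
            _ = b * e * b⁻¹ * a := by group)
  obtain ⟨k, hk⟩ := IsPGroup.iff_card.mp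
    (hX.to_subgroup (E ⊓ Subgroup.centralizer ({a} : Set X) ⊓
      Subgroup.centralizer ({b} : Set X)))
  rw [hk] at h1 ⊢
  exact two_pow_ge_four k (h8.trans h1)

theorem zpowers_le_cx {x y : X} (h : x * y = y * x) :
    Subgroup.zpowers x ≤ Subgroup.centralizer ({y} : Set X) := by
  rw [Subgroup.zpowers_le, Subgroup.mem_centralizer_iff]
  intro w hw
  rw [Set.mem_singleton_iff] at hw
  rw [hw]
  exact h.symm

theorem comm_of_le_cx {K : Subgroup X} {x : X}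
    (h : K ≤ Subgroup.centralizer ({x} : Set X)) : ∀ k ∈ K, k * x = x * k :=
  fun _ hk => (Subgroup.mem_centralizer_iff.mp (h hk) x rfl).symm

theorem comm_of_mem_cx {e x : X} (h : e ∈ Subgroup.centralizer ({x} : Set X)) : x * e = e * x :=
  Subgroup.mem_centralizer_iff.mp h x rfl

theorem mem_cx_of_comm {e x : X} (h : x * e = e * x) : e ∈ Subgroup.centralizer ({x} : Set X) := by
  rw [Subgroup.mem_centralizer_iff]
  intro w hw
  rw [Set.mem_singleton_iff] at hw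
  rw [hw]
  exact h

theorem center_le_cx (x : X) : Subgroup.center X ≤ Subgroup.centralizer ({x} : Set X) :=
  Subgroup.center_le_centralizer _

theorem sup_zpowers_le_centralizer' (H C : Subgroup X) (x : X)
    (h1 : H ≤ Subgroup.centralizer (C : Set X)) (h2 : C ≤ Subgroup.centralizer ({x} : Set X)) :
    H ⊔ Subgroup.zpowers x ≤ Subgroup.centralizer (C : Set X) :=
  sup_le h1 (Subgroup.zpowers_le.mpr (Subgroup.mem_centralizer_iff.mpr (comm_of_le_cx h2)))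

/-- The relation of the statement. -/
def e8Rel (C D : Subgroup X) : Prop :=
  Cfsg.IsElementaryAbelian 2 C ∧ Nat.card ↥C = 8 ∧ Cfsg.IsElementaryAbelian 2 D ∧
    Nat.card ↥D = 8 ∧ ⁅C, D⁆ = ⊥

theorem e8Rel_of_le_centralizer {C D : Subgroup X} (hC : Cfsg.IsElementaryAbelian 2 C)
    (hC8 : Nat.card ↥C = 8) (hD : Cfsg.IsElementaryAbelian 2 D) (hD8 : Nat.card ↥D = 8)
    (h : D ≤ Subgroup.centralizer (C : Set X)) : e8Rel C D :=
  ⟨hC, hC8, hD, hD8, by
    rw [Subgroup.commutator_eq_bot_iff_le_centralizer]; exact Subgroup.le_centralizer_iff.mp h⟩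

theorem card_dvd_four_le_two (n : ℕ) (h : n ∣ 4) (hne : n ≠ 4) : n ≤ 2 := by
  have h5 : n ≤ 4 := Nat.le_of_dvd (by norm_num) h
  interval_cases n <;> omega

/-- Every `E_8` is connected to an `E_8` inside `E`. -/
theorem e8_chain (hX : IsPGroup 2 X) (E : Subgroup X) [E.Normal]
    (hE : Cfsg.IsElementaryAbelian 2 E) (hE32 : 32 ≤ Nat.card ↥E)
    (A : Subgroup X) (hA : Cfsg.IsElementaryAbelian 2 A) (hA8 : Nat.card ↥A = 8) :
    ∃ A₃ : Subgroup X, A₃ ≤ E ∧ Cfsg.IsElementaryAbelian 2 A₃ ∧ Nat.card ↥A₃ = 8 ∧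
      Relation.ReflTransGen e8Rel A A₃ := by
  have hAc := (isMulCommutative_iff_forall A).mp hA.1
  have hEc := (isMulCommutative_iff_forall E).mp hE.1
  have hEne : E ≠ ⊥ := by
    rintro rfl
    rw [Subgroup.card_bot] at hE32
    omega
  obtain ⟨z, hzE, hz1, hzZ⟩ := exists_ne_one_mem_center_of_normal hX E hEne
  have hz2 : z ^ 2 = 1 := hE.2 z hzE
  obtain ⟨hZ₁ea, hZ₁card⟩ := elemAb_sup_zpowers ⊥ elemAb_bot z hz2
    (by rw [Subgroup.mem_bot]; exact hz1)
    (fun h hh => by rw [Subgroup.mem_bot] at hh; rw [hh, one_mul, mul_one])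
  rw [Subgroup.card_bot, mul_one] at hZ₁card
  obtain ⟨Z₁, hZ₁def⟩ : ∃ Z₁ : Subgroup X, Z₁ = ⊥ ⊔ Subgroup.zpowers z := ⟨_, rfl⟩
  rw [← hZ₁def] at hZ₁ea hZ₁card
  have hZ₁cen : Z₁ ≤ Subgroup.center X := by
    rw [hZ₁def]; exact sup_le bot_le (Subgroup.zpowers_le.mpr hzZ)
  have hZ₁E : Z₁ ≤ E := by rw [hZ₁def]; exact sup_le bot_le (Subgroup.zpowers_le.mpr hzE)
  have hZ₁cx : ∀ x : X, Z₁ ≤ Subgroup.centralizer ({x} : Set X) := fun x =>
    hZ₁cen.trans (center_le_cx x)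
  have hZ₁C : ∀ C : Subgroup X, Z₁ ≤ Subgroup.centralizer (C : Set X) := fun C =>
    hZ₁cen.trans (Subgroup.center_le_centralizer _)
  -- `a`
  have hAZ : ¬ A ≤ Z₁ := by
    intro h
    have := Subgroup.card_le_of_le h
    omega
  obtain ⟨a, haA, haZ⟩ := SetLike.not_le_iff_exists.mp hAZ
  have ha2 : a ^ 2 = 1 := hA.2 a haA
  obtain ⟨hH₂ea, hH₂card⟩ := elemAb_sup_zpowers Z₁ hZ₁ea a ha2 haZ (comm_of_le_cx (hZ₁cx a))
  rw [hZ₁card] at hH₂card
  norm_num at hH₂card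
  obtain ⟨H₂, hH₂def⟩ : ∃ H₂ : Subgroup X, H₂ = Z₁ ⊔ Subgroup.zpowers a := ⟨_, rfl⟩
  rw [← hH₂def] at hH₂ea hH₂card
  have haH₂ : a ∈ H₂ := by rw [hH₂def]; exact Subgroup.mem_sup_right (Subgroup.mem_zpowers a)
  have hZ₁H₂ : Z₁ ≤ H₂ := by rw [hH₂def]; exact le_sup_left
  -- `b`
  have hAH : ¬ A ≤ H₂ := by
    intro h
    have := Subgroup.card_le_of_le h
    omega
  obtain ⟨b, hbA, hbH⟩ := SetLike.not_le_iff_exists.mp hAH
  have hb2 : b ^ 2 = 1 := hA.2 b hbA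
  have hab : a * b = b * a := hAc a haA b hbA
  have hH₂b : H₂ ≤ Subgroup.centralizer ({b} : Set X) := by
    rw [hH₂def]; exact sup_le (hZ₁cx b) (zpowers_le_cx hab)
  obtain ⟨hA₁ea, hA₁card⟩ := elemAb_sup_zpowers H₂ hH₂ea b hb2 hbH (comm_of_le_cx hH₂b)
  rw [hH₂card] at hA₁card
  norm_num at hA₁card
  obtain ⟨A₁, hA₁def⟩ : ∃ A₁ : Subgroup X, A₁ = H₂ ⊔ Subgroup.zpowers b := ⟨_, rfl⟩
  rw [← hA₁def] at hA₁ea hA₁card
  have hAa : A ≤ Subgroup.centralizer ({a} : Set X) := fun c hc => mem_cx_of_comm (hAc a haA c hc)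
  have hAb : A ≤ Subgroup.centralizer ({b} : Set X) := fun c hc => mem_cx_of_comm (hAc b hbA c hc)
  have hR1 : e8Rel A A₁ := e8Rel_of_le_centralizer hA hA8 hA₁ea (by norm_num [hA₁card]) (by
    rw [hA₁def, hH₂def]
    exact sup_zpowers_le_centralizer' _ A b (sup_zpowers_le_centralizer' _ A a (hZ₁C A) hAa) hAb)
  -- `w`
  have hW : ¬ (E ⊓ Subgroup.centralizer ({a} : Set X) ⊓ Subgroup.centralizer ({b} : Set X)) ≤
      H₂ := by
    by_cases haE : a ∈ E
    · have h8 := card_fix_ge_eight hX E hE hE32 b hb2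
      have hle : E ⊓ Subgroup.centralizer ({b} : Set X) ≤
          E ⊓ Subgroup.centralizer ({a} : Set X) ⊓ Subgroup.centralizer ({b} : Set X) := by
        intro e he
        obtain ⟨heE, heb⟩ := Subgroup.mem_inf.mp he
        exact Subgroup.mem_inf.mpr ⟨Subgroup.mem_inf.mpr ⟨heE, mem_cx_of_comm (hEc a haE e heE)⟩,
          heb⟩
      intro h
      have := Subgroup.card_le_of_le (hle.trans h)
      omega
    · have h4 := card_fix_ge_four hX E hE hE32 a b ha2 hb2 hab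
      intro h
      have hWE : E ⊓ Subgroup.centralizer ({a} : Set X) ⊓ Subgroup.centralizer ({b} : Set X) ≤
          H₂ ⊓ E := le_inf h (inf_le_left.trans inf_le_left)
      have hne : H₂ ⊓ E ≠ H₂ := by
        intro h'
        apply haE
        have : a ∈ H₂ ⊓ E := by rw [h']; exact haH₂
        exact (Subgroup.mem_inf.mp this).2
      have hdvd : Nat.card ↥(H₂ ⊓ E) ∣ 4 := by
        rw [← hH₂card]; exact Subgroup.card_dvd_of_le inf_le_left
      have hne' : Nat.card ↥(H₂ ⊓ E) ≠ 4 := by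
        intro h'
        exact hne (Subgroup.eq_of_le_of_card_ge inf_le_left (by rw [h', hH₂card]))
      have hle2 := card_dvd_four_le_two _ hdvd hne'
      have := Subgroup.card_le_of_le hWE
      omega
  obtain ⟨w, hwW, hwH⟩ := SetLike.not_le_iff_exists.mp hW
  obtain ⟨hwEa, hwb'⟩ := Subgroup.mem_inf.mp hwW
  obtain ⟨hwE, hwa'⟩ := Subgroup.mem_inf.mp hwEa
  have hwa : a * w = w * a := comm_of_mem_cx hwa'
  have hwb : b * w = w * b := comm_of_mem_cx hwb'
  have hw2 : w ^ 2 = 1 := hE.2 w hwE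
  have hH₂w : H₂ ≤ Subgroup.centralizer ({w} : Set X) := by
    rw [hH₂def]; exact sup_le (hZ₁cx w) (zpowers_le_cx hwa)
  obtain ⟨hA₂ea, hA₂card⟩ := elemAb_sup_zpowers H₂ hH₂ea w hw2 hwH (comm_of_le_cx hH₂w)
  rw [hH₂card] at hA₂card
  norm_num at hA₂card
  obtain ⟨A₂, hA₂def⟩ : ∃ A₂ : Subgroup X, A₂ = H₂ ⊔ Subgroup.zpowers w := ⟨_, rfl⟩
  rw [← hA₂def] at hA₂ea hA₂card
  have hA₁a : A₁ ≤ Subgroup.centralizer ({a} : Set X) := by
    rw [hA₁def, hH₂def]
    exact sup_le (sup_le (hZ₁cx a) (zpowers_le_cx rfl)) (zpowers_le_cx hab.symm)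
  have hA₁w : A₁ ≤ Subgroup.centralizer ({w} : Set X) := by
    rw [hA₁def]
    exact sup_le hH₂w (zpowers_le_cx hwb)
  have hR2 : e8Rel A₁ A₂ := e8Rel_of_le_centralizer hA₁ea (by norm_num [hA₁card]) hA₂ea
    (by norm_num [hA₂card]) (by
    rw [hA₂def, hH₂def]
    exact sup_zpowers_le_centralizer' _ A₁ w (sup_zpowers_le_centralizer' _ A₁ a (hZ₁C A₁) hA₁a)
      hA₁w)
  -- `H₃` and `w'`
  have hwZ : w ∉ Z₁ := fun h => hwH (hZ₁H₂ h)
  obtain ⟨hH₃ea, hH₃card⟩ := elemAb_sup_zpowers Z₁ hZ₁ea w hw2 hwZ (comm_of_le_cx (hZ₁cx w))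
  rw [hZ₁card] at hH₃card
  norm_num at hH₃card
  obtain ⟨H₃, hH₃def⟩ : ∃ H₃ : Subgroup X, H₃ = Z₁ ⊔ Subgroup.zpowers w := ⟨_, rfl⟩
  rw [← hH₃def] at hH₃ea hH₃card
  have h8a := card_fix_ge_eight hX E hE hE32 a ha2
  have hFa : ¬ (E ⊓ Subgroup.centralizer ({a} : Set X)) ≤ H₃ := by
    intro h
    have := Subgroup.card_le_of_le h
    omega
  obtain ⟨w', hw'F, hw'H⟩ := SetLike.not_le_iff_exists.mp hFa
  obtain ⟨hw'E, hw'a'⟩ := Subgroup.mem_inf.mp hw'F
  have hw'a : a * w' = w' * a := comm_of_mem_cx hw'a'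
  have hw'2 : w' ^ 2 = 1 := hE.2 w' hw'E
  have hww' : w * w' = w' * w := hEc w hwE w' hw'E
  have hH₃w' : H₃ ≤ Subgroup.centralizer ({w'} : Set X) := by
    rw [hH₃def]; exact sup_le (hZ₁cx w') (zpowers_le_cx hww')
  obtain ⟨hA₃ea, hA₃card⟩ := elemAb_sup_zpowers H₃ hH₃ea w' hw'2 hw'H (comm_of_le_cx hH₃w')
  rw [hH₃card] at hA₃card
  norm_num at hA₃card
  obtain ⟨A₃, hA₃def⟩ : ∃ A₃ : Subgroup X, A₃ = H₃ ⊔ Subgroup.zpowers w' := ⟨_, rfl⟩
  rw [← hA₃def] at hA₃ea hA₃card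
  have hA₃E : A₃ ≤ E := by
    rw [hA₃def, hH₃def]
    exact sup_le (sup_le hZ₁E (Subgroup.zpowers_le.mpr hwE)) (Subgroup.zpowers_le.mpr hw'E)
  have hA₂w : A₂ ≤ Subgroup.centralizer ({w} : Set X) := by
    rw [hA₂def]
    exact sup_le hH₂w (zpowers_le_cx rfl)
  have hA₂w' : A₂ ≤ Subgroup.centralizer ({w'} : Set X) := by
    rw [hA₂def, hH₂def]
    exact sup_le (sup_le (hZ₁cx w') (zpowers_le_cx hw'a)) (zpowers_le_cx hww')
  have hR3 : e8Rel A₂ A₃ := e8Rel_of_le_centralizer hA₂ea (by norm_num [hA₂card]) hA₃ea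
    (by norm_num [hA₃card]) (by
    rw [hA₃def, hH₃def]
    exact sup_zpowers_le_centralizer' _ A₂ w' (sup_zpowers_le_centralizer' _ A₂ w (hZ₁C A₂) hA₂w)
      hA₂w')
  exact ⟨A₃, hA₃E, hA₃ea, by norm_num [hA₃card],
    ((Relation.ReflTransGen.single hR1).trans (Relation.ReflTransGen.single hR2)).trans
      (Relation.ReflTransGen.single hR3)⟩

/-- Connectivity. -/
theorem e8_connected (hX : IsPGroup 2 X) (E : Subgroup X) [E.Normal]
    (hE : Cfsg.IsElementaryAbelian 2 E) (hE32 : 32 ≤ Nat.card ↥E) :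
    ∀ A B : Subgroup X, Cfsg.IsElementaryAbelian 2 A → Nat.card ↥A = 8 →
      Cfsg.IsElementaryAbelian 2 B → Nat.card ↥B = 8 →
        Relation.ReflTransGen
          (fun C D : Subgroup X => Cfsg.IsElementaryAbelian 2 C ∧ Nat.card ↥C = 8 ∧
            Cfsg.IsElementaryAbelian 2 D ∧ Nat.card ↥D = 8 ∧ ⁅C, D⁆ = ⊥) A B := by
  intro A B hA hA8 hB hB8
  have hEc := (isMulCommutative_iff_forall E).mp hE.1
  obtain ⟨A₃, hA₃E, hA₃ea, hA₃8, hchA⟩ := e8_chain hX E hE hE32 A hA hA8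
  obtain ⟨B₃, hB₃E, hB₃ea, hB₃8, hchB⟩ := e8_chain hX E hE hE32 B hB hB8
  have hsymm : ∀ C D : Subgroup X, e8Rel C D → e8Rel D C := by
    rintro C D ⟨h1, h2, h3, h4, h5⟩
    exact ⟨h3, h4, h1, h2, by rw [Subgroup.commutator_comm]; exact h5⟩
  have hsymm' : ∀ C D : Subgroup X, Relation.ReflTransGen e8Rel C D →
      Relation.ReflTransGen e8Rel D C := by
    intro C D h
    induction h with
    | refl => exact Relation.ReflTransGen.refl
    | tail _ hbc ih => exact (Relation.ReflTransGen.single (hsymm _ _ hbc)).trans ih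
  have hmid : e8Rel A₃ B₃ := e8Rel_of_le_centralizer hA₃ea hA₃8 hB₃ea hB₃8 (by
    intro y hy
    rw [Subgroup.mem_centralizer_iff]
    intro x hx
    exact hEc x (hA₃E hx) y (hB₃E hy))
  exact (hchA.trans (Relation.ReflTransGen.single hmid)).trans
    (hsymm' _ _ hchB)

/-- Every four-group lies in an `E_8`. -/
theorem e4_le_e8 (hX : IsPGroup 2 X) (E : Subgroup X) [E.Normal]
    (hE : Cfsg.IsElementaryAbelian 2 E) (hE32 : 32 ≤ Nat.card ↥E) (V : Subgroup X)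
    (hV : Cfsg.IsElementaryAbelian 2 V) (hV4 : Nat.card ↥V = 4) :
    ∃ A : Subgroup X, V ≤ A ∧ Cfsg.IsElementaryAbelian 2 A ∧ Nat.card ↥A = 8 := by
  have hVc := (isMulCommutative_iff_forall V).mp hV.1
  have hEc := (isMulCommutative_iff_forall E).mp hE.1
  have hV1 : ¬ V ≤ ⊥ := by
    intro h
    have := Subgroup.card_le_of_le h
    rw [Subgroup.card_bot] at this
    omega
  obtain ⟨v₁, hv₁V, hv₁⟩ := SetLike.not_le_iff_exists.mp hV1
  have hv₁2 : v₁ ^ 2 = 1 := hV.2 v₁ hv₁V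
  obtain ⟨hY₁ea, hY₁card⟩ := elemAb_sup_zpowers ⊥ elemAb_bot v₁ hv₁2 hv₁
    (fun h hh => by rw [Subgroup.mem_bot] at hh; rw [hh, one_mul, mul_one])
  rw [Subgroup.card_bot, mul_one] at hY₁card
  have hV2 : ¬ V ≤ ⊥ ⊔ Subgroup.zpowers v₁ := by
    intro h
    have := Subgroup.card_le_of_le h
    omega
  obtain ⟨v₂, hv₂V, hv₂⟩ := SetLike.not_le_iff_exists.mp hV2
  have hv₂2 : v₂ ^ 2 = 1 := hV.2 v₂ hv₂V
  have hv12 : v₁ * v₂ = v₂ * v₁ := hVc v₁ hv₁V v₂ hv₂V
  obtain ⟨hY₂ea, hY₂card⟩ := elemAb_sup_zpowers (⊥ ⊔ Subgroup.zpowers v₁) hY₁ea v₂ hv₂2 hv₂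
    (comm_of_le_cx (sup_le bot_le (zpowers_le_cx hv12)))
  have hVeq : (⊥ ⊔ Subgroup.zpowers v₁) ⊔ Subgroup.zpowers v₂ = V :=
    Subgroup.eq_of_le_of_card_ge
      (sup_le (sup_le bot_le (Subgroup.zpowers_le.mpr hv₁V)) (Subgroup.zpowers_le.mpr hv₂V))
      (by rw [hY₂card, hY₁card, hV4])
  have h4 := card_fix_ge_four hX E hE hE32 v₁ v₂ hv₁2 hv₂2 hv12
  have hWV : ¬ (E ⊓ Subgroup.centralizer ({v₁} : Set X) ⊓
      Subgroup.centralizer ({v₂} : Set X)) ≤ V := by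
    intro h
    have hWeq : E ⊓ Subgroup.centralizer ({v₁} : Set X) ⊓ Subgroup.centralizer ({v₂} : Set X) = V :=
      Subgroup.eq_of_le_of_card_ge h (by rw [hV4]; exact h4)
    have hVE : V ≤ E := by rw [← hWeq]; exact inf_le_left.trans inf_le_left
    have hEW : E ≤ E ⊓ Subgroup.centralizer ({v₁} : Set X) ⊓
        Subgroup.centralizer ({v₂} : Set X) := by
      intro e he
      exact Subgroup.mem_inf.mpr ⟨Subgroup.mem_inf.mpr
        ⟨he, mem_cx_of_comm (hEc v₁ (hVE hv₁V) e he)⟩, mem_cx_of_comm (hEc v₂ (hVE hv₂V) e he)⟩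
    have := Subgroup.card_le_of_le (hEW.trans h)
    omega
  obtain ⟨e, heW, heV⟩ := SetLike.not_le_iff_exists.mp hWV
  obtain ⟨heE1, he2'⟩ := Subgroup.mem_inf.mp heW
  obtain ⟨heE, he1'⟩ := Subgroup.mem_inf.mp heE1
  have he2 : e ^ 2 = 1 := hE.2 e heE
  have hVe : ∀ h ∈ V, h * e = e * h := by
    apply comm_of_le_cx
    rw [← hVeq]
    exact sup_le (sup_le bot_le (zpowers_le_cx (comm_of_mem_cx he1')))
      (zpowers_le_cx (comm_of_mem_cx he2'))
  obtain ⟨hAea, hAcard⟩ := elemAb_sup_zpowers V hV e he2 heV hVe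
  exact ⟨V ⊔ Subgroup.zpowers e, le_sup_left, hAea, by rw [hAcard, hV4]⟩

end main

end Cfsg.Agent.Lib.Helper3
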