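import Cfsg.Agent.Lib.Helper3.Crit
import Cfsg.Agent.Lib.Helper3.ChiefAct

/-! Chief chains and the "Hom" lemma for chief factors of a normal `p`-subgroup with a critical
subgroup. -/

namespace Cfsg.Agent.Lib.Helper3

open Cfsg
open scoped commutatorElement

section chain
variable {X : Type*} [Group X] [Finite X]

theorem exists_chief_below_rel (U D : Subgroup X) [hUn : U.Normal] [hDn : D.Normal]
    (hDU : D < U) : ∃ V : Subgroup X, IsChiefFactor U V ∧ D ≤ V := by
  classical
  obtain ⟨s, hs⟩ : ∃ s : Set (Subgroup X), s = {V | V.Normal ∧ D ≤ V ∧ V < U} := ⟨_, rfl⟩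
  have hne : s.Nonempty := ⟨D, by rw [hs]; exact ⟨hDn, le_rfl, hDU⟩⟩
  obtain ⟨V, hVmem⟩ := (Set.toFinite s).exists_maximalFor (fun V : Subgroup X => Nat.card ↥V) s hne
  have hVs : V ∈ s := hVmem.1
  rw [hs] at hVs
  obtain ⟨hVn, hDV, hVU⟩ := hVs
  refine ⟨V, ⟨hVU, hUn, hVn, ?_⟩, hDV⟩
  intro N hNn hVN hNU
  by_cases hNeq : N = U
  · exact Or.inr hNeq
  · left
    have hNs : N ∈ s := by
      rw [hs]; exact ⟨hNn, hDV.trans hVN, lt_of_le_of_ne hNU hNeq⟩
    have h1 := hVmem.2 hNs (Nat.card_le_card_of_injective (Subgroup.inclusion hVN)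
      (Subgroup.inclusion_injective hVN))
    have h2 : Nat.card ↥N = Nat.card ↥V :=
      le_antisymm h1 (Nat.card_le_card_of_injective (Subgroup.inclusion hVN)
      (Subgroup.inclusion_injective hVN))
    exact (Subgroup.eq_of_le_of_card_ge hVN (le_of_eq h2)).symm

theorem exists_chief_chain (D : Subgroup X) [hDn : D.Normal] : ∀ n : ℕ, ∀ Q : Subgroup X,
    Q.Normal → D ≤ Q → Nat.card ↥Q ≤ n →
    ∃ (c : ℕ → Subgroup X) (r : ℕ), c 0 = Q ∧ (∀ k, r ≤ k → c k = D) ∧ (∀ k, (c k).Normal) ∧
      (∀ k, c (k + 1) = c k ∨ IsChiefFactor (c k) (c (k + 1))) := by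
  intro n
  induction n with
  | zero =>
    intro Q hQn hDQ hcard
    exfalso
    have : 0 < Nat.card ↥Q := Nat.card_pos
    omega
  | succ n ih =>
    intro Q hQn hDQ hcard
    by_cases hQD : Q = D
    · exact ⟨fun _ => D, 0, hQD.symm, fun _ _ => rfl, fun _ => hDn, fun _ => Or.inl rfl⟩
    · have hlt : D < Q := lt_of_le_of_ne hDQ (Ne.symm hQD)
      obtain ⟨W, hW, hDW⟩ := exists_chief_below_rel Q D hlt
      have hWlt : Nat.card ↥W < Nat.card ↥Q := by
        by_contra hcon
        push Not at hcon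
        exact (ne_of_lt hW.1) (Subgroup.eq_of_le_of_card_ge hW.1.le hcon)
      obtain ⟨c, r, hc0, hcr, hcn, hcs⟩ := ih W hW.2.2.1 hDW (by omega)
      refine ⟨fun k => Nat.casesOn k Q c, r + 1, rfl, ?_, ?_, ?_⟩
      · intro k hk
        cases k with
        | zero => omega
        | succ k => exact hcr k (by omega)
      · intro k
        cases k with
        | zero => exact hQn
        | succ k => exact hcn k
      · intro k
        cases k with
        | zero =>
          right
          show IsChiefFactor Q (c 0)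
          rw [hc0]; exact hW
        | succ k => exact hcs k

/-- A chief chain of `Q` through the normal subgroup `D`. -/
theorem exists_chief_chain_through (D Q : Subgroup X) [hDn : D.Normal] [hQn : Q.Normal]
    (hDQ : D ≤ Q) :
    ∃ (E : ℕ → Subgroup X) (r m : ℕ), E 0 = Q ∧ E r = D ∧ (∀ k, r + m ≤ k → E k = ⊥) ∧
      (∀ k, (E k).Normal) ∧ (∀ k, E (k + 1) = E k ∨ IsChiefFactor (E k) (E (k + 1))) := by
  classical
  obtain ⟨c1, r, h10, h1r, h1n, h1s⟩ := exists_chief_chain D (Nat.card ↥Q) Q hQn hDQ le_rfl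
  obtain ⟨c2, m, h20, h2r, h2n, h2s⟩ := exists_chief_chain (⊥ : Subgroup X) (Nat.card ↥D) D hDn
    bot_le le_rfl
  refine ⟨fun k => if k ≤ r then c1 k else c2 (k - r), r, m, ?_, ?_, ?_, ?_, ?_⟩
  · show (if 0 ≤ r then c1 0 else c2 (0 - r)) = Q
    rw [if_pos (Nat.zero_le r)]; exact h10
  · show (if r ≤ r then c1 r else c2 (r - r)) = D
    rw [if_pos le_rfl]; exact h1r r le_rfl
  · intro k hk
    show (if k ≤ r then c1 k else c2 (k - r)) = ⊥
    by_cases hkr : k ≤ r
    · have hm : m = 0 := by omega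
      have hkr' : k = r := by omega
      rw [if_pos hkr, hkr', h1r r le_rfl, ← h20]
      exact h2r 0 (by omega)
    · rw [if_neg hkr]
      exact h2r _ (by omega)
  · intro k
    show (if k ≤ r then c1 k else c2 (k - r)).Normal
    by_cases hkr : k ≤ r
    · rw [if_pos hkr]; exact h1n k
    · rw [if_neg hkr]; exact h2n _
  · intro k
    show (if k + 1 ≤ r then c1 (k + 1) else c2 (k + 1 - r)) = (if k ≤ r then c1 k else c2 (k - r)) ∨
      IsChiefFactor (if k ≤ r then c1 k else c2 (k - r))
        (if k + 1 ≤ r then c1 (k + 1) else c2 (k + 1 - r))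
    by_cases hkr : k + 1 ≤ r
    · rw [if_pos hkr, if_pos (by omega : k ≤ r)]
      exact h1s k
    · rw [if_neg hkr]
      by_cases hkr' : k ≤ r
      · have hkeq : k = r := by omega
        rw [if_pos hkr', hkeq, h1r r le_rfl]
        have h3 : r + 1 - r = 0 + 1 := by omega
        rw [h3]
        have h4 := h2s 0
        rw [h20] at h4
        exact h4
      · rw [if_neg hkr']
        have h3 : k + 1 - r = (k - r) + 1 := by omega
        rw [h3]
        exact h2s (k - r)

omit [Finite X] in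
theorem chief_chain_antitone (E : ℕ → Subgroup X)
    (hs : ∀ k, E (k + 1) = E k ∨ IsChiefFactor (E k) (E (k + 1))) : Antitone E := by
  apply antitone_nat_of_succ_le
  intro k
  rcases hs k with h | h
  · exact le_of_eq h
  · exact h.1.le

end chain

section hom
variable {G : Type*} [Group G] [Finite G] {p : ℕ} [Fact p.Prime]

/-- The Hom lemma for chief factors: `P` a normal `p`-subgroup, `Q ≤ P` normal of class two with
`[P, Q] ≤ Z(Q)` and `C_P(Q) ≤ Z(Q)`.  If `g` is `i`-nilpotent on the chief factors in `Q` and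
`j`-nilpotent on those in `Z(Q)`, it is `(i + j - 1)`-nilpotent on all chief factors in `P`. -/
theorem chief_hom_lemma (P : Subgroup G) [hPn : P.Normal] (hP : IsPGroup p ↥P) (Q : Subgroup G)
    [hQn : Q.Normal] (hQP : Q ≤ P)
    (hQ3 : ⁅P, Q⁆ ≤ Q ⊓ Subgroup.centralizer ((Q : Subgroup G) : Set G))
    (hQ4 : P ⊓ Subgroup.centralizer ((Q : Subgroup G) : Set G)
      ≤ Q ⊓ Subgroup.centralizer ((Q : Subgroup G) : Set G)) (g : G) (i j : ℕ) (hi : 1 ≤ i)
    (hj : 1 ≤ j)
    (hQi : ∀ U V : Subgroup G, IsChiefFactor U V → U ≤ Q →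
      iterCommutator U (Subgroup.zpowers g) i ≤ V)
    (hZj : ∀ U V : Subgroup G, IsChiefFactor U V →
      U ≤ Q ⊓ Subgroup.centralizer ((Q : Subgroup G) : Set G) →
      iterCommutator U (Subgroup.zpowers g) j ≤ V) :
    ∀ U V : Subgroup G, IsChiefFactor U V → U ≤ P →
      iterCommutator U (Subgroup.zpowers g) (i + j - 1) ≤ V := by
  classical
  obtain ⟨D, hD⟩ : ∃ D, D = Q ⊓ Subgroup.centralizer (Q : Set G) := ⟨_, rfl⟩
  rw [← hD] at hQ3 hQ4 hZj
  obtain ⟨H, hH⟩ : ∃ H, H = Subgroup.zpowers g := ⟨_, rfl⟩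
  have hcn : (Subgroup.centralizer (Q : Set G)).Normal := Subgroup.normal_centralizer
  have hDn : D.Normal := by
    rw [hD]; exact Subgroup.normal_inf_normal _ _
  have hDQ : D ≤ Q := by rw [hD]; exact inf_le_left
  have hDQc : ⁅D, Q⁆ = ⊥ := by
    rw [Subgroup.commutator_eq_bot_iff_le_centralizer, hD]
    exact inf_le_right
  obtain ⟨E, r, m, hE0, hEr, hEm, hEn, hEs⟩ := exists_chief_chain_through D Q hDQ
  have hEanti : Antitone E := chief_chain_antitone E hEs
  have hEQ : ∀ k, E k ≤ Q := fun k => (hEanti (Nat.zero_le k)).trans (le_of_eq hE0)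
  have hED : ∀ k, r ≤ k → E k ≤ D := fun k hk => (hEanti hk).trans (le_of_eq hEr)
  have hEP : ∀ k, IsPGroup p ↥(E k) := fun k => hP.to_le ((hEQ k).trans hQP)
  -- F6, F7, F8
  have hF6 : ∀ k, iterCommutator (E k) (Subgroup.zpowers g) i ≤ E (k + 1) := by
    intro k
    rcases hEs k with h | h
    · rw [h]
      have := hEn k
      exact iterCommutator_le_of_normal (E k) _ i
    · exact hQi _ _ h (hEQ k)
  have hF7 : ∀ k, r ≤ k → iterCommutator (E k) (Subgroup.zpowers g) j ≤ E (k + 1) := by
    intro k hk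
    rcases hEs k with h | h
    · rw [h]
      have := hEn k
      exact iterCommutator_le_of_normal (E k) _ j
    · exact hZj _ _ h (hED k hk)
  have hF8 : ∀ k, ⁅E k, P⁆ ≤ E (k + 1) := by
    intro k
    rcases hEs k with h | h
    · rw [h]
      have := hEn k
      exact Subgroup.commutator_le_left (E k) P
    · exact chief_commutator_le_of_normal_pGroup h (hEP k) P hP
  -- the filtration
  let Tf : ℕ → Subgroup G := fun d =>
    { carrier := {x | x ∈ P ∧ ∀ k, ∀ z ∈ E k, ⁅z, x⁆ ∈ E (max (k + d) r)}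
      one_mem' := ⟨P.one_mem, fun k z _ => by
        rw [commutatorElement_one_right]; exact Subgroup.one_mem _⟩
      mul_mem' := by
        rintro x y ⟨hx1, hx2⟩ ⟨hy1, hy2⟩
        refine ⟨P.mul_mem hx1 hy1, fun k z hz => ?_⟩
        have e1 : ⁅z, x * y⁆ = ⁅z, x⁆ * (x * ⁅z, y⁆ * x⁻¹) := by
          simp only [commutatorElement_def]
          group
        rw [e1]
        exact Subgroup.mul_mem _ (hx2 k z hz) ((hEn _).conj_mem _ (hy2 k z hz) x)
      inv_mem' := by
        rintro x ⟨hx1, hx2⟩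
        refine ⟨P.inv_mem hx1, fun k z hz => ?_⟩
        have e1 : ⁅z, x⁻¹⁆ = x⁻¹ * ⁅z, x⁆⁻¹ * x⁻¹⁻¹ := by
          simp only [commutatorElement_def]
          group
        rw [e1]
        exact (hEn _).conj_mem _ (Subgroup.inv_mem _ (hx2 k z hz)) x⁻¹ }
  have hTf : ∀ d x, x ∈ Tf d ↔ x ∈ P ∧ ∀ k, ∀ z ∈ E k, ⁅z, x⁆ ∈ E (max (k + d) r) :=
    fun d x => Iff.rfl
  have hTfn : ∀ d, (Tf d).Normal := by
    intro d
    refine ⟨fun x hx g' => ?_⟩
    rw [hTf] at hx ⊢
    refine ⟨hPn.conj_mem x hx.1 g', fun k z hz => ?_⟩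
    have e1 : ⁅z, g' * x * g'⁻¹⁆ = g' * ⁅g'⁻¹ * z * g'⁻¹⁻¹, x⁆ * g'⁻¹ := by
      simp only [commutatorElement_def]
      group
    rw [e1]
    exact (hEn _).conj_mem _ (hx.2 k _ ((hEn k).conj_mem z hz g'⁻¹)) g'
  have hTfP : ∀ d, Tf d ≤ P := fun d x hx => ((hTf d x).mp hx).1
  have hTf1 : P ≤ Tf 1 := by
    intro x hx
    rw [hTf]
    refine ⟨hx, fun k z hz => ?_⟩
    by_cases hkr : r ≤ k + 1
    · rw [max_eq_left hkr]
      exact hF8 k (Subgroup.commutator_mem_commutator hz hx)
    · rw [max_eq_right (by omega), hEr]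
      apply hQ3
      rw [Subgroup.commutator_comm]
      exact Subgroup.commutator_mem_commutator (hEQ k hz) hx
  have hTfcomm : ∀ d k, ⁅E k, Tf d⁆ ≤ E (max (k + d) r) := by
    intro d k
    rw [Subgroup.commutator_le]
    intro z hz x hx
    exact ((hTf d x).mp hx).2 k z hz
  have hstepTf : ∀ d, 1 ≤ d →
      iterCommutator (Tf d) (Subgroup.zpowers g) (i + j - 1) ≤ Tf (d + 1) := by
    intro d hd y hy
    have hTfdn : (Tf d).Normal := hTfn d
    rw [hTf]
    refine ⟨hTfP d (iterCommutator_le_of_normal (Tf d) _ _ hy), fun k z hz => ?_⟩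
    have h1 := comm_iter_le g (Tf d) (E k) (E (k + 1))
      (E (max (k + d) r)) (E (max (k + (d + 1)) r)) (hTfn d) (hEn k)
      (hEn _) (hV' := hEn _)
      (hTfcomm d k)
      (by
        have h2 := hTfcomm d (k + 1)
        have h3 : k + 1 + d = k + (d + 1) := by omega
        rw [h3] at h2
        exact h2)
      ((Subgroup.commutator_mono (hED _ (le_max_right _ _)) (hEQ k)).trans
        (by rw [hDQc]; exact bot_le))
      ((hTfcomm d (max (k + d) r)).trans (hEanti (by
        rcases le_total (k + d) r with h | h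
        · rw [max_eq_right h, max_eq_left (by omega : r ≤ r + d)]
          exact max_le (by omega) (by omega)
        · rw [max_eq_left h, max_eq_left (by omega : r ≤ k + d + d)]
          exact max_le (by omega) (by omega))))
      i j hi
      (hF6 k)
      (by
        rcases lt_or_ge (k + d) r with h | h
        · rw [max_eq_right h.le, max_eq_right (by omega : k + (d + 1) ≤ r)]
          have := hEn r
          exact iterCommutator_le_of_normal (E r) _ j
        · rw [max_eq_left h, max_eq_left (by omega : r ≤ k + (d + 1))]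
          exact hF7 (k + d) h)
    exact h1 (Subgroup.commutator_mem_commutator hz hy)
  have hTfend : Tf (r + m + 1) ≤ D := by
    intro x hx
    apply hQ4
    refine Subgroup.mem_inf.mpr ⟨hTfP _ hx, ?_⟩
    intro z hz
    have h1 := ((hTf _ x).mp hx).2 0 z (by rw [hE0]; exact hz)
    rw [hEm _ (by
      exact le_max_of_le_left (by omega))] at h1
    rw [Subgroup.mem_bot] at h1
    exact commutatorElement_eq_one_iff_mul_comm.mp h1
  intro U V hUV hUP
  by_contra hcon
  have hcov : ∀ n, U ≤ V ⊔ (U ⊓ Tf (n + 1)) := by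
    intro n
    induction n with
    | zero => exact le_sup_of_le_right (le_inf le_rfl (hUP.trans hTf1))
    | succ n ih =>
      rcases chief_step (Subgroup.zpowers g) (i + j - 1) hUV (hTfn (n + 1 + 1))
        (hstepTf (n + 1) (by omega)) ih with h | h
      · exact absurd h hcon
      · exact h
  have hcov2 : ∀ n, U ≤ V ⊔ (U ⊓ E (r + n)) := by
    intro n
    induction n with
    | zero =>
      have hTfdn : (Tf (r + m + 1)).Normal := hTfn _
      rcases chief_step (Subgroup.zpowers g) (i + j - 1) hUV (hEn (r + 0))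
        ((iterCommutator_le_of_normal (Tf (r + m + 1)) _ _).trans
          (hTfend.trans (le_of_eq hEr.symm))) (hcov (r + m)) with h | h
      · exact absurd h hcon
      · exact h
    | succ n ih =>
      rcases chief_step (Subgroup.zpowers g) (i + j - 1) hUV (hEn (r + (n + 1)))
        ((iterCommutator_antitone (E (r + n)) _
          (by rw [Subgroup.normalizer_eq_top (E (r + n))]; exact le_top)
          (by omega : j ≤ i + j - 1)).trans (hF7 (r + n) (by omega))) ih with h | h
      · exact absurd h hcon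
      · exact h
  have h1 := hcov2 m
  rw [hEm (r + m) le_rfl] at h1
  exact chief_cover_bot hUV h1

end hom

end Cfsg.Agent.Lib.Helper3
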