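import Mathlib
import Cfsg.Agent.Lib.Helper3.IdxP
import Cfsg.Agent.Lib.Helper3.Uniserial

set_option autoImplicit false

namespace Cfsg.Agent.Lib.Helper3

open scoped commutatorElement

theorem gen_commute_all {S Q : Type*} [Group S] [Group Q] {A : Subgroup S} {x : S}
    (hsup : A ⊔ Subgroup.zpowers x = ⊤) (π : S →* Q) (q : Q)
    (hA : ∀ a ∈ A, Commute q (π a)) (hxq : Commute q (π x)) (g : S) : Commute q (π g) := by
  have hC : A ⊔ Subgroup.zpowers x ≤ (Subgroup.centralizer ({q} : Set Q)).comap π := by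
    refine sup_le (fun a ha => ?_) (Subgroup.zpowers_le.mpr ?_)
    · rw [Subgroup.mem_comap, Subgroup.mem_centralizer_iff]
      intro c hc; rw [Set.mem_singleton_iff.mp hc]; exact (hA a ha).eq
    · rw [Subgroup.mem_comap, Subgroup.mem_centralizer_iff]
      intro c hc; rw [Set.mem_singleton_iff.mp hc]; exact hxq.eq
  have hg : g ∈ (Subgroup.centralizer ({q} : Set Q)).comap π :=
    hC (by rw [hsup]; exact Subgroup.mem_top g)
  rw [Subgroup.mem_comap, Subgroup.mem_centralizer_iff] at hg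
  exact hg _ (Set.mem_singleton _)

theorem gen_commutator_le {S : Type*} [Group S] {A : Subgroup S} {x : S}
    (hsup : A ⊔ Subgroup.zpowers x = ⊤) (R : Subgroup S) [R.Normal]
    (hR : ∀ a ∈ A, ∀ g : S, ⁅a, g⁆ ∈ R) : commutator S ≤ R := by
  have hπ : ∀ g h : S, ⁅g, h⁆ ∈ R ↔
      Commute (QuotientGroup.mk' R g) (QuotientGroup.mk' R h) := by
    intro g h
    rw [← commutatorElement_eq_one_iff_commute, ← map_commutatorElement]
    exact (QuotientGroup.eq_one_iff _).symm
  have hac : ∀ a ∈ A, ∀ g : S, Commute (QuotientGroup.mk' R a) (QuotientGroup.mk' R g) :=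
    fun a ha g => (hπ a g).mp (hR a ha g)
  have hxc : ∀ g : S, Commute (QuotientGroup.mk' R x) (QuotientGroup.mk' R g) := fun g =>
    gen_commute_all hsup (QuotientGroup.mk' R) _ (fun a ha => (hac a ha x).symm)
      (Commute.refl _) g
  rw [commutator_def, Subgroup.commutator_le]
  intro g _ h _
  exact (hπ g h).mpr (gen_commute_all hsup (QuotientGroup.mk' R) _
    (fun b hb => (hac b hb h).symm) (hxc h).symm g).symm

theorem pgroup_card_lt_step {G : Type*} [Group G] [Finite G] {p : ℕ} [Fact p.Prime]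
    (hG : IsPGroup p G) {K H : Subgroup G} (hlt : K < H) : p * Nat.card K ≤ Nat.card H := by
  have hp : p.Prime := Fact.out
  have h1 := card_mul_relIndex_eq K H hlt.le
  have h2 : K.relIndex H ≠ 1 := fun h => (not_le_of_gt hlt) (Subgroup.relIndex_eq_one.mp h)
  have h3 : K.relIndex H ∣ Nat.card H := Dvd.intro_left _ h1
  obtain ⟨e, he⟩ := IsPGroup.iff_card.mp (hG.to_subgroup H)
  rw [he] at h3
  obtain ⟨j, hj, hrel⟩ := (Nat.dvd_prime_pow hp).mp h3
  have hj0 : j ≠ 0 := by rintro rfl; exact h2 (by rw [hrel, pow_zero])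
  have hple : p ≤ K.relIndex H := by
    rw [hrel]
    calc p = p ^ 1 := (pow_one p).symm
      _ ≤ p ^ j := Nat.pow_le_pow_right hp.pos (Nat.one_le_iff_ne_zero.mpr hj0)
  calc p * Nat.card K ≤ K.relIndex H * Nat.card K := Nat.mul_le_mul_right _ hple
    _ = Nat.card H := by rw [mul_comm]; exact h1

theorem lcs_top_lt {G : Type*} [Group G] [Finite G] {p : ℕ} [Fact p.Prime] (hG : IsPGroup p G)
    (i : ℕ) (hne : (⊤ : Subgroup G).lowerCentralSeries i ≠ ⊥) :
    (⊤ : Subgroup G).lowerCentralSeries (i + 1) < (⊤ : Subgroup G).lowerCentralSeries i := by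
  rw [Subgroup.lowerCentralSeries_succ]
  exact commutator_lt_of_isPGroup ⊤ _ ⊤ (hG.to_subgroup ⊤) le_top le_rfl
    (le_of_eq (Subgroup.normalizer_eq_top_iff.mpr inferInstance).symm) hne

/-- In a `p`-group of order `p ^ m`, `m ≥ 2`, the commutator subgroup has index at least `p²`. -/
theorem lcs_one_card_le {G : Type*} [Group G] [Finite G] {p : ℕ} [Fact p.Prime] (m : ℕ)
    (hG : Nat.card G = p ^ m) (hm : 2 ≤ m) :
    p ^ 2 * Nat.card ((⊤ : Subgroup G).lowerCentralSeries 1) ≤ p ^ m := by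
  have hp : p.Prime := Fact.out
  have hPG : IsPGroup p G := IsPGroup.of_card hG
  have hpm : p ^ 2 ≤ p ^ m := Nat.pow_le_pow_right hp.pos hm
  have hpp : p < p ^ 2 := by have := hp.one_lt; nlinarith
  have htop : (⊤ : Subgroup G).lowerCentralSeries 0 ≠ ⊥ := by
    rw [Subgroup.lowerCentralSeries_zero]
    intro h
    have h1 : Nat.card G = 1 := by rw [← Subgroup.card_top (G := G), h, Subgroup.card_bot]
    rw [hG] at h1
    have := hp.pos
    linarith
  have hlt0 : (⊤ : Subgroup G).lowerCentralSeries 1 < ⊤ := lcs_top_lt hPG 0 htop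
  have hidx := Subgroup.card_mul_index ((⊤ : Subgroup G).lowerCentralSeries 1)
  rw [hG] at hidx
  have hdvd : ((⊤ : Subgroup G).lowerCentralSeries 1).index ∣ p ^ m := Dvd.intro_left _ hidx
  obtain ⟨j, hj, hij⟩ := (Nat.dvd_prime_pow hp).mp hdvd
  have hj0 : j ≠ 0 := by
    rintro rfl
    rw [pow_zero] at hij
    exact (ne_of_lt hlt0) (Subgroup.index_eq_one.mp hij)
  have hj1 : j ≠ 1 := by
    rintro rfl
    rw [pow_one] at hij
    have hL1top : (⊤ : Subgroup G).lowerCentralSeries 1 ≠ ⊤ := ne_of_lt hlt0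
    obtain ⟨x, hx⟩ : ∃ x, x ∉ (⊤ : Subgroup G).lowerCentralSeries 1 := by
      by_contra hcon
      push_neg at hcon
      exact hL1top (eq_top_iff.mpr (fun g _ => hcon g))
    have hsup : (⊤ : Subgroup G).lowerCentralSeries 1 ⊔ Subgroup.zpowers x = ⊤ :=
      idxp_eq_top hp hij le_sup_left
        (fun h => hx (h (Subgroup.mem_sup_right (Subgroup.mem_zpowers x))))
    have hle : commutator G ≤ (⊤ : Subgroup G).lowerCentralSeries 2 :=
      gen_commutator_le hsup _ (fun a ha g => by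
        show ⁅a, g⁆ ∈ ⁅(⊤ : Subgroup G).lowerCentralSeries 1, ⊤⁆
        exact Subgroup.commutator_mem_commutator ha (Subgroup.mem_top g))
    rw [← Subgroup.top_lowerCentralSeries_one] at hle
    have hL1bot : (⊤ : Subgroup G).lowerCentralSeries 1 = ⊥ := by
      by_contra hne
      exact (not_le_of_gt (lcs_top_lt hPG 1 hne)) hle
    rw [hL1bot, Subgroup.index_bot, hG] at hij
    linarith
  have hj2 : 2 ≤ j := by omega
  calc p ^ 2 * Nat.card ((⊤ : Subgroup G).lowerCentralSeries 1)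
      ≤ p ^ j * Nat.card ((⊤ : Subgroup G).lowerCentralSeries 1) :=
        Nat.mul_le_mul_right _ (Nat.pow_le_pow_right hp.pos hj2)
    _ = p ^ m := by rw [← hij, mul_comm]; exact hidx

theorem lcs_card_le {G : Type*} [Group G] [Finite G] {p : ℕ} [Fact p.Prime] (m : ℕ)
    (hG : Nat.card G = p ^ m) (hm : 2 ≤ m) :
    ∀ i, i + 2 ≤ m →
      p ^ (i + 2) * Nat.card ((⊤ : Subgroup G).lowerCentralSeries (i + 1)) ≤ p ^ m := by
  have hp : p.Prime := Fact.out
  have hPG : IsPGroup p G := IsPGroup.of_card hG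
  intro i
  induction i with
  | zero => intro _; exact lcs_one_card_le m hG hm
  | succ i ih =>
    intro hi
    have h1 := ih (by omega)
    by_cases hne : (⊤ : Subgroup G).lowerCentralSeries (i + 1) = ⊥
    · have h2 : (⊤ : Subgroup G).lowerCentralSeries (i + 1 + 1) = ⊥ := by
        rw [eq_bot_iff, ← hne]
        exact Subgroup.lowerCentralSeries_antitone ⊤ (Nat.le_succ _)
      rw [h2, Subgroup.card_bot, mul_one]
      exact Nat.pow_le_pow_right hp.pos hi
    · have h2 := pgroup_card_lt_step hPG (lcs_top_lt hPG (i + 1) hne)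
      calc p ^ (i + 1 + 2) * Nat.card ((⊤ : Subgroup G).lowerCentralSeries (i + 1 + 1))
          = p ^ (i + 2) * (p * Nat.card ((⊤ : Subgroup G).lowerCentralSeries (i + 1 + 1))) := by
            ring
        _ ≤ p ^ (i + 2) * Nat.card ((⊤ : Subgroup G).lowerCentralSeries (i + 1)) :=
            Nat.mul_le_mul_left _ h2
        _ ≤ p ^ m := h1

/-- A group of order `p ^ m`, `m ≥ 2`, has nilpotency class at most `m - 1`. -/
theorem lcs_eq_bot_of_card {G : Type*} [Group G] [Finite G] {p : ℕ} [Fact p.Prime] (m : ℕ)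
    (hG : Nat.card G = p ^ m) (hm : 2 ≤ m) :
    (⊤ : Subgroup G).lowerCentralSeries (m - 1) = ⊥ := by
  have hp : p.Prime := Fact.out
  obtain ⟨i, rfl⟩ : ∃ i, m = i + 2 := ⟨m - 2, by omega⟩
  have h1 := lcs_card_le (i + 2) hG hm i le_rfl
  have h2 : Nat.card ((⊤ : Subgroup G).lowerCentralSeries (i + 1)) ≤ 1 := by
    have hpos : 0 < p ^ (i + 2) := pow_pos hp.pos _
    exact Nat.le_of_mul_le_mul_left (by rw [mul_one]; exact h1) hpos
  have h3 : i + 2 - 1 = i + 1 := by omega
  rw [h3]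
  exact Subgroup.eq_bot_of_card_le _ h2

end Cfsg.Agent.Lib.Helper3
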