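import Mathlib
import Cfsg.Agent.Lib.Helper3.ZJQuot
import Cfsg.Agent.Lib.Helper3.PConstrLocal
import Cfsg.Agent.Lib.Helper2.PComp

/-! `p`-stability and the quotient by `O_{p'}`. -/

set_option autoImplicit false

universe u

namespace Cfsg.Agent.Lib.Helper3

open Cfsg
open scoped commutatorElement

/-- Abstract `p`-stability gives `p`-stability when `O_{p'} = 1`. -/
theorem isPStable_of_pStab {X : Type*} [Group X] [Finite X] {p : ℕ} [Fact p.Prime]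
    (hodd : Odd p) (hO : Cfsg.pCore p X ≠ ⊥) (hK : Cfsg.pPrimeCore p X = ⊥) (hPS : PStab p X) :
    Cfsg.IsPStable p X := by
  refine ⟨hodd, hO, ?_⟩
  intro A P hA hP hAP hPle hn hquad
  rw [hK, bot_sup_eq] at hn
  rintro _ ⟨⟨a, haN⟩, ha, rfl⟩
  have haA : a ∈ A := Subgroup.mem_subgroupOf.mp ha
  obtain ⟨n, hn'⟩ := hA ⟨a, haA⟩
  have hapow : a ^ p ^ n = 1 := congrArg Subtype.val hn'
  have hz : Subgroup.zpowers a ≤ A := by rw [Subgroup.zpowers_le]; exact haA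
  have hquad' : ⁅⁅P, Subgroup.zpowers a⁆, Subgroup.zpowers a⁆ = ⊥ :=
    le_bot_iff.mp ((Subgroup.commutator_mono (Subgroup.commutator_mono le_rfl hz) hz).trans
      hquad.le)
  obtain ⟨L, hLn, hCL, hLp, haL⟩ := hPS P hn hP a ⟨n, hapow⟩ hquad'
  refine mk_mem_pCore_of_normal_pow
    ((Subgroup.centralizer (P : Set X)).subgroupOf (Subgroup.normalizer (P : Set X)))
    (L.subgroupOf (Subgroup.normalizer (P : Set X))) (hLn.subgroupOf _) ?_ ⟨a, haN⟩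
    (Subgroup.mem_subgroupOf.mpr haL)
  intro x hx
  obtain ⟨k, hk⟩ := hLp (x : X) (Subgroup.mem_subgroupOf.mp hx)
  refine ⟨k, Subgroup.mem_subgroupOf.mpr ?_⟩
  rw [Subgroup.coe_pow]; exact hk

/-- `p`-stability passes to `G / O_{p'}(G)`. -/
theorem isPStable_quotient {G : Type*} [Group G] [Finite G] {p : ℕ} [Fact p.Prime]
    (hs : Cfsg.IsPStable p G) : Cfsg.IsPStable p (G ⧸ Cfsg.pPrimeCore p G) := by
  have hp : p.Prime := Fact.out
  have hKc : (Nat.card ↥(Cfsg.pPrimeCore p G)).Coprime p := pPrimeCore_coprime hp G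
  have hPS : PStab p (G ⧸ Cfsg.pPrimeCore p G) :=
    pStab_quotient_of_lStabOn (Cfsg.pPrimeCore p G) hKc (lStabOn_of_isPStable hs)
  refine isPStable_of_pStab hs.1 ?_ (Cfsg.Agent.Lib.Helper2.pPrimeCore_quotient_eq_bot p G) hPS
  intro hbot
  apply hs.2.1
  rw [eq_bot_iff]
  intro x hx
  rw [Subgroup.mem_bot]
  have hOp : IsPGroup p ↥(Cfsg.pCore p G) := Cfsg.Agent.Lib.Helper2.pCore_isPGroup' p G
  have h1 : QuotientGroup.mk' (Cfsg.pPrimeCore p G) x ∈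
      Cfsg.pCore p (G ⧸ Cfsg.pPrimeCore p G) := by
    refine mk_mem_pCore_of_normal_pow (Cfsg.pPrimeCore p G) (Cfsg.pCore p G)
      (Cfsg.pCore_normal p G) ?_ x hx
    intro y hy
    obtain ⟨k, hk⟩ := hOp ⟨y, hy⟩
    have hk' : y ^ p ^ k = 1 := congrArg Subtype.val hk
    exact ⟨k, by rw [hk']; exact one_mem _⟩
  rw [hbot, Subgroup.mem_bot] at h1
  have h2 : x ∈ Cfsg.pPrimeCore p G := (QuotientGroup.eq_one_iff x).mp h1
  obtain ⟨k, hk⟩ := hOp ⟨x, hx⟩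
  have hk' : x ^ p ^ k = 1 := congrArg Subtype.val hk
  exact Cfsg.Agent.Lib.Helper2.eq_one_of_mem_of_pow_prime_pow p _ hKc x h2 k hk'

/-- `p`-stability lifts from `G / O_{p'}(G)`. -/
theorem isPStable_of_quotient {G : Type*} [Group G] [Finite G] {p : ℕ} [Fact p.Prime]
    (hO : Cfsg.pCore p G ≠ ⊥) (hs : Cfsg.IsPStable p (G ⧸ Cfsg.pPrimeCore p G)) :
    Cfsg.IsPStable p G := by
  have hp : p.Prime := Fact.out
  have hKc : (Nat.card ↥(Cfsg.pPrimeCore p G)).Coprime p := pPrimeCore_coprime hp G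
  refine ⟨hs.1, hO, ?_⟩
  intro A P hA hP hAP hPle hn hquad
  obtain ⟨π, hπ⟩ : ∃ π : G →* G ⧸ Cfsg.pPrimeCore p G, π = QuotientGroup.mk' (Cfsg.pPrimeCore p G) :=
    ⟨_, rfl⟩
  have hπs : Function.Surjective π := by rw [hπ]; exact QuotientGroup.mk'_surjective _
  have hπk : ∀ x : G, π x = 1 → x ∈ Cfsg.pPrimeCore p G := by
    intro x hx
    rw [hπ] at hx
    exact (QuotientGroup.eq_one_iff x).mp hx
  have hQbot : Cfsg.pPrimeCore p (G ⧸ Cfsg.pPrimeCore p G) = ⊥ :=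
    Cfsg.Agent.Lib.Helper2.pPrimeCore_quotient_eq_bot p G
  have hOp : IsPGroup p ↥(Cfsg.pCore p (G ⧸ Cfsg.pPrimeCore p G)) :=
    Cfsg.Agent.Lib.Helper2.pCore_isPGroup' p _
  have h1 := hs.2.2 (A.map π) (P.map π) (hA.map π) (hP.map π)
    (by
      rintro _ ⟨a, ha, rfl⟩ _ ⟨x, hx, rfl⟩
      exact ⟨a * x * a⁻¹, hAP a ha x hx, by rw [map_mul, map_mul, map_inv]⟩)
    (by
      rintro _ ⟨x, hx, rfl⟩
      have h0 : π x ∈ Cfsg.pCore p (G ⧸ Cfsg.pPrimeCore p G) := by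
        rw [hπ]; exact hPle hx
      show QuotientGroup.mk' (Cfsg.pPrimeCore p (G ⧸ Cfsg.pPrimeCore p G)) (π x) ∈
        Cfsg.pCore p _
      refine mk_mem_pCore_of_normal_pow _ (Cfsg.pCore p (G ⧸ Cfsg.pPrimeCore p G))
        (Cfsg.pCore_normal p _) ?_ (π x) h0
      intro y hy
      obtain ⟨k, hk⟩ := hOp ⟨y, hy⟩
      have hk' : y ^ p ^ k = 1 := congrArg Subtype.val hk
      exact ⟨k, by rw [hk']; exact one_mem _⟩)
    (by
      rw [hQbot, bot_sup_eq]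
      have h0 : P.map π = (Cfsg.pPrimeCore p G ⊔ P).map π := by
        rw [Subgroup.map_sup]
        have h00 : (Cfsg.pPrimeCore p G).map π = ⊥ := by
          rw [Subgroup.map_eq_bot_iff, hπ, QuotientGroup.ker_mk']
        rw [h00, bot_sup_eq]
      rw [h0]
      exact hn.map π hπs)
    (by rw [← Subgroup.map_commutator, ← Subgroup.map_commutator, hquad, Subgroup.map_bot])
  rintro _ ⟨⟨a, haN⟩, ha, rfl⟩
  have haA : a ∈ A := Subgroup.mem_subgroupOf.mp ha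
  obtain ⟨ψ, hψ⟩ : ∃ ψ : ↥(Subgroup.normalizer (P : Set G)) →*
      ↥(Subgroup.normalizer ((P.map π : Subgroup (G ⧸ Cfsg.pPrimeCore p G)) :
        Set (G ⧸ Cfsg.pPrimeCore p G))), ∀ x, (ψ x : G ⧸ Cfsg.pPrimeCore p G) = π (x : G) :=
    ⟨(π.comp (Subgroup.normalizer (P : Set G)).subtype).codRestrict _
      (fun x => Subgroup.le_normalizer_map π ⟨x, x.2, rfl⟩), fun x => rfl⟩
  obtain ⟨Ψ, hΨ⟩ : ∃ Ψ : ↥(Subgroup.normalizer (P : Set G)) →* _, Ψ = (QuotientGroup.mk'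
      ((Subgroup.centralizer ((P.map π : Subgroup (G ⧸ Cfsg.pPrimeCore p G)) :
        Set (G ⧸ Cfsg.pPrimeCore p G))).subgroupOf
      (Subgroup.normalizer ((P.map π : Subgroup (G ⧸ Cfsg.pPrimeCore p G)) :
        Set (G ⧸ Cfsg.pPrimeCore p G))))).comp ψ := ⟨_, rfl⟩
  refine mk_mem_pCore_of_normal_pow
    ((Subgroup.centralizer (P : Set G)).subgroupOf (Subgroup.normalizer (P : Set G)))
    ((Cfsg.pCore p _).comap Ψ) ((Cfsg.pCore_normal p _).comap Ψ) ?_ ⟨a, haN⟩ ?_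
  · intro x hx
    rw [Subgroup.mem_comap] at hx
    obtain ⟨k, hk⟩ := Cfsg.Agent.Lib.Helper2.pCore_isPGroup' p _ ⟨Ψ x, hx⟩
    have hk' : (Ψ x) ^ p ^ k = 1 := congrArg Subtype.val hk
    rw [← map_pow, hΨ] at hk'
    have hk2 : ψ (x ^ p ^ k) ∈ (Subgroup.centralizer ((P.map π :
        Subgroup (G ⧸ Cfsg.pPrimeCore p G)) : Set (G ⧸ Cfsg.pPrimeCore p G))).subgroupOf
        (Subgroup.normalizer ((P.map π : Subgroup (G ⧸ Cfsg.pPrimeCore p G)) :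
          Set (G ⧸ Cfsg.pPrimeCore p G))) := (QuotientGroup.eq_one_iff _).mp hk'
    rw [Subgroup.mem_subgroupOf, hψ] at hk2
    refine ⟨k, Subgroup.mem_subgroupOf.mpr ?_⟩
    obtain ⟨y, hy⟩ : ∃ y : G, y = ((x ^ p ^ k : ↥(Subgroup.normalizer (P : Set G))) : G) :=
      ⟨_, rfl⟩
    rw [← hy] at hk2 ⊢
    have hyN : y ∈ Subgroup.normalizer (P : Set G) := by rw [hy]; exact SetLike.coe_mem _
    rw [Subgroup.mem_centralizer_iff]
    intro v hv
    have h2 : y * v * y⁻¹ ∈ P := (Subgroup.mem_normalizer_iff.mp hyN v).mp hv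
    have h3 : y * v * y⁻¹ * v⁻¹ ∈ P := mul_mem h2 (inv_mem hv)
    have h4 : y * v * y⁻¹ * v⁻¹ ∈ Cfsg.pPrimeCore p G := by
      apply hπk
      have h5 := Subgroup.mem_centralizer_iff.mp hk2 (π v) ⟨v, hv, rfl⟩
      rw [map_mul, map_mul, map_mul, map_inv, map_inv, ← h5]
      group
    obtain ⟨j, hj⟩ := hP ⟨_, h3⟩
    have hj' : (y * v * y⁻¹ * v⁻¹) ^ p ^ j = 1 := congrArg Subtype.val hj
    have h6 := Cfsg.Agent.Lib.Helper2.eq_one_of_mem_of_pow_prime_pow p _ hKc _ h4 j hj'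
    calc v * y = (y * v * y⁻¹ * v⁻¹)⁻¹ * (y * v) := by group
      _ = y * v := by rw [h6, inv_one, one_mul]
  · rw [Subgroup.mem_comap]
    apply h1
    refine ⟨ψ ⟨a, haN⟩, ?_, by rw [hΨ]; rfl⟩
    rw [SetLike.mem_coe, Subgroup.mem_subgroupOf, hψ]
    exact ⟨a, haA, rfl⟩

end Cfsg.Agent.Lib.Helper3
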