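import Mathlib
import Cfsg.Prelude.Def_CaseTheorems
import Cfsg.Prelude.Def_Local

set_option autoImplicit false

namespace Cfsg.Agent.Lib.Helper3

open Cfsg

theorem map_center_mulEquiv {H H' : Type*} [Group H] [Group H'] (e : H ≃* H') :
    (Subgroup.center H).map (e : H →* H') = Subgroup.center H' := by
  ext x
  constructor
  · rintro ⟨y, hy, rfl⟩
    have hy' : y ∈ Subgroup.center H := hy
    rw [Subgroup.mem_center_iff] at hy' ⊢
    intro g
    obtain ⟨g', rfl⟩ := e.surjective g
    show e g' * e y = e y * e g'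
    rw [← map_mul, ← map_mul, hy' g']
  · intro hx
    refine ⟨e.symm x, ?_, by simp⟩
    show e.symm x ∈ Subgroup.center H
    rw [Subgroup.mem_center_iff] at hx ⊢
    intro g
    apply e.injective
    rw [map_mul, map_mul, e.apply_symm_apply]
    exact hx (e g)

/-- Quasisimplicity is invariant under isomorphism. -/
theorem isQuasisimple_of_mulEquiv {H H' : Type*} [Group H] [Group H'] (e : H ≃* H')
    (h : Cfsg.IsQuasisimple H) : Cfsg.IsQuasisimple H' := by
  obtain ⟨hp, hs⟩ := h
  refine ⟨Group.IsPerfect.ofSurjective (f := (e : H →* H')) e.surjective, ?_⟩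
  exact (QuotientGroup.congr (Subgroup.center H) (Subgroup.center H') e (map_center_mulEquiv e)).symm.isSimpleGroup

/-- A normal quasisimple subgroup of a subgroup `C` is a component of `C`. -/
theorem isComponent_subgroupOf {G : Type*} [Group G] (A C : Subgroup G) (hAC : A ≤ C)
    (hN : C ≤ Subgroup.normalizer (A : Set G)) (hA : Cfsg.IsQuasisimple ↥A) :
    Cfsg.IsComponent (A.subgroupOf C) := by
  refine ⟨?_, isQuasisimple_of_mulEquiv (Subgroup.subgroupOfEquivOfLe hAC).symm hA⟩
  exact ((Subgroup.normal_subgroupOf_iff_le_normalizer hAC).mpr hN).isSubnormal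

end Cfsg.Agent.Lib.Helper3
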