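import Mathlib
import Cfsg.Agent.Lib.Helper3.TransferRed
import Cfsg.Agent.Lib.Helper3.Sections
import Cfsg.Agent.Lib.Lead.CharBurnside
import Cfsg.Agent.S1991

set_option autoImplicit false

namespace Cfsg.Agent.Lib.Helper3

open Cfsg
open scoped commutatorElement

universe u

/-- The hypothesis "every Sylow subgroup is self-normalizing" passes to quotients. -/
theorem quotient_self_normalizing {G : Type*} [Group G] [Finite G] (M : Subgroup G) [M.Normal]
    (h : ∀ q : ℕ, q.Prime → q ∣ Nat.card G → ∀ Q : Sylow q G,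
      Subgroup.normalizer ((Q : Subgroup G) : Set G) = Q) :
    ∀ q : ℕ, q.Prime → q ∣ Nat.card (G ⧸ M) → ∀ Q : Sylow q (G ⧸ M),
      Subgroup.normalizer ((Q : Subgroup (G ⧸ M)) : Set (G ⧸ M)) = Q := by
  intro q hq hqd Q'
  have : Fact q.Prime := ⟨hq⟩
  have hqG : q ∣ Nat.card G := hqd.trans (Subgroup.card_quotient_dvd_card M)
  obtain ⟨Q, hQ⟩ := Sylow.mapSurjective_surjective (QuotientGroup.mk'_surjective M) q Q'
  have hQ' : (Q' : Subgroup (G ⧸ M)) = (Q : Subgroup G).map (QuotientGroup.mk' M) := by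
    rw [← hQ]
    rfl
  apply le_antisymm ?_ Subgroup.le_normalizer
  intro xb hxb
  obtain ⟨x, rfl⟩ := QuotientGroup.mk'_surjective M xb
  obtain ⟨K, hK⟩ : ∃ K, K = (Q' : Subgroup (G ⧸ M)).comap (QuotientGroup.mk' M) := ⟨_, rfl⟩
  have hQK : (Q : Subgroup G) ≤ K := by
    rw [hK, hQ']
    exact Subgroup.le_comap_map _ _
  have hconjK : (Q : Subgroup G).map (MulAut.conj x).toMonoidHom ≤ K := by
    rintro _ ⟨a, ha, rfl⟩
    rw [hK, Subgroup.mem_comap]
    have h1 : QuotientGroup.mk' M a ∈ (Q' : Subgroup (G ⧸ M)) := by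
      rw [hQ']
      exact ⟨a, ha, rfl⟩
    have h2 := (Subgroup.mem_normalizer_iff.mp hxb _).mp h1
    simpa using h2
  have hidx : ¬ q ∣ (Q : Subgroup G).relIndex K := fun hd =>
    Q.not_dvd_index (hd.trans (Subgroup.relIndex_dvd_index_of_le hQK))
  obtain ⟨n, hnK, hn⟩ := exists_conj_mem_of_relIndex (Q : Subgroup G) K _ Q.isPGroup' hidx
    (Q.isPGroup'.map _) hconjK
  have hnx : n * x ∈ Subgroup.normalizer ((Q : Subgroup G) : Set G) := by
    apply mem_normalizer_of_map_conj_le
    rintro _ ⟨a, ha, rfl⟩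
    have h3 := hn _ (⟨a, ha, rfl⟩ :
      (MulAut.conj x).toMonoidHom a ∈ (Q : Subgroup G).map (MulAut.conj x).toMonoidHom)
    have e : (MulAut.conj (n * x)).toMonoidHom a
        = n * ((MulAut.conj x).toMonoidHom a) * n⁻¹ := by
      simp [mul_assoc]
    rw [e]
    exact h3
  rw [h q hq hqG Q] at hnx
  have hxK : x ∈ K := by
    have h4 : x = n⁻¹ * (n * x) := by group
    rw [h4]
    exact K.mul_mem (K.inv_mem hnK) (hQK hnx)
  rw [hK, Subgroup.mem_comap] at hxK
  exact hxK

theorem nat_two_three : ∀ n : ℕ, n ≠ 0 → (∀ q : ℕ, q.Prime → q ∣ n → q = 2 ∨ q = 3) →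
    ∃ a b : ℕ, n = 2 ^ a * 3 ^ b := by
  intro n
  induction n using Nat.strong_induction_on with
  | _ n ih =>
    intro hn h
    by_cases h1 : n = 1
    · exact ⟨0, 0, by rw [h1]; rfl⟩
    · obtain ⟨q, hq, m, rfl⟩ : ∃ q : ℕ, q.Prime ∧ ∃ m, n = q * m := by
        obtain ⟨q, hq, hqd⟩ := Nat.exists_prime_and_dvd h1
        obtain ⟨m, hm⟩ := hqd
        exact ⟨q, hq, m, hm⟩
      have hm0 : m ≠ 0 := by
        rintro rfl
        exact hn (mul_zero q)
      have hlt : m < q * m := by
        have := hq.one_lt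
        nlinarith [Nat.pos_of_ne_zero hm0]
      obtain ⟨a, b, hab⟩ := ih m hlt hm0 (fun r hr hrd => h r hr (hrd.trans (dvd_mul_left m q)))
      rcases h q hq (dvd_mul_right q m) with rfl | rfl
      · exact ⟨a + 1, b, by rw [hab]; ring⟩
      · exact ⟨a, b + 1, by rw [hab]; ring⟩

/-- A finite group all of whose Sylow subgroups are self-normalizing is a `p`-group. -/
theorem isPGroup_of_self_normalizing : ∀ (n : ℕ) (G : Type u) [Group G] [Finite G],
    Nat.card G = n →
    (∀ q : ℕ, q.Prime → q ∣ Nat.card G → ∀ Q : Sylow q G,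
      Subgroup.normalizer ((Q : Subgroup G) : Set G) = Q) →
    ∃ q : ℕ, q.Prime ∧ IsPGroup q G := by
  intro n
  induction n using Nat.strong_induction_on with
  | _ n ih =>
  intro G _ _ hn h
  by_cases hM : ∃ M : Subgroup G, M.Normal ∧ M ≠ ⊥ ∧ M ≠ ⊤
  · obtain ⟨M, hMn, hMbot, hMtop⟩ := hM
    have := hMn
    have hcard : Nat.card (G ⧸ M) < n := by
      rw [← hn]
      exact card_quotient_lt_of_ne_bot M hMbot
    obtain ⟨r, hr, hrG⟩ := ih _ hcard (G ⧸ M) rfl (quotient_self_normalizing M h)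
    by_cases hall : ∀ q : ℕ, q.Prime → q ∣ Nat.card G → q = r
    · refine ⟨r, hr, ?_⟩
      have : Fact r.Prime := ⟨hr⟩
      have h1 := Nat.eq_prime_pow_of_unique_prime_dvd (Nat.card_pos (α := G)).ne'
        (fun {q} hq hqd => hall q hq hqd)
      exact IsPGroup.of_card h1
    · exfalso
      push Not at hall
      obtain ⟨q, hq, hqd, hqr⟩ := hall
      have : Fact q.Prime := ⟨hq⟩
      obtain ⟨Q⟩ : Nonempty (Sylow q G) := inferInstance
      have hQM : (Q : Subgroup G) ≤ M := by
        intro x hx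
        rw [← QuotientGroup.eq_one_iff]
        obtain ⟨k, hk⟩ := Q.isPGroup' ⟨x, hx⟩
        have hxk : x ^ q ^ k = 1 := by simpa using congrArg Subtype.val hk
        obtain ⟨j, hj⟩ := hrG (QuotientGroup.mk x : G ⧸ M)
        have h1 : (QuotientGroup.mk x : G ⧸ M) ^ q ^ k = 1 := by
          rw [← QuotientGroup.mk_pow, hxk]
          rfl
        have h2 : orderOf (QuotientGroup.mk x : G ⧸ M) ∣ q ^ k := orderOf_dvd_of_pow_eq_one h1
        have h3 : orderOf (QuotientGroup.mk x : G ⧸ M) ∣ r ^ j := orderOf_dvd_of_pow_eq_one hj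
        have hcop : Nat.Coprime (q ^ k) (r ^ j) :=
          Nat.Coprime.pow _ _ ((Nat.coprime_primes hq hr).mpr hqr)
        have h4 : orderOf (QuotientGroup.mk x : G ⧸ M) = 1 :=
          Nat.eq_one_of_dvd_coprimes hcop h2 h3
        exact orderOf_eq_one_iff.mp h4
      have hidx : ¬ q ∣ (Q : Subgroup G).relIndex M := fun hd =>
        Q.not_dvd_index (hd.trans (Subgroup.relIndex_dvd_index_of_le hQM))
      have hfr := frattini_relIndex M (Q : Subgroup G) hQM Q.isPGroup' hidx
      rw [h q hq hqd Q] at hfr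
      apply hMtop
      rw [← hfr]
      exact (sup_eq_right.mpr hQM).symm
  · push Not at hM
    by_cases htriv : Nat.card G = 1
    · exact ⟨2, Nat.prime_two, IsPGroup.of_card (n := 0) (by rw [htriv]; rfl)⟩
    by_cases h5 : ∃ p : ℕ, p.Prime ∧ 5 ≤ p ∧ p ∣ Nat.card G
    · obtain ⟨p, hp, hp5, hpd⟩ := h5
      have : Fact p.Prime := ⟨hp⟩
      obtain ⟨S⟩ : Nonempty (Sylow p G) := inferInstance
      have hSne : (S : Subgroup G) ≠ ⊥ := S.ne_bot_of_dvd_card hpd
      have hNS := h p hp hpd S
      obtain ⟨N, hNn, hNidx⟩ := Cfsg.Agent.S1991.result hp5 S hSne (by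
        intro g hg hcop
        rw [hNS] at hg
        obtain ⟨k, hk⟩ := S.isPGroup' ⟨g, hg⟩
        have hgk : g ^ p ^ k = 1 := by simpa using congrArg Subtype.val hk
        have h1 : orderOf g ∣ p ^ k := orderOf_dvd_of_pow_eq_one hgk
        have h2 : orderOf g = 1 := Nat.Coprime.eq_one_of_dvd (Nat.Coprime.pow_right k hcop) h1
        rw [orderOf_eq_one_iff.mp h2]
        exact Subgroup.one_mem _)
      refine ⟨p, hp, ?_⟩
      have hNbot : N = ⊥ := by
        by_contra hne
        have h1 := hM N hNn hne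
        rw [h1, Subgroup.index_top] at hNidx
        exact hp.one_lt.ne' hNidx.symm
      rw [hNbot, Subgroup.index_bot] at hNidx
      exact IsPGroup.of_card (n := 1) (by rw [hNidx, pow_one])
    · push Not at h5
      have h23 : ∀ q : ℕ, q.Prime → q ∣ Nat.card G → q = 2 ∨ q = 3 := by
        intro q hq hqd
        have h1 := h5 q hq
        have hlt : q < 5 := by
          by_contra hge
          exact h1 (by omega) hqd
        have h2 := hq.two_le
        interval_cases q
        · left; rfl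
        · right; rfl
        · exact absurd hq (by decide)
      obtain ⟨a, b, hab⟩ := nat_two_three (Nat.card G) (Nat.card_pos).ne' h23
      have hsolv : Group.IsSolvable G := Cfsg.Agent.Lib.Lead.burnside_paqb _ G 2 3 a b Nat.prime_two
        Nat.prime_three rfl hab
      have : Nontrivial G := (Finite.one_lt_card_iff_nontrivial).mp (by
        have := Nat.card_pos (α := G)
        omega)
      have hc : commutator G ≠ ⊤ := (Group.IsSolvable.commutator_lt_top_of_nontrivial G).ne
      have hc2 : commutator G = ⊥ := by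
        by_contra hne
        exact hc (hM _ inferInstance hne)
      obtain ⟨q, hq, hqd⟩ := Nat.exists_prime_and_dvd htriv
      have : Fact q.Prime := ⟨hq⟩
      obtain ⟨Q⟩ : Nonempty (Sylow q G) := inferInstance
      have hQn : (Q : Subgroup G).Normal := by
        refine ⟨fun a ha g => ?_⟩
        have hcomm : g * a = a * g := by
          have h1 : ⁅g, a⁆ ∈ commutator G :=
            Subgroup.commutator_mem_commutator (Subgroup.mem_top g) (Subgroup.mem_top a)
          rw [hc2, Subgroup.mem_bot] at h1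
          exact (commutatorElement_eq_one_iff_commute.mp h1).eq
        rw [hcomm, mul_inv_cancel_right]
        exact ha
      have hQne : (Q : Subgroup G) ≠ ⊥ := Q.ne_bot_of_dvd_card hqd
      have hQtop := hM _ hQn hQne
      refine ⟨q, hq, ?_⟩
      intro g
      obtain ⟨k, hk⟩ := Q.isPGroup' ⟨g, by rw [hQtop]; trivial⟩
      exact ⟨k, by simpa using congrArg Subtype.val hk⟩

end Cfsg.Agent.Lib.Helper3
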