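import Mathlib
import Cfsg.Prelude.Def_PLocal
import Cfsg.Agent.Lib.Helper1.ThompsonJ
import Cfsg.Agent.Lib.Helper3.ZJ
import Cfsg.Agent.Lib.Helper3.GlauRepl

set_option autoImplicit false

namespace Cfsg.Agent.Lib.Helper3

universe u

open Cfsg.Agent.Lib.Helper1

theorem snc_map_equiv_eq_of_le {F : ∀ (S : Type u) [Group S], Subgroup S}
    (h : ∀ (S S' : Type u) [Group S] [Group S'] (η : S ≃* S'), (F S).map η.toMonoidHom ≤ F S')
    (S S' : Type u) [Group S] [Group S'] (η : S ≃* S') : (F S).map η.toMonoidHom = F S' := by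
  refine le_antisymm (h S S' η) ?_
  have h1 := h S' S η.symm
  intro x hx
  exact ⟨η.symm x, h1 ⟨x, hx, rfl⟩, by simp⟩

theorem snc_thompson_map (p : ℕ) (S S' : Type u) [Group S] [Group S'] (η : S ≃* S') :
    (Cfsg.thompsonSubgroup p S).map η.toMonoidHom = Cfsg.thompsonSubgroup p S' := by
  refine snc_map_equiv_eq_of_le (F := fun (S : Type u) [Group S] => Cfsg.thompsonSubgroup p S)
    ?_ S S' η
  intro S S' _ _ η
  show (Cfsg.thompsonSubgroup p S).map η.toMonoidHom ≤ Cfsg.thompsonSubgroup p S'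
  unfold Cfsg.thompsonSubgroup
  rw [Subgroup.map_le_iff_le_comap]
  refine sSup_le (fun A hA => ?_)
  rw [← Subgroup.map_le_iff_le_comap]
  exact le_sSup (maxEA_map_equiv η hA)

theorem snc_omegaCenterThompson_map (p : ℕ) (S S' : Type u) [Group S] [Group S'] (η : S ≃* S') :
    (Cfsg.omegaCenterThompson p S).map η.toMonoidHom = Cfsg.omegaCenterThompson p S' := by
  unfold Cfsg.omegaCenterThompson
  rw [← omegaOne_map_of_injective p η.toMonoidHom η.injective,
    zj_map_inf_centralizer η.toMonoidHom η.injective, snc_thompson_map p S S' η]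

theorem snc_omegaCenterThompson_map_inj (p : ℕ) {S H : Type u} [Group S] [Group H] (τ : S →* H)
    (hτ : Function.Injective τ) :
    (Cfsg.omegaCenterThompson p S).map τ
      = Cfsg.omegaOne p ((Cfsg.thompsonSubgroup p S).map τ ⊓
          Subgroup.centralizer (((Cfsg.thompsonSubgroup p S).map τ : Subgroup H) : Set H)) := by
  unfold Cfsg.omegaCenterThompson
  rw [← omegaOne_map_of_injective p τ hτ, zj_map_inf_centralizer τ hτ]

theorem snc_omegaOne_normal (p : ℕ) {H : Type*} [Group H] (M : Subgroup H) [hM : M.Normal] :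
    (Cfsg.omegaOne p M).Normal := by
  refine ⟨fun n hn g => ?_⟩
  have h1 : (Cfsg.omegaOne p M).map (MulAut.conj g).toMonoidHom ≤ Cfsg.omegaOne p M := by
    unfold Cfsg.omegaOne
    rw [MonoidHom.map_closure]
    apply Subgroup.closure_mono
    rintro _ ⟨x, ⟨hx, hxp⟩, rfl⟩
    refine ⟨hM.conj_mem x hx g, ?_⟩
    show (g * x * g⁻¹) ^ p = 1
    rw [conj_pow, hxp]; group
  exact h1 ⟨n, hn, rfl⟩

theorem snc_omegaOne_center_map_le (p : ℕ) {S S' : Type*} [Group S] [Group S'] (η : S ≃* S') :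
    (Cfsg.omegaOne p (Subgroup.center S)).map η.toMonoidHom
      ≤ Cfsg.omegaOne p (Subgroup.center S') := by
  unfold Cfsg.omegaOne
  rw [MonoidHom.map_closure]
  apply Subgroup.closure_mono
  rintro _ ⟨x, ⟨hx, hxp⟩, rfl⟩
  refine ⟨?_, ?_⟩
  · rw [Subgroup.mem_center_iff] at hx ⊢
    intro g
    have h1 := hx (η.symm g)
    have h2 := congrArg η h1
    rw [map_mul, map_mul, MulEquiv.apply_symm_apply] at h2
    exact h2
  · show η x ^ p = 1
    rw [← map_pow, hxp, map_one]

theorem snc_omegaOne_center_le (p : ℕ) (S : Type u) [Group S] [Finite S] :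
    Cfsg.omegaOne p (Subgroup.center S) ≤ Cfsg.omegaCenterThompson p S := by
  unfold Cfsg.omegaCenterThompson Cfsg.omegaOne
  apply Subgroup.closure_mono
  rintro x ⟨hx, hxp⟩
  refine ⟨Subgroup.mem_inf.mpr ⟨?_, Subgroup.center_le_centralizer _ hx⟩, hxp⟩
  obtain ⟨A, hA⟩ := maxEA_nonempty (G := S) (p := p)
  have hsup : Cfsg.IsElementaryAbelian p (A ⊔ Subgroup.zpowers x) :=
    ea_sup hA.1 (ea_zpowers x hxp) (by
      rintro a _ b ⟨k, rfl⟩
      exact (Commute.zpow_right
        (show Commute a x from (Subgroup.mem_center_iff.mp hx a)) k).eq)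
  have hcard := hA.2 _ hsup
  have heq : A = A ⊔ Subgroup.zpowers x := Subgroup.eq_of_le_of_card_ge le_sup_left hcard
  have hxA : x ∈ A := by rw [heq]; exact Subgroup.mem_sup_right (Subgroup.mem_zpowers x)
  exact maxEA_le_thompson hA hxA

theorem snc_zj_mem (p : ℕ) (S : Type u) [Group S] [Finite S] :
    Cfsg.omegaCenterThompson p S ∈ {W : Subgroup S | Cfsg.omegaOne p (Subgroup.center S) ≤ W ∧
      ∀ (H : Type u) [Group H] (τ : S →* H), Cfsg.IsStableEmbedding p τ → (W.map τ).Normal} := by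
  refine ⟨snc_omegaOne_center_le p S, ?_⟩
  intro H _ τ hτ
  rw [snc_omegaCenterThompson_map_inj p τ hτ.1]
  haveI := hτ.2.2.2.2.1
  exact snc_omegaOne_normal p _

theorem snc_omegaOne_center_ne_bot {p : ℕ} [Fact p.Prime] (S : Type u) [Group S] [Finite S]
    [Nontrivial S] (hS : IsPGroup p S) : Cfsg.omegaOne p (Subgroup.center S) ≠ ⊥ := by
  haveI := hS.center_nontrivial
  obtain ⟨k, hk⟩ := IsPGroup.iff_card.mp (hS.to_subgroup (Subgroup.center S))
  have hk0 : k ≠ 0 := by
    rintro rfl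
    rw [pow_zero] at hk
    exact (Finite.one_lt_card (α := ↥(Subgroup.center S))).ne' hk
  have hdvd : p ∣ Nat.card ↥(Subgroup.center S) := by rw [hk]; exact dvd_pow_self p hk0
  obtain ⟨z, hz⟩ := exists_prime_orderOf_dvd_card' p hdvd
  intro hbot
  have hmem : (z : S) ∈ Cfsg.omegaOne p (Subgroup.center S) := by
    unfold Cfsg.omegaOne
    refine Subgroup.subset_closure ⟨z.2, ?_⟩
    have h1 : z ^ p = 1 := by rw [← hz]; exact pow_orderOf_eq_one z
    have h2 := congrArg Subtype.val h1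
    simpa using h2
  rw [hbot, Subgroup.mem_bot] at hmem
  have hz1 : z = 1 := Subtype.ext hmem
  rw [hz1, orderOf_one] at hz
  exact (Fact.out : p.Prime).one_lt.ne hz

theorem snc_map_le (p : ℕ) (S S' : Type u) [Group S] [Group S'] (η : S ≃* S') :
    (Cfsg.stableNormalClosure p S).map η.toMonoidHom ≤ Cfsg.stableNormalClosure p S' := by
  unfold Cfsg.stableNormalClosure
  refine le_sInf (fun W' hW' => ?_)
  rw [Subgroup.map_le_iff_le_comap]
  refine sInf_le ⟨?_, ?_⟩
  · exact Subgroup.map_le_iff_le_comap.mp ((snc_omegaOne_center_map_le p η).trans hW'.1)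
  · intro H _ τ hτ
    have hcomp : (τ.comp η.symm.toMonoidHom).comp η.toMonoidHom = τ := by ext x; simp
    have hstab : Cfsg.IsStableEmbedding p (τ.comp η.symm.toMonoidHom) := by
      obtain ⟨h1, h2, ⟨P, hP⟩, h4, h5, h6⟩ := hτ
      refine ⟨h1.comp η.symm.injective, h2, ⟨P, hP.trans ?_⟩, h4, ?_, ?_⟩
      · ext y
        constructor
        · rintro ⟨x, rfl⟩
          exact ⟨η x, by simp⟩
        · rintro ⟨x', rfl⟩
          exact ⟨η.symm x', rfl⟩
      · rw [← snc_thompson_map p S S' η, Subgroup.map_map, hcomp]; exact h5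
      · intro V _ hV
        rw [← snc_omegaCenterThompson_map p S S' η, Subgroup.map_map, hcomp] at hV
        exact h6 V hV
    have hn := hW'.2 H (τ.comp η.symm.toMonoidHom) hstab
    have hmap : (W'.comap η.toMonoidHom).map τ = W'.map (τ.comp η.symm.toMonoidHom) := by
      ext y
      constructor
      · rintro ⟨x, hx, rfl⟩
        exact ⟨η x, hx, by simp⟩
      · rintro ⟨x', hx', rfl⟩
        exact ⟨η.symm x', by simpa [Subgroup.mem_comap] using hx', rfl⟩
    rw [hmap]; exact hn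

end Cfsg.Agent.Lib.Helper3
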