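import Mathlib
import Cfsg.Prelude.Def_PLocal
import Cfsg.Agent.Lib.Helper3.StableNC
import Cfsg.Agent.Lib.Helper3.ZJ
import Cfsg.Agent.Lib.Helper4.PCore

set_option autoImplicit false

namespace Cfsg.Agent.Lib.Helper3

universe u

open scoped commutatorElement

/-- The image of the stable normal closure under a stable embedding is normal. -/
theorem snc_map_normal (p : ℕ) (S : Type u) [Group S] [Finite S] (H : Type u) [Group H]
    (τ : S →* H) (hτ : Cfsg.IsStableEmbedding p τ) :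
    ((Cfsg.stableNormalClosure p S).map τ).Normal := by
  have hall : ∀ W' ∈ {W : Subgroup S | Cfsg.omegaOne p (Subgroup.center S) ≤ W ∧
      ∀ (H : Type u) [Group H] (τ : S →* H), Cfsg.IsStableEmbedding p τ → (W.map τ).Normal},
      Cfsg.stableNormalClosure p S ≤ W' := fun W' hW' => sInf_le hW'
  refine ⟨fun n hn h => ?_⟩
  obtain ⟨w, hw, rfl⟩ := hn
  have h0 := snc_zj_mem p S
  obtain ⟨w₁, hw₁, hw₁eq⟩ := (h0.2 H τ hτ).conj_mem _ ⟨w, hall _ h0 hw, rfl⟩ h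
  refine ⟨w₁, ?_, hw₁eq⟩
  show w₁ ∈ Cfsg.stableNormalClosure p S
  unfold Cfsg.stableNormalClosure
  rw [Subgroup.mem_sInf]
  intro W' hW'
  obtain ⟨w₂, hw₂, hw₂eq⟩ := (hW'.2 H τ hτ).conj_mem _ ⟨w, hall _ hW' hw, rfl⟩ h
  have h12 : w₂ = w₁ := hτ.1 (hw₂eq.trans hw₁eq.symm)
  rw [← h12]; exact hw₂

/-- elementwise form of quadratic action -/
theorem snc_quad_iff {H : Type*} [Group H] (V : Subgroup H) (a : H) :
    ⁅⁅V, Subgroup.zpowers a⁆, Subgroup.zpowers a⁆ = ⊥ ↔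
      ∀ v ∈ V, ∀ z₁ ∈ Subgroup.zpowers a, ∀ z₂ ∈ Subgroup.zpowers a, ⁅⁅v, z₁⁆, z₂⁆ = 1 := by
  constructor
  · intro h v hv z₁ hz₁ z₂ hz₂
    have h1 : ⁅⁅v, z₁⁆, z₂⁆ ∈ ⁅⁅V, Subgroup.zpowers a⁆, Subgroup.zpowers a⁆ :=
      Subgroup.commutator_mem_commutator (Subgroup.commutator_mem_commutator hv hz₁) hz₂
    rw [h, Subgroup.mem_bot] at h1
    exact h1
  · intro h
    rw [Subgroup.commutator_eq_bot_iff_le_centralizer, Subgroup.commutator_le]
    intro v hv z₁ hz₁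
    rw [Subgroup.mem_centralizer_iff]
    intro z₂ hz₂
    exact ((commutatorElement_eq_one_iff_commute.mp (h v hv z₁ hz₁ z₂ hz₂)).eq).symm

theorem snc_comm_mul_cent {H : Type*} [Group H] (V : Subgroup H) {v z c : H} (hv : v ∈ V)
    (hc : c ∈ Subgroup.centralizer (V : Set H)) : ⁅v, z * c⁆ = ⁅v, z⁆ := by
  have hcv : v⁻¹ * c = c * v⁻¹ := Subgroup.mem_centralizer_iff.mp hc v⁻¹ (V.inv_mem hv)
  rw [commutatorElement_def, commutatorElement_def]
  calc v * (z * c) * v⁻¹ * (z * c)⁻¹ = v * z * (c * v⁻¹) * c⁻¹ * z⁻¹ := by group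
    _ = v * z * (v⁻¹ * c) * c⁻¹ * z⁻¹ := by rw [hcv]
    _ = v * z * v⁻¹ * z⁻¹ := by group

theorem snc_quad_of_coset {H : Type*} [Group H] (V : Subgroup H) [hV : V.Normal] (g s : H)
    (hg : ⁅⁅V, Subgroup.zpowers g⁆, Subgroup.zpowers g⁆ = ⊥)
    (hs : ∀ z ∈ Subgroup.zpowers s, ∃ z' ∈ Subgroup.zpowers g,
      ∃ c ∈ Subgroup.centralizer (V : Set H), z = z' * c) :
    ⁅⁅V, Subgroup.zpowers s⁆, Subgroup.zpowers s⁆ = ⊥ := by
  rw [snc_quad_iff] at hg ⊢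
  intro v hv z₁ hz₁ z₂ hz₂
  obtain ⟨z₁', hz₁', c₁, hc₁, rfl⟩ := hs z₁ hz₁
  obtain ⟨z₂', hz₂', c₂, hc₂, rfl⟩ := hs z₂ hz₂
  have hu : ⁅v, z₁'⁆ ∈ V := by
    rw [commutatorElement_def]
    have h1 : v * z₁' * v⁻¹ * z₁'⁻¹ = v * (z₁' * v⁻¹ * z₁'⁻¹) := by group
    rw [h1]
    exact V.mul_mem hv (hV.conj_mem _ (V.inv_mem hv) z₁')
  rw [snc_comm_mul_cent V hv hc₁, snc_comm_mul_cent V hu hc₂]
  exact hg v hv z₁' hz₁' z₂' hz₂'

theorem snc_exists_mul {H : Type*} [Group H] [Finite H] {p : ℕ} [Fact p.Prime] (P : Sylow p H)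
    (K C : Subgroup H) (hKn : K.Normal) (hCn : C.Normal)
    (hKC : ∀ k ∈ K, ∃ n : ℕ, k ^ p ^ n ∈ C) (g : H) (hg : g ∈ K) :
    ∃ s ∈ (P : Subgroup H) ⊓ K, ∃ c ∈ C, g = s * c := by
  obtain ⟨P₁, hP₁⟩ : ∃ P₁ : Subgroup H, P₁ = (P : Subgroup H) ⊓ K := ⟨_, rfl⟩
  rw [← hP₁]
  have hidx : ¬ p ∣ P₁.relIndex K := by
    rw [hP₁, Subgroup.inf_relIndex_right]
    intro h
    exact P.not_dvd_index (h.trans (zj_relIndex_normal_dvd_index (P : Subgroup H) K))
  have hKle : K ≤ P₁ ⊔ C := by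
    rw [← Subgroup.relIndex_eq_one]
    have h1 : (P₁ ⊔ C).relIndex K ∣ P₁.relIndex K := Subgroup.relIndex_dvd_of_le_left K le_sup_left
    have h2 : (P₁ ⊔ C).relIndex K ∣ C.relIndex K := Subgroup.relIndex_dvd_of_le_left K le_sup_right
    have h3 : ∃ m : ℕ, C.relIndex K = p ^ m := by
      have hn : (C.subgroupOf K).Normal := hCn.subgroupOf K
      have hpg : IsPGroup p (↥K ⧸ C.subgroupOf K) := by
        intro q
        obtain ⟨k, rfl⟩ := QuotientGroup.mk_surjective q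
        obtain ⟨n, hn⟩ := hKC k.1 k.2
        refine ⟨n, ?_⟩
        rw [← QuotientGroup.mk_pow, QuotientGroup.eq_one_iff, Subgroup.mem_subgroupOf]
        exact hn
      obtain ⟨m, hm⟩ := IsPGroup.iff_card.mp hpg
      exact ⟨m, hm⟩
    obtain ⟨m, hm⟩ := h3
    rw [hm] at h2
    obtain ⟨j, _, hj⟩ := (Nat.dvd_prime_pow Fact.out).mp h2
    rcases Nat.eq_zero_or_pos j with hj0 | hjpos
    · rw [hj, hj0, pow_zero]
    · exfalso
      apply hidx
      exact (hj ▸ dvd_pow_self p hjpos.ne').trans h1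
  have hk' := hKle hg
  rw [← SetLike.mem_coe, Subgroup.mul_normal, Set.mem_mul] at hk'
  obtain ⟨x, hx, c, hc, rfl⟩ := hk'
  exact ⟨x, hx, c, hc, rfl⟩

theorem snc_centralizer_map_normal (p : ℕ) [Fact p.Prime] (S : Type u) [Group S] [Finite S]
    (H : Type u) [Group H] (τ : S →* H) (hτ : Cfsg.IsStableEmbedding p τ) :
    ((Cfsg.stableNormalClosure p S ⊓ Subgroup.centralizer
        {y : S | ⁅⁅Cfsg.stableNormalClosure p S, Subgroup.zpowers y⁆, Subgroup.zpowers y⁆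
          = ⊥}).map τ).Normal := by
  haveI hVn : ((Cfsg.stableNormalClosure p S).map τ).Normal := snc_map_normal p S H τ hτ
  obtain ⟨h1, h2, ⟨P, hP⟩, h4, h5, h6⟩ := hτ
  haveI := h2
  have hWle : Cfsg.stableNormalClosure p S ≤ Cfsg.omegaCenterThompson p S :=
    sInf_le (snc_zj_mem p S)
  have hst : Cfsg.IsPStableOn p ((Cfsg.stableNormalClosure p S).map τ) :=
    h6 _ (Subgroup.map_mono hWle)
  have hCn : (Subgroup.centralizer
      (((Cfsg.stableNormalClosure p S).map τ : Subgroup H) : Set H)).Normal := inferInstance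
  obtain ⟨K, hK⟩ : ∃ K : Subgroup H, K = (Cfsg.pCore p (H ⧸ Subgroup.centralizer
      (((Cfsg.stableNormalClosure p S).map τ : Subgroup H) : Set H))).comap
        (QuotientGroup.mk' _) := ⟨_, rfl⟩
  have hKn : K.Normal := by
    rw [hK]; exact (Cfsg.Agent.Lib.Helper4.pCore_normal p _).comap _
  have hKC : ∀ k ∈ K, ∃ n : ℕ, k ^ p ^ n ∈ Subgroup.centralizer
      (((Cfsg.stableNormalClosure p S).map τ : Subgroup H) : Set H) := by
    intro k hk
    rw [hK, Subgroup.mem_comap] at hk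
    obtain ⟨n, hn⟩ := Cfsg.Agent.Lib.Helper4.pCore_isPGroup p _ ⟨_, hk⟩
    refine ⟨n, ?_⟩
    have h1 : ((QuotientGroup.mk' (Subgroup.centralizer
        (((Cfsg.stableNormalClosure p S).map τ : Subgroup H) : Set H))) k) ^ p ^ n = 1 :=
      congrArg Subtype.val hn
    rw [← map_pow] at h1
    exact (QuotientGroup.eq_one_iff _).mp h1
  have hmemK : ∀ a : H, ⁅⁅(Cfsg.stableNormalClosure p S).map τ, Subgroup.zpowers a⁆,
      Subgroup.zpowers a⁆ = ⊥ → a ∈ K := by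
    intro a ha
    rw [hK, Subgroup.mem_comap]
    exact hst a ha
  refine ⟨fun n hn h => ?_⟩
  obtain ⟨d, hd, rfl⟩ := hn
  obtain ⟨hdW, hdQ⟩ := Subgroup.mem_inf.mp hd
  obtain ⟨d', hd'W, hd'eq⟩ := hVn.conj_mem _ ⟨d, hdW, rfl⟩ h
  refine ⟨d', Subgroup.mem_inf.mpr ⟨hd'W, ?_⟩, hd'eq⟩
  rw [Subgroup.mem_centralizer_iff]
  intro y hy
  apply h1
  rw [map_mul, map_mul, hd'eq]
  have hgquad : ⁅⁅(Cfsg.stableNormalClosure p S).map τ, Subgroup.zpowers (h⁻¹ * τ y * h)⁆,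
      Subgroup.zpowers (h⁻¹ * τ y * h)⁆ = ⊥ := by
    have e1 : (⁅⁅Cfsg.stableNormalClosure p S, Subgroup.zpowers y⁆,
        Subgroup.zpowers y⁆).map τ = ⊥ := by
      rw [show ⁅⁅Cfsg.stableNormalClosure p S, Subgroup.zpowers y⁆, Subgroup.zpowers y⁆ = ⊥
        from hy, Subgroup.map_bot]
    rw [Subgroup.map_commutator, Subgroup.map_commutator, MonoidHom.map_zpowers] at e1
    have e2 := congrArg (Subgroup.map (MulAut.conj h⁻¹).toMonoidHom) e1
    rw [Subgroup.map_commutator, Subgroup.map_commutator, MonoidHom.map_zpowers,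
      Subgroup.map_bot,
      map_conj_eq_of_forall _ h⁻¹ (fun x hx => hVn.conj_mem x hx h⁻¹)] at e2
    have e3 : (MulAut.conj h⁻¹).toMonoidHom (τ y) = h⁻¹ * τ y * h := by
      show h⁻¹ * τ y * h⁻¹⁻¹ = h⁻¹ * τ y * h
      rw [inv_inv]
    rw [e3] at e2
    exact e2
  have hgK := hmemK _ hgquad
  obtain ⟨s, hs, c, hc, hgsc⟩ := snc_exists_mul P K _ hKn hCn hKC _ hgK
  have hsP : s ∈ τ.range := by rw [← hP]; exact (Subgroup.mem_inf.mp hs).1
  obtain ⟨s₀, rfl⟩ := hsP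
  have hs₀ : ⁅⁅Cfsg.stableNormalClosure p S, Subgroup.zpowers s₀⁆, Subgroup.zpowers s₀⁆
      = ⊥ := by
    have e1 : ⁅⁅(Cfsg.stableNormalClosure p S).map τ, Subgroup.zpowers (τ s₀)⁆,
        Subgroup.zpowers (τ s₀)⁆ = ⊥ := by
      refine snc_quad_of_coset _ (h⁻¹ * τ y * h) (τ s₀) hgquad ?_
      rintro z ⟨i, rfl⟩
      refine ⟨(h⁻¹ * τ y * h) ^ i, Subgroup.zpow_mem_zpowers _ i,
        ((h⁻¹ * τ y * h) ^ i)⁻¹ * (τ s₀) ^ i, ?_, by group⟩
      have e4 : ((h⁻¹ * τ y * h : H) : H ⧸ Subgroup.centralizer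
          (((Cfsg.stableNormalClosure p S).map τ : Subgroup H) : Set H)) = ((τ s₀ : H) : H ⧸ _) := by
        rw [hgsc]; exact QuotientGroup.mk_mul_of_mem _ hc
      apply QuotientGroup.eq.mp
      rw [QuotientGroup.mk_zpow, QuotientGroup.mk_zpow, e4]
    rw [← MonoidHom.map_zpowers, ← Subgroup.map_commutator, ← Subgroup.map_commutator] at e1
    exact (Subgroup.map_eq_bot_iff_of_injective _ h1).mp e1
  have hcomm : s₀ * d = d * s₀ := Subgroup.mem_centralizer_iff.mp hdQ s₀ hs₀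
  have hcomm' : τ s₀ * τ d = τ d * τ s₀ := by rw [← map_mul, ← map_mul, hcomm]
  have hcd : τ d * c = c * τ d := Subgroup.mem_centralizer_iff.mp hc (τ d) ⟨d, hdW, rfl⟩
  have hgd : (h⁻¹ * τ y * h) * τ d = τ d * (h⁻¹ * τ y * h) := by
    rw [hgsc]
    calc τ s₀ * c * τ d = τ s₀ * (c * τ d) := by group
      _ = τ s₀ * (τ d * c) := by rw [hcd]
      _ = (τ s₀ * τ d) * c := by group
      _ = (τ d * τ s₀) * c := by rw [hcomm']
      _ = τ d * (τ s₀ * c) := by group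
  calc τ y * (h * τ d * h⁻¹) = h * ((h⁻¹ * τ y * h) * τ d) * h⁻¹ := by group
    _ = h * (τ d * (h⁻¹ * τ y * h)) * h⁻¹ := by rw [hgd]
    _ = h * τ d * h⁻¹ * τ y := by group

/-- No element acts quadratically and nontrivially on the stable normal closure. -/
theorem snc_quadratic_trivial {p : ℕ} [Fact p.Prime] (S : Type u) [Group S] [Finite S] (x : S)
    (hq : ⁅⁅Cfsg.stableNormalClosure p S, Subgroup.zpowers x⁆, Subgroup.zpowers x⁆ = ⊥) :
    ⁅Cfsg.stableNormalClosure p S, Subgroup.zpowers x⁆ = ⊥ := by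
  have hle : Cfsg.omegaOne p (Subgroup.center S) ≤ Cfsg.stableNormalClosure p S := by
    unfold Cfsg.stableNormalClosure
    exact le_sInf (fun W hW => hW.1)
  have hΩc : Cfsg.omegaOne p (Subgroup.center S) ≤ Subgroup.centralizer
      {y : S | ⁅⁅Cfsg.stableNormalClosure p S, Subgroup.zpowers y⁆, Subgroup.zpowers y⁆ = ⊥} := by
    unfold Cfsg.omegaOne
    exact ((Subgroup.closure_le _).mpr (fun z hz => hz.1)).trans
      (Subgroup.center_le_centralizer _)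
  have hWD : Cfsg.stableNormalClosure p S ≤ Cfsg.stableNormalClosure p S ⊓ Subgroup.centralizer
      {y : S | ⁅⁅Cfsg.stableNormalClosure p S, Subgroup.zpowers y⁆, Subgroup.zpowers y⁆ = ⊥} :=
    sInf_le ⟨le_inf hle hΩc, fun H _ τ hτ => snc_centralizer_map_normal p S H τ hτ⟩
  rw [Subgroup.commutator_eq_bot_iff_le_centralizer]
  intro w hw
  have hwQ := (Subgroup.mem_inf.mp (hWD hw)).2
  have hxw : x * w = w * x := Subgroup.mem_centralizer_iff.mp hwQ x hq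
  rw [Subgroup.mem_centralizer_iff]
  intro z hz
  have hzle : Subgroup.zpowers x ≤ Subgroup.centralizer ({w} : Set S) :=
    Subgroup.zpowers_le.mpr (Subgroup.mem_centralizer_iff.mpr (fun c hc => by
      rw [Set.mem_singleton_iff.mp hc]; exact hxw.symm))
  exact (Subgroup.mem_centralizer_iff.mp (hzle hz) w (Set.mem_singleton w)).symm

end Cfsg.Agent.Lib.Helper3
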