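import Mathlib
import Cfsg.Prelude.Def_PLocal
import Cfsg.Agent.Lib.Helper1.ThompsonJ
import Cfsg.Agent.Lib.Helper3.StableNC2
import Cfsg.Agent.Lib.Helper3.ZJ
import Cfsg.Agent.Lib.Helper3.Frat
import Cfsg.Agent.Lib.Helper4.PCore
import Cfsg.Agent.Lib.Helper6.TateLike
import Cfsg.Agent.Lib.Lead.CoprimeAction

set_option autoImplicit false

namespace Cfsg.Agent.Lib.Helper3

universe u

open scoped commutatorElement

/-- The kernel of the action on `P / F` (with `F ≤ Φ(P)`, `C_G(P) ≤ P`) is a `p`-group. -/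
theorem snc_sectionKernel_isPGroup {G : Type*} [Group G] [Finite G] {p : ℕ} [Fact p.Prime]
    (P : Subgroup G) [hPn : P.Normal] (hP : IsPGroup p ↥P)
    (hc : Subgroup.centralizer (P : Set G) ≤ P) (F : Subgroup G) [hFn : F.Normal]
    (hF : F ≤ (frattini ↥P).map P.subtype) : IsPGroup p ↥(Cfsg.sectionKernel P F) := by
  have hp : p.Prime := Fact.out
  have hFP : F ≤ P := hF.trans (Subgroup.map_subtype_le _)
  have hmem : ∀ x ∈ Cfsg.sectionKernel P F, ∀ k ∈ P, x⁻¹ * (k⁻¹ * x * k) ∈ F := by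
    intro x hx k hk
    unfold Cfsg.sectionKernel at hx
    rw [Subgroup.mem_comap, Subgroup.mem_centralizer_iff] at hx
    have h1 := hx (QuotientGroup.mk' F k) (Subgroup.mem_map_of_mem (QuotientGroup.mk' F) hk)
    have h2 : (QuotientGroup.mk' F) (x⁻¹ * (k⁻¹ * x * k)) = 1 := by
      have e : x⁻¹ * (k⁻¹ * x * k) = x⁻¹ * k⁻¹ * (x * k) := by group
      rw [e, map_mul, map_mul, map_mul, map_inv, map_inv, ← h1]; group
    exact (QuotientGroup.eq_one_iff _).mp h2
  have hprime : ∀ x ∈ Cfsg.sectionKernel P F, (orderOf x).Coprime p → x = 1 := by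
    intro x hx hcop
    have hAker : Subgroup.zpowers x ≤ Cfsg.sectionKernel P F := Subgroup.zpowers_le.mpr hx
    have hcard : Nat.card ↥(Subgroup.zpowers x) = orderOf x := Nat.card_zpowers x
    obtain ⟨j, hj⟩ := IsPGroup.iff_card.mp (hP.to_le hFP)
    obtain ⟨i, hi⟩ := IsPGroup.iff_card.mp hP
    have hcopF : (Nat.card ↥(Subgroup.zpowers x)).Coprime (Nat.card ↥F) := by
      rw [hcard, hj]; exact Nat.Coprime.pow_right j hcop
    have hcopP : (Nat.card ↥(Subgroup.zpowers x)).Coprime (Nat.card ↥P) := by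
      rw [hcard, hi]; exact Nat.Coprime.pow_right i hcop
    have hAF : Subgroup.zpowers x ≤ Subgroup.normalizer (F : Set G) := by
      rw [Subgroup.normalizer_eq_top]; exact le_top
    have hAP : Subgroup.zpowers x ≤ Subgroup.normalizer (P : Set G) := by
      rw [Subgroup.normalizer_eq_top]; exact le_top
    have hsolv : Group.IsSolvable ↥(Subgroup.zpowers x) := Group.isSolvable_of_comm (fun a b => by
      obtain ⟨a, i, rfl⟩ := a
      obtain ⟨b, j, rfl⟩ := b
      exact Subtype.ext ((Commute.zpow_zpow_self x i j).eq))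
    have hle : P ≤ P ⊓ Subgroup.centralizer (Subgroup.zpowers x : Set G) := by
      apply Cfsg.Agent.Lib.Helper6.le_of_le_sup_frattini P F _ hF inf_le_left
      intro k hk
      obtain ⟨n, hnF, hn⟩ := Cfsg.Agent.Lib.Lead.coprime_fix (Subgroup.zpowers x) F hAF hcopF
        (Or.inl hsolv) k (fun a ha => hmem a (hAker ha) k hk)
      have hknP : k * n ∈ P := P.mul_mem hk (hFP hnF)
      have hkn := Cfsg.Agent.Lib.Lead.mem_centralizer_of_normalizes (Subgroup.zpowers x) P hAP
        hcopP (k * n) hknP hn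
      have h := Subgroup.mul_mem (F ⊔ (P ⊓ Subgroup.centralizer (Subgroup.zpowers x : Set G)))
        (Subgroup.mem_sup_right (Subgroup.mem_inf.mpr ⟨hknP, hkn⟩))
        (Subgroup.mem_sup_left (F.inv_mem hnF))
      rwa [mul_inv_cancel_right] at h
    have hxc : x ∈ Subgroup.centralizer (P : Set G) := by
      rw [Subgroup.mem_centralizer_iff]
      intro h hh
      have h1 := (Subgroup.mem_inf.mp (hle hh)).2
      rw [Subgroup.mem_centralizer_iff] at h1
      exact (h1 x (Subgroup.mem_zpowers x)).symm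
    obtain ⟨m, hm⟩ := hP ⟨x, hc hxc⟩
    have hm' : x ^ p ^ m = 1 := congrArg Subtype.val hm
    have hdvd : orderOf x ∣ p ^ m := orderOf_dvd_of_pow_eq_one hm'
    have h1 : orderOf x = 1 := Nat.Coprime.eq_one_of_dvd (Nat.Coprime.pow_right m hcop) hdvd
    exact orderOf_eq_one_iff.mp h1
  intro y
  have hpos : orderOf (y : G) ≠ 0 := (orderOf_pos (y : G)).ne'
  obtain ⟨j, m, hnd, hjm⟩ := Nat.exists_eq_pow_mul_and_not_dvd hpos p hp.ne_one
  refine ⟨j, Subtype.ext ?_⟩
  show (y : G) ^ p ^ j = 1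
  apply hprime _ (Subgroup.pow_mem _ y.2 _)
  have h1 : ((y : G) ^ p ^ j) ^ m = 1 := by
    rw [← pow_mul, ← hjm]; exact pow_orderOf_eq_one _
  have h2 : orderOf ((y : G) ^ p ^ j) ∣ m := orderOf_dvd_of_pow_eq_one h1
  exact Nat.Coprime.coprime_dvd_left h2 ((Nat.Prime.coprime_iff_not_dvd hp).mpr hnd).symm

/-- An element acting quadratically on `O_p(G)` lies in `O_p(G)`. -/
theorem snc_mem_pCore_of_quad {G : Type*} [Group G] [Finite G] {p : ℕ} [Fact p.Prime]
    (hst : Cfsg.IsActionPStable p G)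
    (hc : Subgroup.centralizer (Cfsg.pCore p G : Set G) ≤ Cfsg.pCore p G) (a : G)
    (hq : ⁅⁅Cfsg.pCore p G, Subgroup.zpowers a⁆, Subgroup.zpowers a⁆ = ⊥) :
    a ∈ Cfsg.pCore p G := by
  obtain ⟨D, hDn, hkD, ⟨k, hk⟩, haD⟩ := hst.2.1 a (by rw [hq]; exact bot_le)
  have hker : IsPGroup p ↥(Cfsg.sectionKernel (Cfsg.pCore p G)
      ((frattini ↥(Cfsg.pCore p G)).map (Cfsg.pCore p G).subtype)) :=
    snc_sectionKernel_isPGroup (Cfsg.pCore p G) (Cfsg.Agent.Lib.Helper4.pCore_isPGroup p G) hc _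
      le_rfl
  obtain ⟨j, hj⟩ := IsPGroup.iff_card.mp hker
  have hcard := zj_card_mul_relIndex _ D hkD
  rw [hk, hj, ← pow_add] at hcard
  have hDp : IsPGroup p ↥D := IsPGroup.of_card hcard.symm
  exact Cfsg.Agent.Lib.Helper4.le_pCore hDn hDp haD

theorem snc_sylow_le_normalizer_thompson {G : Type*} [Group G] [Finite G] {p : ℕ}
    [Fact p.Prime] (S : Sylow p G) :
    (S : Subgroup G) ≤
      Subgroup.normalizer (Cfsg.thompsonSubgroupOf p (S : Subgroup G) : Set G) := by
  intro s hs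
  have h1 : (jE p (S : Subgroup G)).map (MulAut.conj s).toMonoidHom = jE p (S : Subgroup G) := by
    rw [← jE_map, map_conj_eq_of_forall (S : Subgroup G) s
      (fun x hx => (S : Subgroup G).mul_mem ((S : Subgroup G).mul_mem hs hx)
        ((S : Subgroup G).inv_mem hs))]
  have h2 := mem_normalizer_of_map_conj_le _ s h1.le
  rw [jE_eq_elem] at h2
  exact h2

/-- `N_G(J(S))` normalizes the image of `W(S)`. -/
theorem snc_normalizer_thompson {G : Type u} [Group G] [Finite G] {p : ℕ} [Fact p.Prime]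
    (hst : Cfsg.IsActionPStable p G)
    (hc : Subgroup.centralizer (Cfsg.pCore p G : Set G) ≤ Cfsg.pCore p G) (S : Sylow p G)
    (n : G) (hn : n ∈ Subgroup.normalizer (Cfsg.thompsonSubgroupOf p (S : Subgroup G) : Set G))
    (w : G)
    (hw : w ∈ (Cfsg.stableNormalClosure p ↥(S : Subgroup G)).map (S : Subgroup G).subtype) :
    n * w * n⁻¹ ∈
      (Cfsg.stableNormalClosure p ↥(S : Subgroup G)).map (S : Subgroup G).subtype := by
  have hSN := snc_sylow_le_normalizer_thompson S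
  have hstab : Cfsg.IsStableEmbedding p (Subgroup.inclusion hSN) := by
    unfold Cfsg.IsStableEmbedding
    refine ⟨Subgroup.inclusion_injective hSN, inferInstance, ⟨S.subtype hSN, ?_⟩, ?_, ?_, ?_⟩
    · rw [Sylow.coe_subtype]
      ext x
      rw [Subgroup.mem_subgroupOf, MonoidHom.mem_range]
      constructor
      · intro hx
        exact ⟨⟨x.1, hx⟩, Subtype.ext rfl⟩
      · rintro ⟨y, rfl⟩
        exact y.2
    · have hle : (Cfsg.pCore p G).subgroupOf
          (Subgroup.normalizer (Cfsg.thompsonSubgroupOf p (S : Subgroup G) : Set G)) ≤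
          Cfsg.pCore p
            ↥(Subgroup.normalizer (Cfsg.thompsonSubgroupOf p (S : Subgroup G) : Set G)) := by
        apply Cfsg.Agent.Lib.Helper4.le_pCore
        · haveI := Cfsg.Agent.Lib.Helper4.pCore_normal p G
          exact Subgroup.normal_subgroupOf
        · exact IsPGroup.comap_subtype (Cfsg.Agent.Lib.Helper4.pCore_isPGroup p G)
      intro x hx
      apply hle
      rw [Subgroup.mem_subgroupOf]
      apply hc
      rw [Subgroup.mem_centralizer_iff]
      intro q hq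
      have hqS : q ∈ (S : Subgroup G) := Cfsg.Agent.Lib.Helper4.pCore_le_sylow S hq
      have hqN := hSN hqS
      rw [Subgroup.mem_centralizer_iff] at hx
      have h1 := hx ⟨q, hqN⟩ (hle (by rw [Subgroup.mem_subgroupOf]; exact hq))
      exact congrArg Subtype.val h1
    · refine ⟨fun x hx g => ?_⟩
      obtain ⟨j, hj, rfl⟩ := hx
      have hjm : (j : G) ∈ Cfsg.thompsonSubgroupOf p (S : Subgroup G) :=
        Subgroup.mem_map_of_mem (S : Subgroup G).subtype hj
      have h1 : (g : G) * (j : G) * (g : G)⁻¹ ∈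
          (Cfsg.thompsonSubgroup p ↥(S : Subgroup G)).map (S : Subgroup G).subtype :=
        (Subgroup.mem_normalizer_iff.mp g.2 _).mp hjm
      obtain ⟨j', hj', hj'eq⟩ := h1
      exact ⟨j', hj', Subtype.ext hj'eq⟩
    · intro V hV hVle
      apply hst.2.2 S V
      rintro _ ⟨v, hv, rfl⟩
      obtain ⟨z, hz, hzeq⟩ := hVle hv
      exact ⟨z, hz, by rw [← hzeq]; rfl⟩
  have hnorm := snc_map_normal p ↥(S : Subgroup G) _ (Subgroup.inclusion hSN) hstab
  obtain ⟨w₀, hw₀, rfl⟩ := hw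
  obtain ⟨w₁, hw₁, hw₁eq⟩ := hnorm.conj_mem _
    (Subgroup.mem_map_of_mem (Subgroup.inclusion hSN) hw₀) ⟨n, hn⟩
  exact ⟨w₁, hw₁, congrArg Subtype.val hw₁eq⟩

theorem snc_map_le_zjE {G : Type*} [Group G] [Finite G] (p : ℕ) (S : Subgroup G) :
    (Cfsg.stableNormalClosure p ↥S).map S.subtype ≤ zjE p S := by
  rw [zjE_eq_omegaCenterThompson]
  exact Subgroup.map_mono (sInf_le (snc_zj_mem p ↥S))

theorem snc_admE_closure {G : Type*} [Group G] {e : ℕ} (X : Set G)
    (hgen : ∀ x ∈ X, ∀ y ∈ X, x * y = y * x) (hexp : ∀ x ∈ X, x ^ e = 1) :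
    AdmE e (Subgroup.closure X) := by
  have hcomm := commute_of_mem_closure _ hgen
  refine ⟨hcomm, ?_⟩
  intro a ha
  induction ha using Subgroup.closure_induction with
  | mem x hx => exact hexp x hx
  | one => exact one_pow e
  | mul x y hx hy ihx ihy =>
    rw [(show Commute x y from hcomm x hx y hy).mul_pow, ihx, ihy, one_mul]
  | inv x _ ihx => rw [inv_pow, ihx, inv_one]

/-- An involution acts quadratically on a normal elementary abelian `2`-subgroup. -/
theorem snc_quad_of_involution {H : Type*} [Group H] (V : Subgroup H) [hV : V.Normal]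
    (hV2 : ∀ v ∈ V, v * v = 1) (hVc : ∀ x ∈ V, ∀ y ∈ V, x * y = y * x) (a : H)
    (ha : a * a = 1) : ⁅⁅V, Subgroup.zpowers a⁆, Subgroup.zpowers a⁆ = ⊥ := by
  have ha' : a⁻¹ = a := inv_eq_of_mul_eq_one_left ha
  have hz : ∀ z ∈ Subgroup.zpowers a, z = 1 ∨ z = a := by
    rintro z ⟨i, rfl⟩
    show a ^ i = 1 ∨ a ^ i = a
    rcases Int.even_or_odd i with ⟨k, hk⟩ | ⟨k, hk⟩
    · left
      rw [hk, ← two_mul, zpow_mul, zpow_two, ha, one_zpow]
    · right
      rw [hk, zpow_add, zpow_one, zpow_mul, zpow_two, ha, one_zpow, one_mul]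
  rw [snc_quad_iff]
  intro v hv z₁ hz₁ z₂ hz₂
  rcases hz z₂ hz₂ with h2 | h2
  · rw [h2, commutatorElement_one_right]
  · rcases hz z₁ hz₁ with h1 | h1
    · rw [h1, commutatorElement_one_right, commutatorElement_one_left]
    · rw [h1, h2]
      have hv' : v⁻¹ = v := inv_eq_of_mul_eq_one_left (hV2 v hv)
      have hu : a * v * a ∈ V := by
        have := hV.conj_mem v hv a
        rwa [ha'] at this
      have e1 : ⁅v, a⁆ = v * (a * v * a) := by
        rw [commutatorElement_def, hv', ha']; group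
      rw [e1, commutatorElement_eq_one_iff_commute]
      show v * (a * v * a) * a = a * (v * (a * v * a))
      calc v * (a * v * a) * a = ((a * v * a) * v) * a := by rw [hVc v hv _ hu]
        _ = a * (v * (a * v * a)) := by group

/-- The analogue of the ZJ-theorem for the stable normal closure `W(S)`. -/
theorem snc_zj_analogue {G : Type u} [Group G] [Finite G] {p : ℕ} [Fact p.Prime]
    (hst : Cfsg.IsActionPStable p G)
    (hc : Subgroup.centralizer (Cfsg.pCore p G : Set G) ≤ Cfsg.pCore p G) (S : Sylow p G) :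
    ((Cfsg.stableNormalClosure p ↥(S : Subgroup G)).map (S : Subgroup G).subtype).Normal := by
  classical
  have hp : p.Prime := Fact.out
  obtain ⟨Wm, hWm⟩ : ∃ Wm : Subgroup G, Wm =
      (Cfsg.stableNormalClosure p ↥(S : Subgroup G)).map (S : Subgroup G).subtype := ⟨_, rfl⟩
  rw [← hWm]
  have hQn : (Cfsg.pCore p G).Normal := Cfsg.Agent.Lib.Helper4.pCore_normal p G
  have hQS : Cfsg.pCore p G ≤ (S : Subgroup G) := Cfsg.Agent.Lib.Helper4.pCore_le_sylow S
  have hSN := snc_sylow_le_normalizer_thompson S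
  have hWS : Wm ≤ (S : Subgroup G) := by rw [hWm]; exact Subgroup.map_subtype_le _
  have hWzj : Wm ≤ zjE p (S : Subgroup G) := by rw [hWm]; exact snc_map_le_zjE p _
  have hWcomm : ∀ x ∈ Wm, ∀ y ∈ Wm, x * y = y * x := fun x hx y hy =>
    (admE_zjE p (S : Subgroup G)).1 x (hWzj hx) y (hWzj hy)
  have hWexp : ∀ x ∈ Wm, x ^ p = 1 := fun x hx => (admE_zjE p (S : Subgroup G)).2 x (hWzj hx)
  have hWN : ∀ n ∈ Subgroup.normalizer (Cfsg.thompsonSubgroupOf p (S : Subgroup G) : Set G),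
      ∀ w ∈ Wm, n * w * n⁻¹ ∈ Wm := by
    intro n hn w hw
    rw [hWm] at hw ⊢
    exact snc_normalizer_thompson hst hc S n hn w hw
  have hWnS : ∀ s ∈ (S : Subgroup G), ∀ w ∈ Wm, s * w * s⁻¹ ∈ Wm := fun s hs w hw =>
    hWN s (hSN hs) w hw
  -- `Wm ≤ O_p(G)`
  have hWP : Wm ≤ Cfsg.pCore p G := by
    intro x hx
    apply snc_mem_pCore_of_quad hst hc
    rw [snc_quad_iff]
    intro v hv z₁ hz₁ z₂ hz₂
    have hzW : Subgroup.zpowers x ≤ Wm := Subgroup.zpowers_le.mpr hx
    have h1 : ⁅v, z₁⁆ ∈ Wm := by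
      rw [commutatorElement_def]
      exact Wm.mul_mem (hWnS v (hQS hv) z₁ (hzW hz₁)) (Wm.inv_mem (hzW hz₁))
    exact commutatorElement_eq_one_iff_commute.mpr (hWcomm _ h1 _ (hzW hz₂))
  -- conjugates of elements of `Wm` commute with `Wm`
  have hkey : ∀ g : G, ∀ x ∈ Wm, ∀ w ∈ Wm, (g * x * g⁻¹) * w = w * (g * x * g⁻¹) := by
    intro g x hx w hw
    have hyQ : g * x * g⁻¹ ∈ Cfsg.pCore p G := hQn.conj_mem x (hWP hx) g
    have hyS : g * x * g⁻¹ ∈ (S : Subgroup G) := hQS hyQ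
    have hnorm : ∀ v ∈ Wm, ∀ u ∈ Wm, ∃ u' ∈ Wm, v * (g * u * g⁻¹) * v⁻¹ = g * u' * g⁻¹ := by
      intro v hv u hu
      have hvQ : g⁻¹ * v * g ∈ Cfsg.pCore p G := by
        have := hQn.conj_mem v (hWP hv) g⁻¹
        rwa [inv_inv] at this
      exact ⟨(g⁻¹ * v * g) * u * (g⁻¹ * v * g)⁻¹, hWnS _ (hQS hvQ) u hu, by group⟩
    have hq : ⁅⁅Cfsg.stableNormalClosure p ↥(S : Subgroup G),
        Subgroup.zpowers (⟨g * x * g⁻¹, hyS⟩ : ↥(S : Subgroup G))⁆,
        Subgroup.zpowers (⟨g * x * g⁻¹, hyS⟩ : ↥(S : Subgroup G))⁆ = ⊥ := by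
      rw [snc_quad_iff]
      rintro v hv _ ⟨i, rfl⟩ _ ⟨j, rfl⟩
      have hvW : (v : G) ∈ Wm := by rw [hWm]; exact Subgroup.mem_map_of_mem _ hv
      have hxi : x ^ i ∈ Wm := Wm.zpow_mem hx i
      have hxj : x ^ j ∈ Wm := Wm.zpow_mem hx j
      obtain ⟨u', hu', hu'eq⟩ := hnorm (v : G) hvW (x ^ i) hxi
      apply Subtype.ext
      show ⁅⁅(v : G), (g * x * g⁻¹) ^ i⁆, (g * x * g⁻¹) ^ j⁆ = 1
      rw [conj_zpow, conj_zpow]
      have e2 : ⁅(v : G), g * x ^ i * g⁻¹⁆ = g * (u' * (x ^ i)⁻¹) * g⁻¹ := by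
        rw [commutatorElement_def, hu'eq]; group
      rw [e2, commutatorElement_eq_one_iff_commute]
      have hc1 := hWcomm _ (Wm.mul_mem hu' (Wm.inv_mem hxi)) _ hxj
      show g * (u' * (x ^ i)⁻¹) * g⁻¹ * (g * x ^ j * g⁻¹)
        = g * x ^ j * g⁻¹ * (g * (u' * (x ^ i)⁻¹) * g⁻¹)
      calc g * (u' * (x ^ i)⁻¹) * g⁻¹ * (g * x ^ j * g⁻¹)
          = g * ((u' * (x ^ i)⁻¹) * x ^ j) * g⁻¹ := by group
        _ = g * (x ^ j * (u' * (x ^ i)⁻¹)) * g⁻¹ := by rw [hc1]
        _ = g * x ^ j * g⁻¹ * (g * (u' * (x ^ i)⁻¹) * g⁻¹) := by group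
    have h0 := snc_quadratic_trivial (p := p) ↥(S : Subgroup G) ⟨g * x * g⁻¹, hyS⟩ hq
    rw [Subgroup.commutator_eq_bot_iff_le_centralizer] at h0
    have hw' := hw
    rw [hWm] at hw'
    obtain ⟨w₀, hw₀, rfl⟩ := hw'
    have h1 := h0 hw₀
    rw [Subgroup.mem_centralizer_iff] at h1
    have h2 := h1 ⟨g * x * g⁻¹, hyS⟩ (Subgroup.mem_zpowers _)
    exact congrArg Subtype.val h2
  -- the normal closure `V` of `Wm`
  obtain ⟨V, hV⟩ : ∃ V : Subgroup G, V = Subgroup.normalClosure (Wm : Set G) := ⟨_, rfl⟩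
  have hVn : V.Normal := hV ▸ Subgroup.normalClosure_normal
  have hWV : Wm ≤ V := hV ▸ Subgroup.le_normalClosure
  have hVQ : V ≤ Cfsg.pCore p G := by rw [hV]; exact Subgroup.normalClosure_le_normal hWP
  have hVS : V ≤ (S : Subgroup G) := hVQ.trans hQS
  have hVadm : AdmE p V := by
    rw [hV]
    unfold Subgroup.normalClosure
    apply snc_admE_closure
    · intro a ha b hb
      rw [Group.mem_conjugatesOfSet_iff] at ha hb
      obtain ⟨x, hx, hxa⟩ := ha
      obtain ⟨y, hy, hyb⟩ := hb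
      rw [isConj_iff] at hxa hyb
      obtain ⟨g, rfl⟩ := hxa
      obtain ⟨h, rfl⟩ := hyb
      have h1 := hkey (h⁻¹ * g) x hx y hy
      calc g * x * g⁻¹ * (h * y * h⁻¹)
          = h * ((h⁻¹ * g) * x * (h⁻¹ * g)⁻¹ * y) * h⁻¹ := by group
        _ = h * (y * ((h⁻¹ * g) * x * (h⁻¹ * g)⁻¹)) * h⁻¹ := by rw [h1]
        _ = h * y * h⁻¹ * (g * x * g⁻¹) := by group
    · intro a ha
      rw [Group.mem_conjugatesOfSet_iff] at ha
      obtain ⟨x, hx, hxa⟩ := ha
      rw [isConj_iff] at hxa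
      obtain ⟨g, rfl⟩ := hxa
      rw [conj_pow, hWexp x hx]; group
  haveI := hVn
  have hstV : Cfsg.IsPStableOn p V :=
    hst.1 V (Cfsg.Agent.Lib.Helper1.ea_of_comm hVadm.1 hVadm.2)
  have hCn : (Subgroup.centralizer (V : Set G)).Normal := inferInstance
  obtain ⟨K, hK⟩ : ∃ K : Subgroup G, K =
      (Cfsg.pCore p (G ⧸ Subgroup.centralizer (V : Set G))).comap (QuotientGroup.mk' _) :=
    ⟨_, rfl⟩
  have hKn : K.Normal := by
    rw [hK]; exact (Cfsg.Agent.Lib.Helper4.pCore_normal p _).comap _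
  have hCK : Subgroup.centralizer (V : Set G) ≤ K := by
    intro c hc'
    rw [hK, Subgroup.mem_comap]
    have : (QuotientGroup.mk' (Subgroup.centralizer (V : Set G))) c = 1 :=
      (QuotientGroup.eq_one_iff c).mpr hc'
    rw [this]; exact one_mem _
  have hKC : ∀ k ∈ K, ∃ n : ℕ, k ^ p ^ n ∈ Subgroup.centralizer (V : Set G) := by
    intro k hk
    rw [hK, Subgroup.mem_comap] at hk
    obtain ⟨n, hn⟩ := Cfsg.Agent.Lib.Helper4.pCore_isPGroup p _ ⟨_, hk⟩
    refine ⟨n, ?_⟩
    have h1 : ((QuotientGroup.mk' (Subgroup.centralizer (V : Set G))) k) ^ p ^ n = 1 :=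
      congrArg Subtype.val hn
    rw [← map_pow] at h1
    exact (QuotientGroup.eq_one_iff _).mp h1
  have hmemK : ∀ a : G, ⁅⁅V, Subgroup.zpowers a⁆, Subgroup.zpowers a⁆ = ⊥ → a ∈ K := by
    intro a ha
    rw [hK, Subgroup.mem_comap]
    exact hstV a ha
  have hVcent : ∀ A : Subgroup G, AdmE p A → V ≤ A → A ≤ K := by
    intro A hA hVA
    refine le_trans ?_ hCK
    intro a ha
    rw [Subgroup.mem_centralizer_iff]
    intro v hv
    exact hA.1 v (hVA hv) a ha
  have hfr := exists_mul_of_pQuotient S K (Subgroup.centralizer (V : Set G)) hKn hCn hCK hKC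
  have hJK : ∀ A ∈ famE p (S : Subgroup G), A ≤ K := by
    intro A hA
    by_cases hp2 : p = 2
    · intro a ha
      apply hmemK
      have ha2 : a * a = 1 := by
        have := hA.2.1.2 a ha
        rw [hp2, pow_two] at this
        exact this
      exact snc_quad_of_involution V (fun v hv => by
        have := hVadm.2 v hv
        rw [hp2, pow_two] at this
        exact this) hVadm.1 a ha2
    · have hall : ∀ A' ∈ famE p (S : Subgroup G), V ≤ A' := by
        by_contra hcon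
        push Not at hcon
        obtain ⟨U, hU, hVU⟩ := hcon
        have hodd : Odd p := hp.odd_of_ne_two hp2
        have hVV : ⁅V, V⁆ ≤ U := by
          have : ⁅V, V⁆ = ⊥ := by
            rw [Subgroup.commutator_eq_bot_iff_le_centralizer]
            intro a ha
            rw [Subgroup.mem_centralizer_iff]
            intro b hb
            exact hVadm.1 b hb a ha
          rw [this]; exact bot_le
        obtain ⟨A', hA', _, hVnA', hVNA'⟩ := famE_replacement hp2 p (Or.inr hodd)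
          (S : Subgroup G) S.isPGroup' (S : Subgroup G) le_rfl
          (fun g hg x hx => (S : Subgroup G).mul_mem ((S : Subgroup G).mul_mem hg hx)
            ((S : Subgroup G).inv_mem hg))
          V hVS (fun g _ x hx => hVn.conj_mem x hx g) ⟨U, hU, hVV, hVU⟩
        have hA'K : A' ≤ K := fun a ha => hmemK a (quad_of_normalizes hA'.2.1.1
          (fun v hv x hx => (Subgroup.mem_normalizer_iff.mp (hVNA' hv) x).mp hx) ha)
        have hA'S₁ : A' ≤ (S : Subgroup G) ⊓ K := le_inf hA'.1 hA'K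
        obtain ⟨hA'₁, hsub⟩ :=
          famE_of_le (inf_le_left : (S : Subgroup G) ⊓ K ≤ (S : Subgroup G)) hA' hA'S₁
        have hzz : zjE p (S : Subgroup G) ≤ zjE p ((S : Subgroup G) ⊓ K) :=
          le_zjE ⟨A', hA'₁⟩ (fun A₁ hA₁ => zjE_le_of_mem (hsub hA₁))
        apply hVnA'
        have hVle : V ≤ zjE p ((S : Subgroup G) ⊓ K) := by
          rw [hV]
          unfold Subgroup.normalClosure
          rw [Subgroup.closure_le]
          intro a ha
          rw [Group.mem_conjugatesOfSet_iff] at ha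
          obtain ⟨x, hx, hxa⟩ := ha
          rw [isConj_iff] at hxa
          obtain ⟨g, rfl⟩ := hxa
          obtain ⟨m, hm, c, hc', rfl⟩ := hfr g
          have hcx : c * x * c⁻¹ = x := by
            rw [Subgroup.mem_centralizer_iff] at hc'
            rw [← hc' x (hWV hx)]; group
          have e1 : m * c * x * (m * c)⁻¹ = m * (c * x * c⁻¹) * m⁻¹ := by group
          rw [SetLike.mem_coe, e1, hcx]
          refine zjE_conj_mem p _ m ?_ (hzz (hWzj hx))
          apply map_conj_eq_of_forall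
          intro y hy
          exact (Subgroup.mem_normalizer_iff.mp hm y).mp hy
        exact hVle.trans (zjE_le_of_mem hA'₁)
      exact hVcent A hA.2.1 (hall A hA)
  have hfamEq : famE p ((S : Subgroup G) ⊓ K) = famE p (S : Subgroup G) := by
    obtain ⟨A₀, hA₀⟩ := famE_nonempty p (S : Subgroup G)
    apply Set.Subset.antisymm
    · exact (famE_of_le inf_le_left hA₀ (le_inf hA₀.1 (hJK A₀ hA₀))).2
    · intro A hA
      exact (famE_of_le inf_le_left hA (le_inf hA.1 (hJK A hA))).1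
  have hjEq : jE p ((S : Subgroup G) ⊓ K) = Cfsg.thompsonSubgroupOf p (S : Subgroup G) := by
    rw [← jE_eq_elem]; unfold jE; rw [hfamEq]
  refine ⟨fun w hw g => ?_⟩
  obtain ⟨m, hm, c, hc', rfl⟩ := hfr g
  have hcw : c * w * c⁻¹ = w := by
    rw [Subgroup.mem_centralizer_iff] at hc'
    rw [← hc' w (hWV hw)]; group
  have e1 : m * c * w * (m * c)⁻¹ = m * (c * w * c⁻¹) * m⁻¹ := by group
  rw [e1, hcw]
  refine hWN m ?_ w hw
  rw [← hjEq]
  have h1 : (jE p ((S : Subgroup G) ⊓ K)).map (MulAut.conj m).toMonoidHom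
      = jE p ((S : Subgroup G) ⊓ K) := by
    rw [← jE_map, map_conj_eq_of_forall ((S : Subgroup G) ⊓ K) m
      (fun y hy => (Subgroup.mem_normalizer_iff.mp hm y).mp hy)]
  exact mem_normalizer_of_map_conj_le _ m h1.le

end Cfsg.Agent.Lib.Helper3
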