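import Mathlib
import Cfsg.Prelude.Def_PLocal
import Cfsg.Agent.Lib.Helper3.StableNC3
import Cfsg.Agent.Lib.Helper3.Special
import Cfsg.Agent.Lib.Helper3.PStab
import Cfsg.Agent.Lib.Helper3.Crit
import Cfsg.Agent.S2005

set_option autoImplicit false

namespace Cfsg.Agent.Lib.Helper3

universe u

open scoped commutatorElement

/-- Groups of the class `IsPAbP` act `p`-stably on their normal `p`-subgroups, for odd `p`. -/
theorem IsPAbP.isPStableOn {Y : Type u} [Group Y] [Finite Y] {p : ℕ} [Fact p.Prime]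
    (hp : p ≠ 2) (h : IsPAbP p Y) (P : Subgroup Y) [hPn : P.Normal] (hPp : IsPGroup p ↥P) :
    Cfsg.IsPStableOn p P := by
  intro g hquad
  have hp3 : 2 ≤ p - 1 := by
    have h2 := (Fact.out : p.Prime).two_le
    omega
  apply mem_pCore_quotient_of_chief_trivial P (Subgroup.centralizer (P : Set Y)) hPp ?_ g ?_
  · intro x hx
    rw [Subgroup.mem_centralizer_iff]
    intro u hu
    exact (hx u hu).symm
  · intro U V hUV hUP
    apply h.chief_centralized hUV (hPp.to_le hUP) g
    have hUn := hUV.2.1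
    have h2 : Cfsg.iterCommutator U (Subgroup.zpowers g) 2 = ⊥ := by
      rw [eq_bot_iff, ← hquad]
      exact Subgroup.commutator_mono (Subgroup.commutator_mono hUP le_rfl) le_rfl
    have h4 := iterCommutator_antitone U (Subgroup.zpowers g)
      (by rw [Subgroup.normalizer_eq_top U]; exact le_top) hp3
    rw [h2] at h4
    exact h4.trans bot_le

theorem snc_relIndex_comap_mk {Z : Type*} [Group Z] (C : Subgroup Z) [C.Normal]
    (O : Subgroup (Z ⧸ C)) :
    C.relIndex (O.comap (QuotientGroup.mk' C)) = Nat.card ↥O := by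
  have e1 : (⊥ : Subgroup (Z ⧸ C)).comap (QuotientGroup.mk' C) = C := by
    rw [MonoidHom.comap_bot, QuotientGroup.ker_mk']
  calc C.relIndex (O.comap (QuotientGroup.mk' C))
      = ((⊥ : Subgroup (Z ⧸ C)).comap (QuotientGroup.mk' C)).relIndex
          (O.comap (QuotientGroup.mk' C)) := by rw [e1]
    _ = (⊥ : Subgroup (Z ⧸ C)).relIndex
          ((O.comap (QuotientGroup.mk' C)).map (QuotientGroup.mk' C)) :=
        Subgroup.relIndex_comap _ _ _
    _ = (⊥ : Subgroup (Z ⧸ C)).relIndex O := by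
        rw [Subgroup.map_comap_eq_self_of_surjective (QuotientGroup.mk'_surjective C)]
    _ = Nat.card ↥O := Subgroup.relIndex_bot_left _

/-- Groups of the class `IsPAbP` act `p`-stably on sections `Q / F` of normal `p`-subgroups. -/
theorem IsPAbP.isPStableOnSection {Y : Type u} [Group Y] [Finite Y] {p : ℕ} [Fact p.Prime]
    (hp : p ≠ 2) (h : IsPAbP p Y) (Q F : Subgroup Y) [hQn : Q.Normal] [hFn : F.Normal]
    (hQp : IsPGroup p ↥Q) : Cfsg.IsPStableOnSection p Q F := by
  intro a ha
  have hQ'n : (Q.map (QuotientGroup.mk' F)).Normal :=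
    hQn.map _ (QuotientGroup.mk'_surjective F)
  haveI := hQ'n
  have hQ'p : IsPGroup p ↥(Q.map (QuotientGroup.mk' F)) := hQp.map _
  have hZ : IsPAbP p (Y ⧸ F) :=
    h.of_surjective (QuotientGroup.mk' F) (QuotientGroup.mk'_surjective F)
  have hst := hZ.isPStableOn hp (Q.map (QuotientGroup.mk' F)) hQ'p
  have hquad : ⁅⁅Q.map (QuotientGroup.mk' F), Subgroup.zpowers (QuotientGroup.mk' F a)⁆,
      Subgroup.zpowers (QuotientGroup.mk' F a)⁆ = ⊥ := by
    rw [← MonoidHom.map_zpowers, ← Subgroup.map_commutator, ← Subgroup.map_commutator,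
      eq_bot_iff]
    intro x hx
    obtain ⟨y, hy, rfl⟩ := hx
    rw [Subgroup.mem_bot]
    exact (QuotientGroup.eq_one_iff y).mpr (ha hy)
  have hmem := hst _ hquad
  refine ⟨((Cfsg.pCore p ((Y ⧸ F) ⧸ Subgroup.centralizer
      ((Q.map (QuotientGroup.mk' F) : Subgroup (Y ⧸ F)) : Set (Y ⧸ F)))).comap
        (QuotientGroup.mk' _)).comap (QuotientGroup.mk' F), ?_, ?_, ?_, ?_⟩
  · exact ((Cfsg.Agent.Lib.Helper4.pCore_normal p _).comap _).comap _
  · unfold Cfsg.sectionKernel
    apply Subgroup.comap_mono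
    intro c hc
    rw [Subgroup.mem_comap]
    have : (QuotientGroup.mk' (Subgroup.centralizer
        ((Q.map (QuotientGroup.mk' F) : Subgroup (Y ⧸ F)) : Set (Y ⧸ F)))) c = 1 :=
      (QuotientGroup.eq_one_iff c).mpr hc
    rw [this]; exact one_mem _
  · obtain ⟨k, hk⟩ := IsPGroup.iff_card.mp (Cfsg.Agent.Lib.Helper4.pCore_isPGroup p
      ((Y ⧸ F) ⧸ Subgroup.centralizer
        ((Q.map (QuotientGroup.mk' F) : Subgroup (Y ⧸ F)) : Set (Y ⧸ F))))
    refine ⟨k, ?_⟩
    unfold Cfsg.sectionKernel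
    rw [Subgroup.relIndex_comap,
      Subgroup.map_comap_eq_self_of_surjective (QuotientGroup.mk'_surjective F),
      snc_relIndex_comap_mk]
    exact hk
  · rw [Subgroup.mem_comap, Subgroup.mem_comap]
    exact hmem

/-- Groups of the class `IsPAbP` are `p`-stable in the action sense, for odd `p`. -/
theorem IsPAbP.isActionPStable {Y : Type u} [Group Y] [Finite Y] {p : ℕ} [Fact p.Prime]
    (hp : p ≠ 2) (h : IsPAbP p Y) : Cfsg.IsActionPStable p Y := by
  unfold Cfsg.IsActionPStable
  refine ⟨?_, ?_, ?_⟩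
  · intro V hVn hVea
    have hVp : IsPGroup p ↥V := fun v => ⟨1, Subtype.ext (by
      show (v : Y) ^ p ^ 1 = 1
      rw [pow_one]; exact hVea.2 v.1 v.2)⟩
    exact h.isPStableOn hp V hVp
  · exact h.isPStableOnSection hp (Cfsg.pCore p Y) _ (Cfsg.Agent.Lib.Helper4.pCore_isPGroup p Y)
  · intro S V hVn hVle
    have hVp : IsPGroup p ↥V := by
      intro v
      have h1 : ((v : ↥(Subgroup.normalizer
          (Cfsg.thompsonSubgroupOf p (S : Subgroup Y) : Set Y))) : Y) ∈ (S : Subgroup Y) :=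
        Subgroup.map_subtype_le _ (hVle (Subgroup.mem_map_of_mem _ v.2))
      obtain ⟨n, hn⟩ := S.isPGroup' ⟨_, h1⟩
      have hn' : ((v : ↥(Subgroup.normalizer
          (Cfsg.thompsonSubgroupOf p (S : Subgroup Y) : Set Y))) : Y) ^ p ^ n = 1 :=
        congrArg Subtype.val hn
      refine ⟨n, Subtype.ext (Subtype.ext ?_)⟩
      exact hn'
    exact (h.subgroup _).isPStableOn hp V hVp

theorem snc_isCharPFunctor (p : ℕ) [Fact p.Prime] :
    Cfsg.IsCharPFunctor.{u} p (fun (Q : Type u) [Group Q] => Cfsg.stableNormalClosure p Q) := by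
  constructor
  · intro Q _ _ hQ hnt
    show Cfsg.stableNormalClosure p Q ≠ ⊥
    have h1 := snc_omegaOne_center_ne_bot (p := p) Q hQ
    have hle : Cfsg.omegaOne p (Subgroup.center Q) ≤ Cfsg.stableNormalClosure p Q := by
      unfold Cfsg.stableNormalClosure
      exact le_sInf (fun W hW => hW.1)
    intro hbot
    apply h1
    rw [eq_bot_iff, ← hbot]
    exact hle
  · intro Q R _ _ _ hQ φ
    exact snc_map_equiv_eq_of_le (F := fun (S : Type u) [Group S] => Cfsg.stableNormalClosure p S)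
      (fun S S' _ _ η => snc_map_le p S S' η) Q R φ

theorem snc_normal_of_special {Y : Type u} [Group Y] [Finite Y] {p : ℕ} [Fact p.Prime]
    (hp : p ≠ 2)
    (hcon : Subgroup.centralizer (Cfsg.pCore p Y : Set Y) ≤ Cfsg.pCore p Y)
    (hq : Cfsg.HasNormalPComplement p (Y ⧸ Cfsg.pCore p Y)) (T : Sylow p Y)
    (hTco : IsCoatom (T : Subgroup Y)) :
    ((Cfsg.stableNormalClosure p ↥(T : Subgroup Y)).map (T : Subgroup Y).subtype).Normal := by
  have h1 := isPAbP_of_special hq (T : Subgroup Y) T.isPGroup' T.not_dvd_index hTco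
  exact snc_zj_analogue (h1.isActionPStable hp) hcon T

/-- Thompson's normal `p`-complement theorem in the form with `W(S)`. -/
theorem snc_thompson_npc {G : Type u} [Group G] [Finite G] {p : ℕ} [Fact p.Prime] (hp : p ≠ 2)
    (S : Sylow p G)
    (hN : Cfsg.HasNormalPComplement p ↥(Subgroup.normalizer
      (((Cfsg.stableNormalClosure p ↥(S : Subgroup G)).map (S : Subgroup G).subtype) : Set G))) :
    Cfsg.HasNormalPComplement p G := by
  apply Cfsg.Agent.S2005.result (fun (Q : Type u) [Group Q] => Cfsg.stableNormalClosure p Q)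
    (snc_isCharPFunctor p) S
  · unfold Cfsg.inducedFunctor
    exact hN
  · intro K R hR hcon hq T hTco
    unfold Cfsg.inducedFunctor
    exact snc_normal_of_special hp hcon hq T hTco

end Cfsg.Agent.Lib.Helper3
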