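import Mathlib
import Cfsg.Prelude
import Cfsg.Agent.Lib.Helper2.Layer
import Cfsg.Agent.Lib.Helper2.Quasi
import Cfsg.Agent.Lib.Helper3.PRes
import Cfsg.Agent.Lib.Helper3.GlauRepl

set_option autoImplicit false

namespace Cfsg.Agent.Lib.Helper3

open Cfsg
open scoped commutatorElement

universe u

/-- Conjugation transports "component of the centralizer of `k`". -/
theorem isComponent_subgroupOf_centralizer_conj {G : Type*} [Group G] (L : Subgroup G)
    (k g : G) (hLk : L ≤ Subgroup.centralizer ({k} : Set G))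
    (h : IsComponent (L.subgroupOf (Subgroup.centralizer ({k} : Set G)))) :
    ∃ hle : L.map (MulAut.conj g).toMonoidHom ≤ Subgroup.centralizer ({g * k * g⁻¹} : Set G),
      IsComponent ((L.map (MulAut.conj g).toMonoidHom).subgroupOf
        (Subgroup.centralizer ({g * k * g⁻¹} : Set G))) := by
  have hle : L.map (MulAut.conj g).toMonoidHom ≤ Subgroup.centralizer ({g * k * g⁻¹} : Set G) := by
    rintro _ ⟨l, hl, rfl⟩
    have h1 := hLk hl
    rw [Subgroup.mem_centralizer_iff] at h1 ⊢
    intro z hz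
    rw [Set.mem_singleton_iff] at hz
    subst hz
    have h2 : k * l = l * k := h1 k rfl
    change g * k * g⁻¹ * (g * l * g⁻¹) = g * l * g⁻¹ * (g * k * g⁻¹)
    calc g * k * g⁻¹ * (g * l * g⁻¹) = g * (k * l) * g⁻¹ := by group
      _ = g * (l * k) * g⁻¹ := by rw [h2]
      _ = g * l * g⁻¹ * (g * k * g⁻¹) := by group
  refine ⟨hle, ?_⟩
  let ψ : ↥(Subgroup.centralizer ({g * k * g⁻¹} : Set G)) →* ↥(Subgroup.centralizer ({k} : Set G)) :=
    { toFun := fun c => ⟨g⁻¹ * c * g, by
        have hc := c.2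
        rw [Subgroup.mem_centralizer_iff] at hc ⊢
        intro z hz
        rw [Set.mem_singleton_iff] at hz
        subst hz
        have h1 : g * z * g⁻¹ * (c : G) = (c : G) * (g * z * g⁻¹) := hc _ rfl
        calc z * (g⁻¹ * (c : G) * g) = g⁻¹ * (g * z * g⁻¹ * (c : G)) * g := by group
          _ = g⁻¹ * ((c : G) * (g * z * g⁻¹)) * g := by rw [h1]
          _ = g⁻¹ * (c : G) * g * z := by group⟩
      map_one' := by apply Subtype.ext; simp
      map_mul' := fun a b => by apply Subtype.ext; simp [mul_assoc] }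
  have hψ : ∀ c, ((ψ c : ↥(Subgroup.centralizer ({k} : Set G))) : G) = g⁻¹ * c * g := fun c => rfl
  have hcomap : (L.subgroupOf (Subgroup.centralizer ({k} : Set G))).comap ψ
      = (L.map (MulAut.conj g).toMonoidHom).subgroupOf
          (Subgroup.centralizer ({g * k * g⁻¹} : Set G)) := by
    ext c
    rw [Subgroup.mem_comap, Subgroup.mem_subgroupOf, Subgroup.mem_subgroupOf, hψ]
    constructor
    · intro hc
      refine ⟨g⁻¹ * c * g, hc, ?_⟩
      change g * (g⁻¹ * (c : G) * g) * g⁻¹ = (c : G)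
      group
    · rintro ⟨l, hl, hlc⟩
      have : g⁻¹ * (c : G) * g = l := by
        rw [← hlc]
        change g⁻¹ * (g * l * g⁻¹) * g = l
        group
      rw [this]; exact hl
  refine ⟨?_, ?_⟩
  · rw [← hcomap]
    exact h.1.comap ψ
  · exact Cfsg.Agent.Lib.Helper2.isQuasisimple_of_mulEquiv
      (((Subgroup.subgroupOfEquivOfLe hLk).trans
        (L.equivMapOfInjective (MulAut.conj g).toMonoidHom (MulAut.conj g).injective)).trans
        (Subgroup.subgroupOfEquivOfLe hle).symm) h.2

/-- Two components of a subgroup `C` which do not commute are equal. -/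
theorem eq_of_isComponent_subgroupOf {G : Type u} [Group G] [Finite G] (L L' C : Subgroup G)
    (hL : L ≤ C) (hL' : L' ≤ C) (h1 : IsComponent (L.subgroupOf C))
    (h2 : IsComponent (L'.subgroupOf C)) (hnc : L' ≠ L → ⁅L, L'⁆ ≠ ⊥) : L' = L := by
  by_contra hne
  apply hnc hne
  rw [Subgroup.commutator_eq_bot_iff_le_centralizer]
  intro l hl
  rw [Subgroup.mem_centralizer_iff]
  intro l' hl'
  have hne' : L.subgroupOf C ≠ L'.subgroupOf C := by
    intro heq
    apply hne
    have := congrArg (Subgroup.map C.subtype) heq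
    rw [Subgroup.map_subgroupOf_eq_of_le hL, Subgroup.map_subgroupOf_eq_of_le hL'] at this
    exact this.symm
  have h3 := Cfsg.Agent.Lib.Helper2.components_commute (L.subgroupOf C) (L'.subgroupOf C) h1 h2 hne'
  have h4 : (⟨l, hL hl⟩ : ↥C) ∈ L.subgroupOf C := Subgroup.mem_subgroupOf.mpr hl
  have h5 : (⟨l', hL' hl'⟩ : ↥C) ∈ L'.subgroupOf C := Subgroup.mem_subgroupOf.mpr hl'
  have h6 := Subgroup.mem_centralizer_iff.mp (h3 h4) _ h5
  exact congrArg Subtype.val h6

/-- If `g L g⁻¹ = L` then `g` normalizes `C_G(L)`. -/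
theorem mem_normalizer_centralizer_of_map_conj_eq {G : Type*} [Group G] [Finite G]
    (L : Subgroup G) (g : G) (h : L.map (MulAut.conj g).toMonoidHom = L) :
    g ∈ Subgroup.normalizer ((Subgroup.centralizer (L : Set G) : Subgroup G) : Set G) := by
  apply mem_normalizer_of_conj_le
  intro k hk
  rw [Subgroup.mem_centralizer_iff] at hk ⊢
  intro l hl
  have hl' : g⁻¹ * l * g ∈ L := by
    have h1 : l ∈ L.map (MulAut.conj g).toMonoidHom := by rw [h]; exact hl
    obtain ⟨l₀, hl₀, e⟩ := h1
    have : g⁻¹ * l * g = l₀ := by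
      rw [← e]
      change g⁻¹ * (g * l₀ * g⁻¹) * g = l₀
      group
    rw [this]; exact hl₀
  have h2 := hk _ hl'
  calc l * (g * k * g⁻¹) = g * ((g⁻¹ * l * g) * k) * g⁻¹ := by group
    _ = g * (k * (g⁻¹ * l * g)) * g⁻¹ := by rw [h2]
    _ = g * k * g⁻¹ * l := by group

/-- Criterion for a standard subgroup. -/
theorem isStandardSubgroup_of_component {G : Type u} [Group G] [Finite G] (x : G)
    (hx : orderOf x = 2) (L : Subgroup G) (hLx : L ≤ Subgroup.centralizer ({x} : Set G))
    (hL : IsComponent (L.subgroupOf (Subgroup.centralizer ({x} : Set G))))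
    (hne : ∀ y : G, orderOf y = 2 → y ∈ Subgroup.centralizer (L : Set G) →
      L ≤ Subgroup.centralizer ({y} : Set G) ∧
        IsComponent (L.subgroupOf (Subgroup.centralizer ({y} : Set G))))
    (hnc : ∀ g : G, L.map (MulAut.conj g).toMonoidHom ≠ L →
      ⁅L, L.map (MulAut.conj g).toMonoidHom⁆ ≠ ⊥) : IsStandardSubgroup L := by
  have hxK : x ∈ Subgroup.centralizer (L : Set G) := by
    rw [Subgroup.mem_centralizer_iff]
    intro l hl
    have := hLx hl
    rw [Subgroup.mem_centralizer_iff] at this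
    exact (this x rfl).symm
  -- key: if `y = g k g⁻¹` with `y, k` involutions of `C(L)` then `g L g⁻¹ = L`
  have key : ∀ g k : G, orderOf k = 2 → k ∈ Subgroup.centralizer (L : Set G) →
      g * k * g⁻¹ ∈ Subgroup.centralizer (L : Set G) → L.map (MulAut.conj g).toMonoidHom = L := by
    intro g k hk2 hkK hyK
    have hy2 : orderOf (g * k * g⁻¹) = 2 := by
      rw [← hk2]; exact (MulAut.conj g).orderOf_eq k
    obtain ⟨h1, h2⟩ := hne k hk2 hkK
    obtain ⟨h3, h4⟩ := hne _ hy2 hyK
    obtain ⟨h5, h6⟩ := isComponent_subgroupOf_centralizer_conj L k g h1 h2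
    exact eq_of_isComponent_subgroupOf L _ _ h3 h5 h4 h6 (hnc g)
  refine ⟨?_, ⟨?_, ?_⟩, hnc, ?_⟩
  · exact Cfsg.Agent.Lib.Helper2.isQuasisimple_of_mulEquiv (Subgroup.subgroupOfEquivOfLe hLx) hL.2
  · have h1 : orderOf (⟨x, hxK⟩ : ↥(Subgroup.centralizer (L : Set G))) = 2 :=
      (Subgroup.orderOf_mk x hxK).trans hx
    have h2 := orderOf_dvd_natCard (⟨x, hxK⟩ : ↥(Subgroup.centralizer (L : Set G)))
    rw [h1] at h2
    exact (even_iff_two_dvd).mpr h2
  · intro g hg
    rw [← Nat.not_even_iff_odd]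
    intro heven
    have h2 : 2 ∣ Nat.card ↥(Subgroup.centralizer (L : Set G) ⊓
        (Subgroup.centralizer (L : Set G)).map (MulAut.conj g).toMonoidHom) :=
      (even_iff_two_dvd).mp heven
    obtain ⟨y, hy⟩ := exists_prime_orderOf_dvd_card' 2 h2
    have hy2 : orderOf (y : G) = 2 := by rw [Subgroup.orderOf_coe]; exact hy
    obtain ⟨hyK, hyKg⟩ := Subgroup.mem_inf.mp y.2
    obtain ⟨k, hkK, hky⟩ := hyKg
    have hky' : g * k * g⁻¹ = (y : G) := hky
    have hk2 : orderOf k = 2 := by
      rw [← hy2, ← hky']; exact ((MulAut.conj g).orderOf_eq k).symm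
    have h3 := key g k hk2 hkK (by rw [hky']; exact hyK)
    exact hg (mem_normalizer_centralizer_of_map_conj_eq L g h3)
  · apply le_antisymm
    · intro g hg
      exact mem_normalizer_centralizer_of_map_conj_eq L g (map_conj_eq_of_mem_normalizer L g hg)
    · intro g hg
      have h1 : g * x * g⁻¹ ∈ Subgroup.centralizer (L : Set G) :=
        (Subgroup.mem_normalizer_iff.mp hg x).mp hxK
      exact mem_normalizer_of_map_conj_eq' L g (key g x hx hxK h1)

end Cfsg.Agent.Lib.Helper3
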