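import Mathlib
import Cfsg.Prelude
import Cfsg.Agent.Lib.Helper2.FStar
import Cfsg.Agent.Lib.Helper2.Fit
import Cfsg.Agent.Lib.Helper3.GlauRepl
import Cfsg.Agent.Lib.Helper3.ThompsonOrder

/-! Characteristic abelian subgroups of a symplectic-type `F*(C_G(z))` are TI-sets. -/

set_option autoImplicit false

universe u

namespace Cfsg.Agent.Lib.Helper3

open Cfsg

theorem symplectic_ti {G : Type u} [Group G] [Finite G] (z : G) (hz : orderOf z = 2)
    (C : Subgroup G) (hC : C = Subgroup.centralizer ({z} : Set G))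
    (hQ : Cfsg.IsOfSymplecticType ↥(Cfsg.generalizedFittingSubgroup ↥C))
    (B : Subgroup ↥(Cfsg.generalizedFittingSubgroup ↥C)) (hBc : B.Characteristic)
    (hBa : IsMulCommutative ↥B) (g : G) :
    ((B.map (Cfsg.generalizedFittingSubgroup ↥C).subtype).map C.subtype).map
        (MulAut.conj g).toMonoidHom =
        (B.map (Cfsg.generalizedFittingSubgroup ↥C).subtype).map C.subtype ∨
      ((B.map (Cfsg.generalizedFittingSubgroup ↥C).subtype).map C.subtype).map
        (MulAut.conj g).toMonoidHom ⊓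
        (B.map (Cfsg.generalizedFittingSubgroup ↥C).subtype).map C.subtype = ⊥ := by
  obtain ⟨Q, hQdef⟩ : ∃ Q : Subgroup ↥C, Q = Cfsg.generalizedFittingSubgroup ↥C := ⟨_, rfl⟩
  have hQn : (Cfsg.generalizedFittingSubgroup ↥C).Normal :=
    Cfsg.Agent.Lib.Helper2.genFitting_normal ↥C
  have hQcent := Cfsg.Agent.Lib.Helper2.centralizer_genFitting_le ↥C
  obtain ⟨hQ2, hQcyc⟩ := hQ
  -- `z` as an element of `C` and of `Q`
  have hzC : z ∈ C := by
    rw [hC, Subgroup.mem_centralizer_iff]
    intro y hy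
    rw [Set.mem_singleton_iff] at hy
    rw [hy]
  have hzcent : ∀ c : ↥C, c * (⟨z, hzC⟩ : ↥C) = ⟨z, hzC⟩ * c := by
    intro c
    apply Subtype.ext
    have hc : (c : G) ∈ Subgroup.centralizer ({z} : Set G) := (le_of_eq hC) c.2
    rw [Subgroup.mem_centralizer_iff] at hc
    exact (hc z rfl).symm
  have hzQ : (⟨z, hzC⟩ : ↥C) ∈ Cfsg.generalizedFittingSubgroup ↥C := by
    apply hQcent
    rw [Subgroup.mem_centralizer_iff]
    intro y _
    exact hzcent y
  -- the unique involution
  have hinv : ∀ b ∈ B, orderOf b = 2 → b = ⟨⟨z, hzC⟩, hzQ⟩ := by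
    intro b hb hb2
    have hAc : (B ⊔ Subgroup.center ↥(Cfsg.generalizedFittingSubgroup ↥C)).Characteristic :=
      inferInstance
    have hAa : IsMulCommutative ↥(B ⊔ Subgroup.center ↥(Cfsg.generalizedFittingSubgroup ↥C)) := by
      rw [isMulCommutative_iff_forall]
      have hBB : B ≤ Subgroup.centralizer (B : Set ↥(Cfsg.generalizedFittingSubgroup ↥C)) := by
        intro x hx
        rw [Subgroup.mem_centralizer_iff]
        intro y hy
        exact ((isMulCommutative_iff_forall B).mp hBa) y hy x hx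
      have h1 : B ⊔ Subgroup.center ↥(Cfsg.generalizedFittingSubgroup ↥C) ≤
          Subgroup.centralizer (B : Set ↥(Cfsg.generalizedFittingSubgroup ↥C)) :=
        sup_le hBB (Subgroup.center_le_centralizer _)
      have h2 : B ⊔ Subgroup.center ↥(Cfsg.generalizedFittingSubgroup ↥C) ≤
          Subgroup.centralizer
            ((B ⊔ Subgroup.center ↥(Cfsg.generalizedFittingSubgroup ↥C) : Subgroup _) :
              Set ↥(Cfsg.generalizedFittingSubgroup ↥C)) :=
        sup_le (Subgroup.le_centralizer_iff.mp h1) (Subgroup.center_le_centralizer _)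
      intro x hx y hy
      exact (Subgroup.mem_centralizer_iff.mp (h2 hx) y hy).symm
    have hcyc := hQcyc _ hAc hAa
    obtain ⟨a, ha⟩ := (Subgroup.isCyclic_iff_exists_zpowers_eq_top _).mp hcyc
    have hbA : b ∈ Subgroup.zpowers a := by rw [ha]; exact Subgroup.mem_sup_left hb
    have hzA : (⟨⟨z, hzC⟩, hzQ⟩ : ↥(Cfsg.generalizedFittingSubgroup ↥C)) ∈ Subgroup.zpowers a := by
      rw [ha]
      apply Subgroup.mem_sup_right
      rw [Subgroup.mem_center_iff]
      intro y
      apply Subtype.ext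
      exact hzcent y.1
    have hz2 : orderOf (⟨⟨z, hzC⟩, hzQ⟩ : ↥(Cfsg.generalizedFittingSubgroup ↥C)) = 2 := by
      rw [← hz, ← Subgroup.orderOf_coe, ← Subgroup.orderOf_coe]
    have heven : Even (orderOf a) := by
      have := orderOf_dvd_of_mem_zpowers hbA
      rw [hb2] at this
      exact (even_iff_two_dvd).mpr this
    obtain ⟨t, -, -, htu⟩ := exists_unique_involution_zpowers a heven
    exact (htu b hb2 hbA).trans (htu _ hz2 hzA).symm
  -- nontrivial elements of `B` have a power equal to `z`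
  have hpow : ∀ y ∈ (B.map (Cfsg.generalizedFittingSubgroup ↥C).subtype).map C.subtype,
      y ≠ 1 → y ^ (orderOf y / 2) = z := by
    rintro _ ⟨_, ⟨b, hb, rfl⟩, rfl⟩ hne
    have hb1 : b ≠ 1 := by
      rintro rfl
      exact hne rfl
    have hord : orderOf ((C.subtype ((Cfsg.generalizedFittingSubgroup ↥C).subtype b)) : G) =
        orderOf b := by
      show orderOf (((b : ↥C) : G)) = orderOf b
      rw [Subgroup.orderOf_coe, Subgroup.orderOf_coe]
    rw [hord]
    obtain ⟨k, hk⟩ := (IsPGroup.iff_orderOf.mp hQ2) b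
    have hk1 : k ≠ 0 := by
      rintro rfl
      rw [pow_zero, orderOf_eq_one_iff] at hk
      exact hb1 hk
    obtain ⟨j, rfl⟩ := Nat.exists_eq_succ_of_ne_zero hk1
    have hdiv : orderOf b / 2 = 2 ^ j := by
      rw [hk, pow_succ, Nat.mul_div_cancel _ (by norm_num : 0 < 2)]
    rw [hdiv]
    have hi2 : orderOf (b ^ 2 ^ j) = 2 := by
      apply orderOf_eq_prime
      · rw [← pow_mul, ← pow_succ, ← hk]; exact pow_orderOf_eq_one b
      · apply pow_ne_one_of_lt_orderOf (by positivity)
        rw [hk, pow_succ]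
        exact lt_mul_of_one_lt_right (pow_pos (by norm_num : 0 < 2) j) one_lt_two
    have hi := hinv (b ^ 2 ^ j) (Subgroup.pow_mem _ hb _) hi2
    have : ((C.subtype ((Cfsg.generalizedFittingSubgroup ↥C).subtype b)) : G) ^ 2 ^ j =
        (C.subtype ((Cfsg.generalizedFittingSubgroup ↥C).subtype (b ^ 2 ^ j)) : G) := by
      rw [map_pow, map_pow]
    rw [this, hi]
    rfl
  by_cases hbot : ((B.map (Cfsg.generalizedFittingSubgroup ↥C).subtype).map C.subtype).map
        (MulAut.conj g).toMonoidHom ⊓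
        (B.map (Cfsg.generalizedFittingSubgroup ↥C).subtype).map C.subtype = ⊥
  · exact Or.inr hbot
  · left
    rw [Subgroup.eq_bot_iff_forall] at hbot
    push Not at hbot
    obtain ⟨x, hx, hx1⟩ := hbot
    obtain ⟨hxg, hxB⟩ := Subgroup.mem_inf.mp hx
    obtain ⟨y, hy, rfl⟩ := hxg
    have hy1 : y ≠ 1 := by
      rintro rfl
      apply hx1
      simp
    have hordxy : orderOf ((MulAut.conj g).toMonoidHom y) = orderOf y :=
      orderOf_injective _ (MulAut.conj g).injective y
    have h1 := hpow _ hxB hx1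
    have h2 := hpow y hy hy1
    rw [hordxy, ← map_pow, h2] at h1
    have hgz : g * z * g⁻¹ = z := h1
    have hgC : g ∈ C := by
      rw [hC, Subgroup.mem_centralizer_iff]
      intro w hw
      rw [Set.mem_singleton_iff] at hw
      rw [hw]
      calc z * g = (g * z * g⁻¹) * g := by rw [hgz]
        _ = g * z := by group
    let ψ : MulAut ↥(Cfsg.generalizedFittingSubgroup ↥C) := MulAut.conjNormal (⟨g, hgC⟩ : ↥C)
    have hψ : B.map ψ.toMonoidHom = B := (Subgroup.characteristic_iff_map_eq.mp hBc) ψ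
    ext w
    constructor
    · rintro ⟨_, ⟨_, ⟨b, hb, rfl⟩, rfl⟩, rfl⟩
      refine ⟨_, ⟨ψ b, ?_, rfl⟩, ?_⟩
      · rw [← hψ]; exact ⟨b, hb, rfl⟩
      · rfl
    · rintro ⟨_, ⟨b, hb, rfl⟩, rfl⟩
      rw [← hψ] at hb
      obtain ⟨b₀, hb₀, rfl⟩ := hb
      exact ⟨_, ⟨_, ⟨b₀, hb₀, rfl⟩, rfl⟩, rfl⟩

end Cfsg.Agent.Lib.Helper3
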