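import Mathlib
import Cfsg.Agent.Lib.Helper3.TIFamily

/-! A version of the TI-family commutation theorem inside an arbitrary finite group. -/

set_option autoImplicit false

namespace Cfsg.Agent.Lib.Helper3

theorem orderOf_eq_two_pow_of_mem {S : Type*} [Group S] {M : Subgroup S} (hMp : IsPGroup 2 ↥M)
    {x : S} (hx : x ∈ M) : ∃ k : ℕ, orderOf x = 2 ^ k := by
  obtain ⟨k, hk⟩ := (IsPGroup.iff_orderOf.mp hMp) ⟨x, hx⟩
  exact ⟨k, by rw [← hk, ← Subgroup.orderOf_coe]⟩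

/-- In a TI-family of subgroups of the same order, a member normalizing another one commutes with
it. -/
theorem ti_commute_of_le_normalizer_gen {S : Type*} [Group S] [Finite S]
    (Δ : Set (Subgroup S)) (hinv : ∀ s : S, ∀ R ∈ Δ, R.map (MulAut.conj s).toMonoidHom ∈ Δ)
    (hord : ∀ R ∈ Δ, ∀ T ∈ Δ, Nat.card ↥R = Nat.card ↥T)
    (hti : ∀ R ∈ Δ, ∀ T ∈ Δ, R = T ∨ R ⊓ T = ⊥)
    (R T : Subgroup S) (hR : R ∈ Δ) (hT : T ∈ Δ) (hne : R ≠ T)
    (hp : IsPGroup 2 ↥(T ⊔ R))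
    (hTN : T ≤ Subgroup.normalizer (R : Set S)) : ∀ r ∈ R, ∀ t ∈ T, r * t = t * r := by
  have hRT : R ⊓ T = ⊥ := (hti R hR T hT).resolve_left hne
  suffices hRN : R ≤ Subgroup.normalizer (T : Set S) by
    intro r hr t ht
    have h1 : r * t * r⁻¹ * t⁻¹ ∈ R ⊓ T := by
      refine Subgroup.mem_inf.mpr ⟨?_, ?_⟩
      · have : t * r⁻¹ * t⁻¹ ∈ R := (Subgroup.mem_normalizer_iff.mp (hTN ht) r⁻¹).mp (inv_mem hr)
        have e : r * t * r⁻¹ * t⁻¹ = r * (t * r⁻¹ * t⁻¹) := by group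
        rw [e]; exact mul_mem hr this
      · have : r * t * r⁻¹ ∈ T := (Subgroup.mem_normalizer_iff.mp (hRN hr) t).mp ht
        exact mul_mem this (inv_mem ht)
    rw [hRT, Subgroup.mem_bot] at h1
    calc r * t = (r * t * r⁻¹ * t⁻¹) * (t * r) := by group
      _ = t * r := by rw [h1, one_mul]
  by_contra hRN
  obtain ⟨R₀, hR₀⟩ : ∃ R₀ : Subgroup S, R₀ = R ⊓ Subgroup.normalizer (T : Set S) := ⟨_, rfl⟩
  have hR₀R : R₀ ≤ R := by rw [hR₀]; exact inf_le_left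
  have hR₀N : R₀ ≤ Subgroup.normalizer (T : Set S) := by rw [hR₀]; exact inf_le_right
  have hR₀ne : R₀ ≠ R := by
    intro h; apply hRN; rw [← h]; exact hR₀N
  obtain ⟨D, hD⟩ : ∃ D : Subgroup S, D = R₀ ⊔ T := ⟨_, rfl⟩
  have hDle : D ≤ T ⊔ R := by rw [hD]; exact sup_le (hR₀R.trans le_sup_right) le_sup_left
  have hDne : D ≠ T ⊔ R := by
    intro h
    apply hR₀ne
    apply le_antisymm hR₀R
    intro r hr
    have hrD : r ∈ R₀ ⊔ T := by rw [← hD, h]; exact Subgroup.mem_sup_right hr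
    obtain ⟨r₀, hr₀, t, ht, rfl⟩ := exists_mul_of_mem_sup_of_le_normalizer R₀ T hR₀N hrD
    have ht1 : t ∈ R ⊓ T := Subgroup.mem_inf.mpr ⟨by
      have : t = r₀⁻¹ * (r₀ * t) := by group
      rw [this]; exact mul_mem (inv_mem (hR₀R hr₀)) hr, ht⟩
    rw [hRT, Subgroup.mem_bot] at ht1
    rw [ht1, mul_one]; exact hr₀
  obtain ⟨x, hx, hxN, hxD⟩ := exists_mem_normalizer_notMem (T ⊔ R) D hp hDle hDne
  obtain ⟨t, ht, r, hr, rfl⟩ := exists_mul_of_mem_sup_of_le_normalizer T R hTN hx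
  have hTD : T ≤ D := by rw [hD]; exact le_sup_right
  have hrN : r ∈ Subgroup.normalizer (D : Set S) := by
    have : r = t⁻¹ * (t * r) := by group
    rw [this]; exact mul_mem (inv_mem (Subgroup.le_normalizer (hTD ht))) hxN
  have hrD : r ∉ D := fun h => hxD (mul_mem (hTD ht) h)
  have hT' : T.map (MulAut.conj r).toMonoidHom ∈ Δ := hinv r T hT
  have hT'ne : T.map (MulAut.conj r).toMonoidHom ≠ T := by
    intro h
    apply hrD
    rw [hD]; apply Subgroup.mem_sup_left; rw [hR₀]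
    exact Subgroup.mem_inf.mpr ⟨hr, (map_conj_eq_iff_mem_normalizer T r).mp h⟩
  have hT'T : T.map (MulAut.conj r).toMonoidHom ⊓ T = ⊥ := (hti _ hT' T hT).resolve_left hT'ne
  have hT'D : T.map (MulAut.conj r).toMonoidHom ≤ D := by
    rintro _ ⟨y, hy, rfl⟩
    exact (Subgroup.mem_normalizer_iff.mp hrN y).mp (hTD hy)
  have key : ∀ y : ↥(T.map (MulAut.conj r).toMonoidHom), ∃ r₀ : ↥R₀, ∃ t' ∈ T,
      (y : S) = r₀ * t' := by
    intro y
    have := hT'D y.2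
    rw [hD] at this
    obtain ⟨r₀, hr₀, t', ht', h⟩ := exists_mul_of_mem_sup_of_le_normalizer R₀ T hR₀N this
    exact ⟨⟨r₀, hr₀⟩, t', ht', h⟩
  choose f hf using key
  have hfinj : Function.Injective f := by
    intro y y' hyy
    obtain ⟨t₁, ht₁, h₁⟩ := hf y
    obtain ⟨t₂, ht₂, h₂⟩ := hf y'
    rw [hyy] at h₁
    have h3 : (y : S)⁻¹ * (y' : S) ∈ T.map (MulAut.conj r).toMonoidHom ⊓ T := by
      refine Subgroup.mem_inf.mpr ⟨mul_mem (inv_mem y.2) y'.2, ?_⟩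
      rw [h₁, h₂]
      have : ((f y' : S) * t₁)⁻¹ * ((f y' : S) * t₂) = t₁⁻¹ * t₂ := by group
      rw [this]; exact mul_mem (inv_mem ht₁) ht₂
    rw [hT'T, Subgroup.mem_bot] at h3
    apply Subtype.ext
    exact inv_mul_eq_one.mp h3
  have hcard1 : Nat.card ↥(T.map (MulAut.conj r).toMonoidHom) ≤ Nat.card ↥R₀ :=
    Nat.card_le_card_of_injective f hfinj
  have hcard2 : Nat.card ↥(T.map (MulAut.conj r).toMonoidHom) = Nat.card ↥R := hord _ hT' R hR
  have : R₀ = R := Subgroup.eq_of_le_of_card_ge hR₀R (by rw [← hcard2]; exact hcard1)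
  exact hR₀ne this

theorem ti_family_commute_gen {S : Type*} [Group S] [Finite S]
    (Δ : Set (Subgroup S)) (hinv : ∀ s : S, ∀ R ∈ Δ, R.map (MulAut.conj s).toMonoidHom ∈ Δ)
    (hsq : ∀ R ∈ Δ, ∃ x ∈ R, x ^ 2 ≠ 1)
    (hord : ∀ R ∈ Δ, ∀ T ∈ Δ, Nat.card ↥R = Nat.card ↥T)
    (hti : ∀ R ∈ Δ, ∀ T ∈ Δ, R = T ∨ R ⊓ T = ⊥) :
    ∀ (n : ℕ) (M : Subgroup S), IsPGroup 2 ↥M → Nat.card ↥M = n → ∀ R ∈ Δ, ∀ T ∈ Δ, R ≤ M →
      T ≤ M → R ≠ T → ∀ r ∈ R, ∀ t ∈ T, r * t = t * r := by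
  intro n
  induction n using Nat.strong_induction_on with
  | _ n ih =>
    intro M hMp hM R hR T hT hRM hTM hne
    by_contra hcon
    have hRT : R ⊓ T = ⊥ := (hti R hR T hT).resolve_left hne
    have hTN : ¬ T ≤ Subgroup.normalizer (R : Set S) := fun h =>
      hcon (ti_commute_of_le_normalizer_gen Δ hinv hord hti R T hR hT hne
        (hMp.to_le (sup_le hTM hRM)) h)
    have hRN : ¬ R ≤ Subgroup.normalizer (T : Set S) := fun h =>
      hcon (fun r hr t ht =>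
        (ti_commute_of_le_normalizer_gen Δ hinv hord hti T R hT hR (Ne.symm hne)
          (hMp.to_le (sup_le hRM hTM)) h t ht r hr).symm)
    have hM1 : ∀ U ∈ Δ, U ≤ M → U ≠ M → ∀ m ∈ M, U.map (MulAut.conj m).toMonoidHom ≠ U →
        ∀ x ∈ U, ∀ y ∈ U.map (MulAut.conj m).toMonoidHom, x * y = y * x := by
      intro U hU hUM hUne m hm hneq x hx y hy
      obtain ⟨M₁, hUM₁, hM₁M, hM₁ne, hMN⟩ := exists_normal_proper_of_ne M U hMp hUM hUne
      have hlt : Nat.card ↥M₁ < n := by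
        rw [← hM]
        exact lt_of_le_of_ne (Subgroup.card_le_of_le hM₁M)
          (fun h => hM₁ne (Subgroup.eq_of_le_of_card_ge hM₁M h.ge))
      have hUm : U.map (MulAut.conj m).toMonoidHom ≤ M₁ := by
        rintro _ ⟨u, hu, rfl⟩
        exact (Subgroup.mem_normalizer_iff.mp (hMN hm) u).mp (hUM₁ hu)
      exact ih _ hlt M₁ (hMp.to_le hM₁M) rfl U hU _ (hinv m U hU) hUM₁ hUm (Ne.symm hneq) x hx
        y hy
    have hRM' : R ≠ M := by
      intro h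
      apply hne
      symm
      exact Subgroup.eq_of_le_of_card_ge (h ▸ hTM) (le_of_eq (hord R hR T hT))
    have hTM' : T ≠ M := by
      intro h
      apply hne
      exact Subgroup.eq_of_le_of_card_ge (h ▸ hRM) (le_of_eq (hord T hT R hR))
    obtain ⟨t₀, ht₀, ht₀N⟩ := SetLike.not_le_iff_exists.mp hTN
    have hpow : ∃ t ∈ T, t ∉ Subgroup.normalizer (R : Set S) ∧
        t ^ 2 ∈ Subgroup.normalizer (R : Set S) := by
      obtain ⟨k, hk⟩ := orderOf_eq_two_pow_of_mem hMp (hTM ht₀)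
      have h1 : ∃ j, t₀ ^ 2 ^ j ∈ Subgroup.normalizer (R : Set S) :=
        ⟨k, by rw [← hk, pow_orderOf_eq_one]; exact one_mem _⟩
      classical
      have hj : t₀ ^ 2 ^ (Nat.find h1) ∈ Subgroup.normalizer (R : Set S) := Nat.find_spec h1
      have hj0 : Nat.find h1 ≠ 0 := by
        intro h0; rw [h0, pow_zero, pow_one] at hj; exact ht₀N hj
      obtain ⟨i, hi⟩ := Nat.exists_eq_succ_of_ne_zero hj0
      refine ⟨t₀ ^ 2 ^ i, Subgroup.pow_mem _ ht₀ _, Nat.find_min h1 (by omega), ?_⟩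
      rw [← pow_mul, ← pow_succ, ← Nat.succ_eq_add_one, ← hi]; exact hj
    obtain ⟨t, htT, htN, ht2N⟩ := hpow
    have htM : t ∈ M := hTM htT
    have hRt_ne : R.map (MulAut.conj t⁻¹).toMonoidHom ≠ R := by
      intro h
      have := (map_conj_eq_iff_mem_normalizer R t⁻¹).mp h
      exact htN (by simpa using inv_mem this)
    have hRt_ti : R.map (MulAut.conj t⁻¹).toMonoidHom ⊓ R = ⊥ :=
      (hti _ (hinv t⁻¹ R hR) R hR).resolve_left hRt_ne
    have hRt_comm := hM1 R hR hRM hRM' t⁻¹ (inv_mem htM) hRt_ne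
    have hmemRt : ∀ z ∈ R, t⁻¹ * z * t ∈ R.map (MulAut.conj t⁻¹).toMonoidHom := by
      intro z hz
      refine ⟨z, hz, ?_⟩
      show t⁻¹ * z * t⁻¹⁻¹ = t⁻¹ * z * t
      rw [inv_inv]
    have hstep3 : ∀ r ∈ R, r ∉ Subgroup.normalizer (T : Set S) → r ^ 2 = 1 := by
      intro r hr hrN
      have hTr_ne : T.map (MulAut.conj r⁻¹).toMonoidHom ≠ T := by
        intro h
        have := (map_conj_eq_iff_mem_normalizer T r⁻¹).mp h
        exact hrN (by simpa using inv_mem this)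
      have hTr_comm := hM1 T hT hTM hTM' r⁻¹ (inv_mem (hRM hr)) hTr_ne
      have hu : r * (t⁻¹ * r * t) = (t⁻¹ * r * t) * r := hRt_comm r hr _ (hmemRt r hr)
      have hw : t * (r⁻¹ * t * r) = (r⁻¹ * t * r) * t :=
        hTr_comm t htT _ ⟨t, htT, by
          show r⁻¹ * t * r⁻¹⁻¹ = r⁻¹ * t * r
          rw [inv_inv]⟩
      have hA : (r⁻¹ * t⁻¹ * r * t) ^ 2 = r⁻¹ * r⁻¹ * (t⁻¹ * (r * r) * t) := by
        have hu' : (t⁻¹ * r * t) * r⁻¹ = r⁻¹ * (t⁻¹ * r * t) := by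
          calc (t⁻¹ * r * t) * r⁻¹ = r⁻¹ * (r * (t⁻¹ * r * t)) * r⁻¹ := by group
            _ = r⁻¹ * ((t⁻¹ * r * t) * r) * r⁻¹ := by rw [hu]
            _ = r⁻¹ * (t⁻¹ * r * t) := by group
        calc (r⁻¹ * t⁻¹ * r * t) ^ 2 = r⁻¹ * ((t⁻¹ * r * t) * r⁻¹) * (t⁻¹ * r * t) := by
              rw [pow_two]; group
          _ = r⁻¹ * (r⁻¹ * (t⁻¹ * r * t)) * (t⁻¹ * r * t) := by rw [hu']
          _ = r⁻¹ * r⁻¹ * (t⁻¹ * (r * r) * t) := by group
      have hB : (r⁻¹ * t⁻¹ * r * t) ^ 2 = r⁻¹ * (t⁻¹ * t⁻¹ * r * (t * t)) := by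
        have hw' : t * (r⁻¹ * t⁻¹ * r) = (r⁻¹ * t⁻¹ * r) * t := by
          calc t * (r⁻¹ * t⁻¹ * r)
              = (r⁻¹ * t⁻¹ * r) * ((r⁻¹ * t * r) * t) * (r⁻¹ * t⁻¹ * r) := by group
            _ = (r⁻¹ * t⁻¹ * r) * (t * (r⁻¹ * t * r)) * (r⁻¹ * t⁻¹ * r) := by rw [hw]
            _ = (r⁻¹ * t⁻¹ * r) * t := by group
        calc (r⁻¹ * t⁻¹ * r * t) ^ 2 = (r⁻¹ * t⁻¹ * r) * (t * (r⁻¹ * t⁻¹ * r)) * t := by
              rw [pow_two]; group
          _ = (r⁻¹ * t⁻¹ * r) * ((r⁻¹ * t⁻¹ * r) * t) * t := by rw [hw']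
          _ = r⁻¹ * (t⁻¹ * t⁻¹ * r * (t * t)) := by group
      have ht2 : t * t ∈ Subgroup.normalizer (R : Set S) := by rw [← pow_two]; exact ht2N
      have h1 : t⁻¹ * t⁻¹ * r * (t * t) ∈ R := by
        have := (Subgroup.mem_normalizer_iff.mp (inv_mem ht2) r).mp hr
        rw [inv_inv] at this
        have e : (t * t)⁻¹ * r * (t * t) = t⁻¹ * t⁻¹ * r * (t * t) := by group
        rwa [e] at this
      have h2 : t⁻¹ * (r * r) * t ∈ R := by
        have h3 : r⁻¹ * r⁻¹ * (t⁻¹ * (r * r) * t) ∈ R := by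
          rw [← hA, hB]; exact mul_mem (inv_mem hr) h1
        have e : t⁻¹ * (r * r) * t = r * r * (r⁻¹ * r⁻¹ * (t⁻¹ * (r * r) * t)) := by group
        rw [e]; exact mul_mem (mul_mem hr hr) h3
      have h4 : t⁻¹ * (r * r) * t ∈ R.map (MulAut.conj t⁻¹).toMonoidHom ⊓ R :=
        Subgroup.mem_inf.mpr ⟨hmemRt _ (mul_mem hr hr), h2⟩
      rw [hRt_ti, Subgroup.mem_bot] at h4
      rw [pow_two]
      calc r * r = t * (t⁻¹ * (r * r) * t) * t⁻¹ := by group
        _ = 1 := by rw [h4]; group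
    obtain ⟨y, hyR, hyN⟩ := SetLike.not_le_iff_exists.mp hRN
    have hy2 : y ^ 2 = 1 := hstep3 y hyR hyN
    obtain ⟨x, hxR, hx2⟩ := hsq R hR
    have hpow4 : ∃ a ∈ R, a ^ 2 ≠ 1 ∧ a ^ 4 = 1 := by
      obtain ⟨k, hk⟩ := orderOf_eq_two_pow_of_mem hMp (hRM hxR)
      have hk2 : 2 ≤ k := by
        by_contra hlt
        apply hx2
        have h1 : orderOf x ∣ 2 := by
          rw [hk]
          have hk1 : k ≤ 1 := by omega
          exact (pow_dvd_pow 2 hk1).trans (by norm_num)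
        exact orderOf_dvd_iff_pow_eq_one.mp h1
      obtain ⟨i, rfl⟩ : ∃ i, k = i + 2 := ⟨k - 2, by omega⟩
      refine ⟨x ^ 2 ^ i, Subgroup.pow_mem _ hxR _, ?_, ?_⟩
      · rw [← pow_mul, ← pow_succ]
        apply pow_ne_one_of_lt_orderOf (by positivity)
        rw [hk]; exact Nat.pow_lt_pow_right (by norm_num) (by omega)
      · rw [← pow_mul]
        have : 2 ^ i * 4 = 2 ^ (i + 2) := by rw [pow_add]; norm_num
        rw [this, ← hk]; exact pow_orderOf_eq_one x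
    obtain ⟨a, haR, ha2, ha4⟩ := hpow4
    have haN : a ∈ Subgroup.normalizer (T : Set S) := by
      by_contra h; exact ha2 (hstep3 a haR h)
    have hay : (a * y) ^ 2 = 1 := by
      apply hstep3 _ (mul_mem haR hyR)
      intro h
      apply hyN
      have : y = a⁻¹ * (a * y) := by group
      rw [this]; exact mul_mem (inv_mem haN) h
    have hyi : y⁻¹ = y := inv_eq_of_mul_eq_one_left (by rw [← pow_two]; exact hy2)
    have h1 : y * a = a⁻¹ * y := by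
      have h := hay
      rw [pow_two] at h
      calc y * a = a⁻¹ * (a * y * (a * y)) * y⁻¹ := by group
        _ = a⁻¹ * y⁻¹ := by rw [h]; group
        _ = a⁻¹ * y := by rw [hyi]
    have hai : a⁻¹ * a⁻¹ = a * a := by
      have h4 : a * a * (a * a) = 1 := by
        rw [← ha4, show 4 = 2 + 2 from rfl, pow_add, pow_two]
      rw [← mul_inv_rev]
      exact inv_eq_of_mul_eq_one_left h4
    have hi_comm : y * (a * a) = (a * a) * y := by
      calc y * (a * a) = (y * a) * a := by rw [mul_assoc]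
        _ = (a⁻¹ * y) * a := by rw [h1]
        _ = a⁻¹ * (y * a) := by rw [mul_assoc]
        _ = a⁻¹ * (a⁻¹ * y) := by rw [h1]
        _ = (a⁻¹ * a⁻¹) * y := by rw [mul_assoc]
        _ = a * a * y := by rw [hai]
    have hiR : a * a ∈ R := mul_mem haR haR
    have hiN : a * a ∈ Subgroup.normalizer (T : Set S) := mul_mem haN haN
    have hi1 : a * a ≠ 1 := by rw [← pow_two]; exact ha2
    have hiinv : (a * a)⁻¹ = a * a := by rw [mul_inv_rev, hai]
    have hu_comm : y * (t⁻¹ * (a * a) * t) = (t⁻¹ * (a * a) * t) * y :=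
      hRt_comm y hyR _ (hmemRt _ hiR)
    -- the element `e`
    have heT : (a * a) * t⁻¹ * (a * a) * t ∈ T := by
      have h5 : (a * a)⁻¹ * t⁻¹ * (a * a) ∈ T := by
        have := (Subgroup.mem_normalizer_iff.mp (inv_mem hiN) t⁻¹).mp (inv_mem htT)
        rwa [inv_inv] at this
      rw [hiinv] at h5
      exact mul_mem h5 htT
    have he1 : (a * a) * t⁻¹ * (a * a) * t ≠ 1 := by
      intro h
      have h6 : t⁻¹ * (a * a) * t = a * a := by
        calc t⁻¹ * (a * a) * t = (a * a)⁻¹ * ((a * a) * t⁻¹ * (a * a) * t) := by group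
          _ = a * a := by rw [h, mul_one, hiinv]
      have h7 : t⁻¹ * (a * a) * t ∈ R.map (MulAut.conj t⁻¹).toMonoidHom ⊓ R :=
        Subgroup.mem_inf.mpr ⟨hmemRt _ hiR, by rw [h6]; exact hiR⟩
      rw [hRt_ti, Subgroup.mem_bot] at h7
      rw [h7] at h6
      exact hi1 h6.symm
    have hey : y * ((a * a) * t⁻¹ * (a * a) * t) * y⁻¹ = (a * a) * t⁻¹ * (a * a) * t := by
      calc y * ((a * a) * t⁻¹ * (a * a) * t) * y⁻¹
          = (y * (a * a)) * (t⁻¹ * (a * a) * t) * y⁻¹ := by group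
        _ = (a * a) * (y * (t⁻¹ * (a * a) * t)) * y⁻¹ := by rw [hi_comm]; group
        _ = (a * a) * ((t⁻¹ * (a * a) * t) * y) * y⁻¹ := by rw [hu_comm]
        _ = (a * a) * t⁻¹ * (a * a) * t := by group
    have hTy_ne : T.map (MulAut.conj y).toMonoidHom ≠ T := by
      intro h
      exact hyN ((map_conj_eq_iff_mem_normalizer T y).mp h)
    have hTy_ti : T.map (MulAut.conj y).toMonoidHom ⊓ T = ⊥ :=
      (hti _ (hinv y T hT) T hT).resolve_left hTy_ne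
    have he : (a * a) * t⁻¹ * (a * a) * t ∈ T.map (MulAut.conj y).toMonoidHom ⊓ T :=
      Subgroup.mem_inf.mpr ⟨⟨_, heT, hey⟩, heT⟩
    rw [hTy_ti, Subgroup.mem_bot] at he
    exact he1 he

end Cfsg.Agent.Lib.Helper3
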