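import Mathlib
import Cfsg.Prelude
import Cfsg.Agent.Lib.Helper3.TIFamily2
import Cfsg.Agent.Lib.Helper3.GlauRepl
import Cfsg.Agent.Lib.Helper2.FStar
import Cfsg.Agent.Lib.Helper4.PCore
import Cfsg.Agent.S0029
import Cfsg.Agent.S0012

/-! Squares of an abelian TI `2`-subgroup in a group with `F*(X) = O_2(X)`. -/

set_option autoImplicit false

universe u

namespace Cfsg.Agent.Lib.Helper3

open Cfsg

theorem conj_comp_conj {X : Type*} [Group X] (s x : X) (D : Subgroup X) :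
    (D.map (MulAut.conj x).toMonoidHom).map (MulAut.conj s).toMonoidHom =
      D.map (MulAut.conj (s * x)).toMonoidHom := by
  rw [Subgroup.map_map]
  congr 1
  ext z
  simp [MulAut.conj_apply, mul_assoc]

theorem conj_one_mem_family {X : Type*} [Group X] (A : Subgroup X) :
    A ∈ {D : Subgroup X | ∃ x : X, D = A.map (MulAut.conj x).toMonoidHom} := by
  refine ⟨1, ?_⟩
  ext z
  constructor
  · intro hz
    exact ⟨z, hz, by simp⟩
  · rintro ⟨w, hw, rfl⟩
    simpa using hw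

theorem conjFamily_sq {X : Type*} [Group X] (B : Subgroup X) (b₀ : X) (hb₀ : b₀ ∈ B)
    (hb₀2 : b₀ ^ 2 ≠ 1) :
    ∀ R ∈ {D : Subgroup X | ∃ x : X, D = B.map (MulAut.conj x).toMonoidHom},
      ∃ z ∈ R, z ^ 2 ≠ 1 := by
  rintro _ ⟨x, rfl⟩
  refine ⟨x * b₀ * x⁻¹, ⟨b₀, hb₀, rfl⟩, ?_⟩
  intro h
  apply hb₀2
  have h2 : (x * b₀ * x⁻¹) ^ 2 = x * b₀ ^ 2 * x⁻¹ := conj_pow
  rw [h2] at h
  calc b₀ ^ 2 = x⁻¹ * (x * b₀ ^ 2 * x⁻¹) * x := by group
    _ = 1 := by rw [h]; group

/-- The family of conjugates of a TI-subgroup. -/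
theorem conjFamily_props {X : Type*} [Group X] [Finite X] (A : Subgroup X)
    (hti : ∀ h : X, A.map (MulAut.conj h).toMonoidHom = A ∨
      A.map (MulAut.conj h).toMonoidHom ⊓ A = ⊥) :
    (∀ s : X, ∀ R ∈ {D : Subgroup X | ∃ x : X, D = A.map (MulAut.conj x).toMonoidHom},
        R.map (MulAut.conj s).toMonoidHom ∈
          {D : Subgroup X | ∃ x : X, D = A.map (MulAut.conj x).toMonoidHom}) ∧
      (∀ R ∈ {D : Subgroup X | ∃ x : X, D = A.map (MulAut.conj x).toMonoidHom},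
        ∀ T ∈ {D : Subgroup X | ∃ x : X, D = A.map (MulAut.conj x).toMonoidHom},
          Nat.card ↥R = Nat.card ↥T) ∧
      (∀ R ∈ {D : Subgroup X | ∃ x : X, D = A.map (MulAut.conj x).toMonoidHom},
        ∀ T ∈ {D : Subgroup X | ∃ x : X, D = A.map (MulAut.conj x).toMonoidHom},
          R = T ∨ R ⊓ T = ⊥) := by
  have hcard : ∀ x : X, Nat.card ↥(A.map (MulAut.conj x).toMonoidHom) = Nat.card ↥A := fun x =>
    Subgroup.card_map_of_injective (MulAut.conj x).injective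
  refine ⟨?_, ?_, ?_⟩
  · rintro s _ ⟨x, rfl⟩
    exact ⟨s * x, conj_comp_conj s x A⟩
  · rintro _ ⟨x, rfl⟩ _ ⟨y, rfl⟩
    rw [hcard, hcard]
  · rintro _ ⟨x, rfl⟩ _ ⟨y, rfl⟩
    have hx : A.map (MulAut.conj x).toMonoidHom =
        (A.map (MulAut.conj (y⁻¹ * x)).toMonoidHom).map (MulAut.conj y).toMonoidHom := by
      rw [conj_comp_conj]
      congr 3
      group
    rcases hti (y⁻¹ * x) with h | h
    · left
      rw [hx, h]
    · right
      rw [hx, ← Subgroup.map_inf _ _ _ (MulAut.conj y).injective, h, Subgroup.map_bot]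

theorem ti_squares {X : Type u} [Group X] [Finite X]
    (hX : Cfsg.generalizedFittingSubgroup X = Cfsg.pCore 2 X) (A : Subgroup X)
    (hA2 : IsPGroup 2 ↥A) (hAa : IsMulCommutative ↥A)
    (hti : ∀ h : X, A.map (MulAut.conj h).toMonoidHom = A ∨
      A.map (MulAut.conj h).toMonoidHom ⊓ A = ⊥) :
    Subgroup.closure ((fun a : X => a ^ 2) '' (A : Set X)) ≤ Cfsg.pCore 2 X ∧
      (¬ Cfsg.IsElementaryAbelian 2 (Subgroup.closure ((fun a : X => a ^ 2) '' (A : Set X))) →
        IsMulCommutative ↥(Subgroup.normalClosure ((fun a : X => a ^ 2) '' (A : Set X)))) := by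
  have hQn : (Cfsg.pCore 2 X).Normal := Cfsg.Agent.Lib.Helper4.pCore_normal 2 X
  have hQp : IsPGroup 2 ↥(Cfsg.pCore 2 X) := Cfsg.Agent.Lib.Helper4.pCore_isPGroup 2 X
  have hCQ : Subgroup.centralizer (Cfsg.pCore 2 X : Set X) ≤ Cfsg.pCore 2 X := by
    have := Cfsg.Agent.Lib.Helper2.centralizer_genFitting_le X
    rwa [hX] at this
  have hAcomm : ∀ a ∈ A, ∀ b ∈ A, a * b = b * a := (isMulCommutative_iff_forall A).mp hAa
  obtain ⟨Q, hQdef⟩ : ∃ Q : Subgroup X, Q = Cfsg.pCore 2 X := ⟨_, rfl⟩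
  rw [← hQdef] at hQn hQp hCQ ⊢
  -- Part 1
  have part1 : Subgroup.closure ((fun a : X => a ^ 2) '' (A : Set X)) ≤ Q := by
    by_cases hsqA : ∀ a ∈ A, a ^ 2 = 1
    · rw [Subgroup.closure_le]
      rintro _ ⟨a, ha, rfl⟩
      show a ^ 2 ∈ Q
      rw [hsqA a ha]; exact one_mem _
    · push Not at hsqA
      obtain ⟨a₀, ha₀, ha₀2⟩ := hsqA
      obtain ⟨hinvA, hordA, htiA⟩ := conjFamily_props A hti
      have hsqF := conjFamily_sq A a₀ ha₀ ha₀2
      have hPp : IsPGroup 2 ↥(A ⊔ Q) := IsPGroup.to_sup_of_normal_right hA2 hQp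
      have key1 : ∀ q ∈ Q, ∀ a ∈ A, ∀ a' ∈ A, a * (q * a' * q⁻¹) = (q * a' * q⁻¹) * a := by
        intro q hq a ha a' ha'
        by_cases h : A.map (MulAut.conj q).toMonoidHom = A
        · have : q * a' * q⁻¹ ∈ A := by
            rw [← h]; exact ⟨a', ha', rfl⟩
          exact hAcomm a ha _ this
        · have hle : A.map (MulAut.conj q).toMonoidHom ≤ A ⊔ Q := by
            rintro _ ⟨z, hz, rfl⟩
            show q * z * q⁻¹ ∈ A ⊔ Q
            exact mul_mem (mul_mem (Subgroup.mem_sup_right hq) (Subgroup.mem_sup_left hz))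
              (inv_mem (Subgroup.mem_sup_right hq))
          exact ti_family_commute_gen _ hinvA hsqF hordA htiA _ (A ⊔ Q) hPp rfl A
            (conj_one_mem_family A) (A.map (MulAut.conj q).toMonoidHom) ⟨q, rfl⟩ le_sup_left hle
            (Ne.symm h)
            a ha (q * a' * q⁻¹) ⟨a', ha', rfl⟩
      -- the subgroup acting trivially on the Frattini quotient of `Q`
      have hΦn : ((frattini ↥Q).map Q.subtype).Normal := inferInstance
      let K' : Subgroup X :=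
        { carrier := {g | ∀ q ∈ Q, g * q * g⁻¹ * q⁻¹ ∈ (frattini ↥Q).map Q.subtype}
          one_mem' := by
            intro q _
            have : (1 : X) * q * 1⁻¹ * q⁻¹ = 1 := by group
            rw [this]; exact one_mem _
          mul_mem' := by
            intro g h hg hh q hq
            have e : g * h * q * (g * h)⁻¹ * q⁻¹ =
                (g * (h * q * h⁻¹ * q⁻¹) * g⁻¹) * (g * q * g⁻¹ * q⁻¹) := by group
            rw [e]
            exact mul_mem (hΦn.conj_mem _ (hh q hq) g) (hg q hq)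
          inv_mem' := by
            intro g hg q hq
            have e : g⁻¹ * q * g⁻¹⁻¹ * q⁻¹ = g⁻¹ * (g * q * g⁻¹ * q⁻¹)⁻¹ * g⁻¹⁻¹ := by group
            rw [e]
            exact hΦn.conj_mem _ (inv_mem (hg q hq)) g⁻¹ }
      have hK'mem : ∀ g : X, g ∈ K' ↔ ∀ q ∈ Q, g * q * g⁻¹ * q⁻¹ ∈ (frattini ↥Q).map Q.subtype :=
        fun g => Iff.rfl
      have hK'n : K'.Normal := by
        refine ⟨fun g hg x => ?_⟩
        rw [hK'mem] at hg ⊢
        intro q hq
        have hq' : x⁻¹ * q * x ∈ Q := by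
          have := hQn.conj_mem q hq x⁻¹
          rwa [inv_inv] at this
        have e : x * g * x⁻¹ * q * (x * g * x⁻¹)⁻¹ * q⁻¹ =
            x * (g * (x⁻¹ * q * x) * g⁻¹ * (x⁻¹ * q * x)⁻¹) * x⁻¹ := by group
        rw [e]
        exact hΦn.conj_mem _ (hg _ hq') x
      have hK'p : IsPGroup 2 ↥K' := by
        intro h
        obtain ⟨k, m, hm, hn⟩ := Nat.exists_eq_two_pow_mul_odd (orderOf_pos (h : X)).ne'
        refine ⟨k, ?_⟩
        apply Subtype.ext
        rw [Subgroup.coe_pow]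
        show (h : X) ^ 2 ^ k = 1
        have hh'K : (h : X) ^ 2 ^ k ∈ K' := Subgroup.pow_mem _ h.2 _
        have hh'm : ((h : X) ^ 2 ^ k) ^ m = 1 := by
          rw [← pow_mul, ← hn]; exact pow_orderOf_eq_one _
        have hdvd : orderOf ((h : X) ^ 2 ^ k) ∣ m := orderOf_dvd_of_pow_eq_one hh'm
        have hcent : Subgroup.zpowers ((h : X) ^ 2 ^ k) ≤ Subgroup.centralizer (Q : Set X) := by
          apply Cfsg.Agent.S0029.result (Subgroup.zpowers ((h : X) ^ 2 ^ k)) Q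
          · rw [Subgroup.normalizer_eq_top Q]; exact le_top
          · obtain ⟨j, hj⟩ := IsPGroup.iff_card.mp (hQp.to_subgroup (frattini ↥Q))
            rw [hj, Nat.card_zpowers]
            apply Nat.Coprime.pow_right
            exact Nat.Coprime.coprime_dvd_left hdvd hm.coprime_two_right
          · intro a ha q hq
            have haK : a ∈ K' := (Subgroup.zpowers_le.mpr hh'K) ha
            exact haK q hq
        have hh'Q : (h : X) ^ 2 ^ k ∈ Q := hCQ (hcent (Subgroup.mem_zpowers _))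
        obtain ⟨i, hi⟩ := orderOf_eq_two_pow_of_mem hQp hh'Q
        have h1 : orderOf ((h : X) ^ 2 ^ k) = 1 := by
          have hc : Nat.Coprime (orderOf ((h : X) ^ 2 ^ k)) m := by
            rw [hi]; exact Nat.Coprime.pow_left i hm.coprime_two_left
          exact Nat.Coprime.eq_one_of_dvd hc hdvd
        exact orderOf_eq_one_iff.mp h1
      have hK'Q : K' ≤ Q := by
        rw [hQdef]; exact Cfsg.Agent.Lib.Helper4.le_pCore hK'n hK'p
      rw [Subgroup.closure_le]
      rintro _ ⟨a, ha, rfl⟩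
      apply hK'Q
      rw [hK'mem]
      intro q hq
      obtain ⟨c, hc⟩ : ∃ c : X, c = a * q * a⁻¹ * q⁻¹ := ⟨_, rfl⟩
      have hcQ : c ∈ Q := by
        rw [hc]
        have h1 : a * q * a⁻¹ ∈ Q := hQn.conj_mem q hq a
        exact mul_mem h1 (inv_mem hq)
      have hac : a * c * a⁻¹ = c := by
        have h1 := key1 q hq a ha a⁻¹ (inv_mem ha)
        rw [hc]
        calc a * (a * q * a⁻¹ * q⁻¹) * a⁻¹ = a * (a * (q * a⁻¹ * q⁻¹)) * a⁻¹ := by group
          _ = a * ((q * a⁻¹ * q⁻¹) * a) * a⁻¹ := by rw [h1]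
          _ = a * q * a⁻¹ * q⁻¹ := by group
      have e : a ^ 2 * q * (a ^ 2)⁻¹ * q⁻¹ = c ^ 2 := by
        calc a ^ 2 * q * (a ^ 2)⁻¹ * q⁻¹ = (a * (a * q * a⁻¹ * q⁻¹) * a⁻¹) * (a * q * a⁻¹ * q⁻¹) := by
              rw [pow_two]; group
          _ = c * c := by rw [← hc, hac]
          _ = c ^ 2 := (pow_two c).symm
      show a ^ 2 * q * (a ^ 2)⁻¹ * q⁻¹ ∈ (frattini ↥Q).map Q.subtype
      rw [e]
      have h2 := (Cfsg.Agent.S0012.result 2 hQp).2 ⟨c, hcQ⟩
      exact ⟨_, h2, rfl⟩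
  refine ⟨part1, ?_⟩
  intro hB
  obtain ⟨B, hBdef⟩ : ∃ B : Subgroup X,
      B = Subgroup.closure ((fun a : X => a ^ 2) '' (A : Set X)) := ⟨_, rfl⟩
  rw [← hBdef] at hB part1
  have hBA : B ≤ A := by
    rw [hBdef, Subgroup.closure_le]
    rintro _ ⟨a, ha, rfl⟩
    exact Subgroup.pow_mem _ ha 2
  have hBcomm : ∀ x ∈ B, ∀ y ∈ B, x * y = y * x := fun x hx y hy =>
    hAcomm x (hBA hx) y (hBA hy)
  have hBsq : ∃ b ∈ B, b ^ 2 ≠ 1 := by
    by_contra hcon
    push Not at hcon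
    exact hB ⟨(isMulCommutative_iff_forall B).mpr hBcomm, hcon⟩
  obtain ⟨b₀, hb₀, hb₀2⟩ := hBsq
  have hBmap : ∀ h : X, A.map (MulAut.conj h).toMonoidHom = A →
      B.map (MulAut.conj h).toMonoidHom ≤ B := by
    intro h hA
    rw [Subgroup.map_le_iff_le_comap, hBdef, Subgroup.closure_le]
    rintro _ ⟨a, ha, rfl⟩
    show (MulAut.conj h) (a ^ 2) ∈ Subgroup.closure _
    rw [map_pow]
    apply Subgroup.subset_closure
    exact ⟨_, by rw [← hA]; exact ⟨a, ha, rfl⟩, rfl⟩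
  have htiB : ∀ h : X, B.map (MulAut.conj h).toMonoidHom = B ∨
      B.map (MulAut.conj h).toMonoidHom ⊓ B = ⊥ := by
    intro h
    rcases hti h with hA | hA
    · left
      apply le_antisymm (hBmap h hA)
      have hA' : A.map (MulAut.conj h⁻¹).toMonoidHom = A := by
        apply (map_conj_eq_iff_mem_normalizer A h⁻¹).mpr
        exact inv_mem ((map_conj_eq_iff_mem_normalizer A h).mp hA)
      intro b hb
      have h3 : h⁻¹ * b * h⁻¹⁻¹ ∈ B := hBmap h⁻¹ hA' ⟨b, hb, rfl⟩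
      refine ⟨_, h3, ?_⟩
      show h * (h⁻¹ * b * h⁻¹⁻¹) * h⁻¹ = b
      group
    · right
      rw [eq_bot_iff, ← hA]
      exact inf_le_inf (Subgroup.map_mono hBA) hBA
  obtain ⟨hinvB, hordB, htiB'⟩ := conjFamily_props B htiB
  have hsqB := conjFamily_sq B b₀ hb₀ hb₀2
  have hBQ : ∀ x : X, B.map (MulAut.conj x).toMonoidHom ≤ Q := by
    rintro x _ ⟨b, hb, rfl⟩
    exact hQn.conj_mem b (part1 hb) x
  have hcommBB : ∀ x y : X, ∀ u ∈ B.map (MulAut.conj x).toMonoidHom,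
      ∀ v ∈ B.map (MulAut.conj y).toMonoidHom, u * v = v * u := by
    intro x y u hu v hv
    by_cases h : B.map (MulAut.conj x).toMonoidHom = B.map (MulAut.conj y).toMonoidHom
    · rw [← h] at hv
      obtain ⟨b, hb, rfl⟩ := hu
      obtain ⟨b', hb', rfl⟩ := hv
      show x * b * x⁻¹ * (x * b' * x⁻¹) = x * b' * x⁻¹ * (x * b * x⁻¹)
      have := hBcomm b hb b' hb'
      calc x * b * x⁻¹ * (x * b' * x⁻¹) = x * (b * b') * x⁻¹ := by group
        _ = x * (b' * b) * x⁻¹ := by rw [this]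
        _ = x * b' * x⁻¹ * (x * b * x⁻¹) := by group
    · exact ti_family_commute_gen _ hinvB hsqB hordB htiB' _ Q hQp rfl _ ⟨x, rfl⟩ _ ⟨y, rfl⟩
        (hBQ x) (hBQ y) h u hu v hv
  have hgen : ∀ u ∈ Group.conjugatesOfSet ((fun a : X => a ^ 2) '' (A : Set X)),
      ∃ x : X, u ∈ B.map (MulAut.conj x).toMonoidHom := by
    intro u hu
    rw [Group.mem_conjugatesOfSet_iff] at hu
    obtain ⟨s, hs, hconj⟩ := hu
    obtain ⟨x, rfl⟩ := isConj_iff.mp hconj
    exact ⟨x, ⟨s, by rw [hBdef]; exact Subgroup.subset_closure hs, rfl⟩⟩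
  rw [isMulCommutative_iff_forall]
  have hA1 : ∀ u ∈ Group.conjugatesOfSet ((fun a : X => a ^ 2) '' (A : Set X)),
      Subgroup.normalClosure ((fun a : X => a ^ 2) '' (A : Set X)) ≤
        Subgroup.centralizer ({u} : Set X) := by
    intro u hu
    unfold Subgroup.normalClosure
    rw [Subgroup.closure_le]
    intro v hv
    rw [SetLike.mem_coe, Subgroup.mem_centralizer_iff]
    intro w hw
    rw [Set.mem_singleton_iff] at hw
    rw [hw]
    obtain ⟨x, hx⟩ := hgen u hu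
    obtain ⟨y, hy⟩ := hgen v hv
    exact hcommBB x y u hx v hy
  intro u hu v hv
  have hA2 : Subgroup.normalClosure ((fun a : X => a ^ 2) '' (A : Set X)) ≤
      Subgroup.centralizer ({v} : Set X) := by
    unfold Subgroup.normalClosure
    rw [Subgroup.closure_le]
    intro w hw
    rw [SetLike.mem_coe, Subgroup.mem_centralizer_iff]
    intro z hz
    rw [Set.mem_singleton_iff] at hz
    rw [hz]
    exact (Subgroup.mem_centralizer_iff.mp (hA1 w hw hv) w rfl).symm
  exact (Subgroup.mem_centralizer_iff.mp (hA2 hu) v rfl).symm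

end Cfsg.Agent.Lib.Helper3
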