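import Mathlib
import Cfsg.Prelude.Def_PLocal
import Cfsg.Agent.Lib.Helper1.ThompsonJ
import Cfsg.Agent.Lib.Helper3.ZJ
import Cfsg.Agent.Lib.Helper3.Frat
import Cfsg.Agent.Lib.Helper4.Index
import Cfsg.Agent.Lib.Helper4.PMinimal

set_option autoImplicit false

namespace Cfsg.Agent.Lib.Helper3

universe u

open scoped commutatorElement

section TF

variable {G : Type u} [Group G]

theorem tf_mem_famE_of_maxEA {p : ℕ} {A : Subgroup G}
    (hA : A ∈ Cfsg.maxElementaryAbelianSubgroups p G) (S : Subgroup G) (hAS : A ≤ S) :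
    A ∈ famE p S := by
  refine ⟨hAS, ⟨fun x hx y hy => Cfsg.Agent.Lib.Helper1.ea_comm hA.1 hx hy, hA.1.2⟩, ?_⟩
  intro C _ hC
  exact hA.2 C (Cfsg.Agent.Lib.Helper1.ea_of_comm hC.1 hC.2)

theorem tf_maxEA_of_famE [Finite G] {p : ℕ} [Fact p.Prime] (S : Sylow p G) {A : Subgroup G}
    (hA : A ∈ famE p (S : Subgroup G)) : A ∈ Cfsg.maxElementaryAbelianSubgroups p G := by
  refine ⟨Cfsg.Agent.Lib.Helper1.ea_of_comm hA.2.1.1 hA.2.1.2, ?_⟩
  intro B hB
  have hBp : IsPGroup p ↥B := fun b => ⟨1, Subtype.ext (by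
    show (b : G) ^ p ^ 1 = 1
    rw [pow_one]; exact hB.2 b.1 b.2)⟩
  obtain ⟨g, hg⟩ := Cfsg.Agent.Lib.Helper4.exists_conj_le_of_not_dvd_index B hBp
    (S : Subgroup G) S.not_dvd_index
  have hB'S : B.map (MulAut.conj g⁻¹).toMonoidHom ≤ (S : Subgroup G) := by
    rintro _ ⟨b, hb, rfl⟩
    have := hg b hb
    show g⁻¹ * b * g⁻¹⁻¹ ∈ (S : Subgroup G)
    rw [inv_inv]; exact this
  have hB'adm : AdmE p (B.map (MulAut.conj g⁻¹).toMonoidHom) :=
    admE_map (MulAut.conj g⁻¹)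
      ⟨fun x hx y hy => Cfsg.Agent.Lib.Helper1.ea_comm hB hx hy, hB.2⟩
  have h1 := hA.2.2 _ hB'S hB'adm
  rw [Subgroup.card_map_of_injective (MulAut.conj g⁻¹).injective] at h1
  exact h1

theorem tf_thompsonSubgroup_normal (p : ℕ) : (Cfsg.thompsonSubgroup p G).Normal := by
  have hle : ∀ g : G, (Cfsg.thompsonSubgroup p G).map (MulAut.conj g).toMonoidHom
      ≤ Cfsg.thompsonSubgroup p G := by
    intro g
    unfold Cfsg.thompsonSubgroup
    rw [map_sSup_eq]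
    apply sSup_le
    rintro _ ⟨A, hA, rfl⟩
    apply le_sSup
    refine ⟨Cfsg.Agent.Lib.Helper1.ea_map _ hA.1, ?_⟩
    intro B hB
    show Nat.card ↥B ≤ Nat.card ↥(A.map (MulAut.conj g).toMonoidHom)
    rw [Subgroup.card_map_of_injective (MulAut.conj g).injective]
    exact hA.2 B hB
  exact ⟨fun n hn g => hle g ⟨n, hn, rfl⟩⟩

theorem tf_omegaOne_center_le_zjE [Finite G] (p : ℕ) (D : Subgroup G) :
    Cfsg.omegaOne p (D ⊓ Subgroup.centralizer (D : Set G)) ≤ zjE p D := by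
  unfold Cfsg.omegaOne
  rw [Subgroup.closure_le]
  rintro x ⟨hx, hxp⟩
  have hxD := (Subgroup.mem_inf.mp hx).1
  have hxC := (Subgroup.mem_inf.mp hx).2
  have hB : AdmE p (Subgroup.zpowers x) := by
    constructor
    · intro a ha b hb
      obtain ⟨i, rfl⟩ := Subgroup.mem_zpowers_iff.mp ha
      obtain ⟨j, rfl⟩ := Subgroup.mem_zpowers_iff.mp hb
      exact (Commute.refl x).zpow_zpow i j
    · intro a ha
      obtain ⟨i, rfl⟩ := Subgroup.mem_zpowers_iff.mp ha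
      rw [← zpow_natCast, ← zpow_mul, mul_comm, zpow_mul, zpow_natCast, hxp, one_zpow]
  have hle := le_zjE (e := p) (D := D) (B := Subgroup.zpowers x) (famE_nonempty p D) ?_
  · exact hle (Subgroup.mem_zpowers x)
  · intro A hA
    apply le_of_mem_famE hA (Subgroup.zpowers_le.mpr hxD) hB
    intro b hb a ha
    obtain ⟨i, rfl⟩ := Subgroup.mem_zpowers_iff.mp hb
    have h2 : Commute a x := Subgroup.mem_centralizer_iff.mp hxC a (hA.1 ha)
    exact (h2.zpow_right i).eq.symm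

theorem tf_forward [Finite G] {p : ℕ} [Fact p.Prime] (hO : Cfsg.pPrimeCore p G = ⊥)
    (hT : Cfsg.IsThompsonFactorizable p G) :
    Cfsg.thompsonSubgroup p G ≤ Subgroup.centralizer
      ((⨆ S : Sylow p G, Cfsg.omegaOne p ((S : Subgroup G) ⊓
        Subgroup.centralizer ((S : Subgroup G) : Set G)) : Subgroup G) : Set G) := by
  unfold Cfsg.thompsonSubgroup
  apply sSup_le
  intro A hA
  rw [Subgroup.le_centralizer_iff]
  apply iSup_le
  intro S
  have hAp : IsPGroup p ↥A := fun b => ⟨1, Subtype.ext (by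
    show (b : G) ^ p ^ 1 = 1
    rw [pow_one]; exact hA.1.2 b.1 b.2)⟩
  obtain ⟨S₀, hAS₀⟩ := hAp.exists_le_sylow
  have hAJ : A ≤ jE p (S₀ : Subgroup G) := le_jE (tf_mem_famE_of_maxEA hA _ hAS₀)
  obtain ⟨k, hk⟩ := MulAction.exists_smul_eq G S₀ S
  have hSk : (S : Subgroup G) = (S₀ : Subgroup G).map (MulAut.conj k).toMonoidHom := by
    rw [← hk]; exact Cfsg.Agent.Lib.Helper4.sylow_smul_coe_eq_map_conj k S₀
  obtain ⟨x₀, hx₀, c, hc, n, hn, hkcn⟩ := hT S₀ k⁻¹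
  rw [hO, Subgroup.mem_bot] at hx₀
  rw [hx₀, one_mul] at hkcn
  unfold Cfsg.omegaOne
  rw [Subgroup.closure_le]
  rintro x ⟨hx, hxp⟩
  have hxS := (Subgroup.mem_inf.mp hx).1
  have hxC := (Subgroup.mem_inf.mp hx).2
  rw [hSk] at hxS
  obtain ⟨s, hs, hsx⟩ := hxS
  have hsx' : x = k * s * k⁻¹ := hsx.symm
  have hsC : s ∈ Subgroup.centralizer ((S₀ : Subgroup G) : Set G) := by
    rw [Subgroup.mem_centralizer_iff]
    intro t ht
    have h1 : k * t * k⁻¹ ∈ (S : Subgroup G) := by rw [hSk]; exact ⟨t, ht, rfl⟩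
    have h2 := Subgroup.mem_centralizer_iff.mp hxC _ h1
    rw [hsx'] at h2
    calc t * s = k⁻¹ * (k * t * k⁻¹ * (k * s * k⁻¹)) * k := by group
      _ = k⁻¹ * (k * s * k⁻¹ * (k * t * k⁻¹)) * k := by rw [h2]
      _ = s * t := by group
  have hsp : s ^ p = 1 := by
    have h1 : (k * s * k⁻¹) ^ p = 1 := by rw [← hsx']; exact hxp
    rw [conj_pow] at h1
    calc s ^ p = k⁻¹ * (k * s ^ p * k⁻¹) * k := by group
      _ = 1 := by rw [h1]; group
  have hsΩ : s ∈ Cfsg.omegaOne p ((S₀ : Subgroup G) ⊓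
      Subgroup.centralizer ((S₀ : Subgroup G) : Set G)) :=
    Subgroup.subset_closure ⟨Subgroup.mem_inf.mpr ⟨hs, hsC⟩, hsp⟩
  have hsZ : s ∈ zjE p (S₀ : Subgroup G) := tf_omegaOne_center_le_zjE p _ hsΩ
  have hcs : s * c = c * s := Subgroup.mem_centralizer_iff.mp hc s hsΩ
  have hk' : k = n⁻¹ * c⁻¹ := by rw [← mul_inv_rev, ← hkcn, inv_inv]
  have hxn : x = n⁻¹ * s * n := by
    rw [hsx', hk']
    calc n⁻¹ * c⁻¹ * s * (n⁻¹ * c⁻¹)⁻¹ = n⁻¹ * (c⁻¹ * (s * c)) * n := by group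
      _ = n⁻¹ * (c⁻¹ * (c * s)) * n := by rw [hcs]
      _ = n⁻¹ * s * n := by group
  rw [mem_zjE_iff] at hsZ
  obtain ⟨⟨hsJ, hsCJ⟩, _⟩ := hsZ
  rw [SetLike.mem_coe, Subgroup.mem_centralizer_iff]
  intro a ha
  have haJ : a ∈ Cfsg.thompsonSubgroupOf p (S₀ : Subgroup G) := by
    rw [← jE_eq_elem]; exact hAJ ha
  have h3 : n * a * n⁻¹ ∈ jE p (S₀ : Subgroup G) := by
    rw [jE_eq_elem]; exact (Subgroup.mem_normalizer_iff.mp hn a).mp haJ
  have h4 := Subgroup.mem_centralizer_iff.mp hsCJ _ h3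
  rw [hxn]
  calc a * (n⁻¹ * s * n) = n⁻¹ * (n * a * n⁻¹ * s) * n := by group
    _ = n⁻¹ * (s * (n * a * n⁻¹)) * n := by rw [h4]
    _ = n⁻¹ * s * n * a := by group

theorem tf_backward [Finite G] {p : ℕ} [Fact p.Prime]
    (hJ : Cfsg.thompsonSubgroup p G ≤ Subgroup.centralizer
      ((⨆ S : Sylow p G, Cfsg.omegaOne p ((S : Subgroup G) ⊓
        Subgroup.centralizer ((S : Subgroup G) : Set G)) : Subgroup G) : Set G)) :
    Cfsg.IsThompsonFactorizable p G := by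
  unfold Cfsg.IsThompsonFactorizable
  intro S g
  have hJn : (Cfsg.thompsonSubgroup p G).Normal := tf_thompsonSubgroup_normal p
  have hJK : ∀ A ∈ famE p (S : Subgroup G), A ≤ Cfsg.thompsonSubgroup p G := fun A hA =>
    le_sSup (tf_maxEA_of_famE S hA)
  have hfamEq : famE p ((S : Subgroup G) ⊓ Cfsg.thompsonSubgroup p G)
      = famE p (S : Subgroup G) := by
    obtain ⟨A₀, hA₀⟩ := famE_nonempty p (S : Subgroup G)
    apply Set.Subset.antisymm
    · exact (famE_of_le inf_le_left hA₀ (le_inf hA₀.1 (hJK A₀ hA₀))).2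
    · intro A hA
      exact (famE_of_le inf_le_left hA (le_inf hA.1 (hJK A hA))).1
  have hjEq : jE p ((S : Subgroup G) ⊓ Cfsg.thompsonSubgroup p G)
      = Cfsg.thompsonSubgroupOf p (S : Subgroup G) := by
    rw [← jE_eq_elem]; unfold jE; rw [hfamEq]
  obtain ⟨m, hm, c, hc, hg⟩ := exists_mul_of_pQuotient S (Cfsg.thompsonSubgroup p G)
    (Cfsg.thompsonSubgroup p G) hJn hJn le_rfl
    (fun k hk => ⟨0, by rw [pow_zero, pow_one]; exact hk⟩) g⁻¹
  have h1 : (jE p ((S : Subgroup G) ⊓ Cfsg.thompsonSubgroup p G)).map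
      (MulAut.conj m).toMonoidHom = jE p ((S : Subgroup G) ⊓ Cfsg.thompsonSubgroup p G) := by
    rw [← jE_map, map_conj_eq_of_forall ((S : Subgroup G) ⊓ Cfsg.thompsonSubgroup p G) m
      (fun y hy => (Subgroup.mem_normalizer_iff.mp hm y).mp hy)]
  have hmN : m ∈ Subgroup.normalizer (Cfsg.thompsonSubgroupOf p (S : Subgroup G) : Set G) := by
    rw [← hjEq]; exact mem_normalizer_of_map_conj_le _ m h1.le
  refine ⟨1, one_mem _, c⁻¹, ?_, m⁻¹, inv_mem hmN, ?_⟩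
  · have h2 := hJ (inv_mem hc)
    exact Subgroup.centralizer_le (SetLike.coe_subset_coe.mpr
      (le_iSup (fun S : Sylow p G => Cfsg.omegaOne p ((S : Subgroup G) ⊓
        Subgroup.centralizer ((S : Subgroup G) : Set G))) S)) h2
  · rw [one_mul, ← mul_inv_rev, ← hg, inv_inv]

theorem tf_iff [Finite G] {p : ℕ} [Fact p.Prime] (hO : Cfsg.pPrimeCore p G = ⊥) :
    Cfsg.IsThompsonFactorizable p G ↔ Cfsg.thompsonSubgroup p G ≤ Subgroup.centralizer
      ((⨆ S : Sylow p G, Cfsg.omegaOne p ((S : Subgroup G) ⊓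
        Subgroup.centralizer ((S : Subgroup G) : Set G)) : Subgroup G) : Set G) :=
  ⟨tf_forward hO, tf_backward⟩

end TF

end Cfsg.Agent.Lib.Helper3
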