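import Mathlib
import Cfsg.Prelude.Def_PLocal
import Cfsg.Agent.Lib.Helper2.PComp
import Cfsg.Agent.Lib.Helper3.ZJ
import Cfsg.Agent.Lib.Helper3.ZJNpc
import Cfsg.Agent.Lib.Helper3.Frat
import Cfsg.Agent.Lib.Helper3.PPrimeCore
import Cfsg.Agent.Lib.Lead.SZ2
import Cfsg.Agent.Lib.Lead.SylowAux
import Cfsg.Agent.Lib.Lead.CoprimeAction

set_option autoImplicit false

namespace Cfsg.Agent.Lib.Helper3

universe u

open scoped commutatorElement Pointwise

section TFQ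

variable {G : Type u} [Group G]

theorem tfq_injective [Finite G] {p : ℕ} [Fact p.Prime] (P : Subgroup G) (hP : IsPGroup p ↥P) :
    Function.Injective ((QuotientGroup.mk' (Cfsg.pPrimeCore p G)).comp P.subtype) := by
  rw [injective_iff_map_eq_one]
  intro x hx
  have hxO : (x : G) ∈ Cfsg.pPrimeCore p G := (QuotientGroup.eq_one_iff _).mp hx
  obtain ⟨n, hn⟩ := hP x
  have hn' : (x : G) ^ p ^ n = 1 := congrArg Subtype.val hn
  have h1 : orderOf (x : G) ∣ p ^ n := orderOf_dvd_of_pow_eq_one hn'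
  have h2 : orderOf (x : G) ∣ Nat.card ↥(Cfsg.pPrimeCore p G) := by
    have h := orderOf_dvd_natCard (⟨(x : G), hxO⟩ : ↥(Cfsg.pPrimeCore p G))
    rw [← Subgroup.orderOf_coe] at h
    exact h
  have hcop : (Nat.card ↥(Cfsg.pPrimeCore p G)).Coprime (p ^ n) :=
    Nat.Coprime.pow_right n (pPrimeCore_coprime Fact.out G)
  have h3 : orderOf (x : G) = 1 :=
    Nat.Coprime.eq_one_of_dvd (Nat.Coprime.coprime_dvd_left h2 hcop) h1
  exact Subtype.ext (orderOf_eq_one_iff.mp h3)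

theorem tfq_jE_map {H : Type*} [Group H] (e : ℕ) (f : G →* H) (D : Subgroup G)
    (hf : Function.Injective (f.comp D.subtype)) : jE e (D.map f) = (jE e D).map f := by
  have h1 := jE_map_inj e (f.comp D.subtype) hf (⊤ : Subgroup ↥D)
  have h2 := jE_map_inj e D.subtype D.subtype_injective (⊤ : Subgroup ↥D)
  have e1 : (⊤ : Subgroup ↥D).map D.subtype = D := by
    rw [← MonoidHom.range_eq_map, Subgroup.range_subtype]
  rw [← Subgroup.map_map, ← Subgroup.map_map, e1] at h1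
  rw [e1] at h2
  rw [h1, h2]

theorem tfq_omegaOne_top {D : Type*} [Group D] {K : Type*} [Group K] (e : ℕ) (g : D →* K)
    (hg : Function.Injective g) :
    Cfsg.omegaOne e ((⊤ : Subgroup D).map g ⊓
        Subgroup.centralizer (((⊤ : Subgroup D).map g : Subgroup K) : Set K))
      = (Cfsg.omegaOne e ((⊤ : Subgroup D) ⊓
          Subgroup.centralizer ((⊤ : Subgroup D) : Set D))).map g := by
  rw [← zj_map_inf_centralizer g hg, omegaOne_map_of_injective e g hg]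

theorem tfq_omegaOne_center_map {H : Type*} [Group H] (e : ℕ) (f : G →* H) (D : Subgroup G)
    (hf : Function.Injective (f.comp D.subtype)) :
    Cfsg.omegaOne e (D.map f ⊓ Subgroup.centralizer ((D.map f : Subgroup H) : Set H))
      = (Cfsg.omegaOne e (D ⊓ Subgroup.centralizer (D : Set G))).map f := by
  have h1 := tfq_omegaOne_top e (f.comp D.subtype) hf
  have h2 := tfq_omegaOne_top e D.subtype D.subtype_injective
  have e1 : (⊤ : Subgroup ↥D).map D.subtype = D := by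
    rw [← MonoidHom.range_eq_map, Subgroup.range_subtype]
  rw [← Subgroup.map_map, ← Subgroup.map_map, e1] at h1
  rw [e1] at h2
  rw [h1, h2]

theorem tfq_lift_centralizer [Finite G] (O Z : Subgroup G) [hO : O.Normal]
    (hcop : (Nat.card ↥Z).Coprime (Nat.card ↥O)) (hZc : ∀ a ∈ Z, ∀ b ∈ Z, a * b = b * a)
    (c' : G)
    (h : QuotientGroup.mk' O c' ∈ Subgroup.centralizer
      ((Z.map (QuotientGroup.mk' O) : Subgroup (G ⧸ O)) : Set (G ⧸ O))) :
    ∃ c ∈ Subgroup.centralizer (Z : Set G), QuotientGroup.mk' O c = QuotientGroup.mk' O c' := by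
  have hk : ∀ a ∈ Z, a⁻¹ * (c'⁻¹ * a * c') ∈ O := by
    intro a ha
    rw [Subgroup.mem_centralizer_iff] at h
    have h1 := h (QuotientGroup.mk' O a) (Subgroup.mem_map_of_mem _ ha)
    have h2 : (QuotientGroup.mk' O) (a⁻¹ * (c'⁻¹ * a * c')) = 1 := by
      have e : a⁻¹ * (c'⁻¹ * a * c') = a⁻¹ * c'⁻¹ * (a * c') := by group
      rw [e, map_mul, map_mul, map_mul, map_inv, map_inv, h1]; group
    exact (QuotientGroup.eq_one_iff _).mp h2
  have hZO : Z ≤ Subgroup.normalizer (O : Set G) := by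
    rw [Subgroup.normalizer_eq_top]; exact le_top
  have hsolv : Group.IsSolvable ↥Z :=
    Group.isSolvable_of_comm (fun a b => Subtype.ext (hZc a a.2 b b.2))
  obtain ⟨y, hy, hy2⟩ := Cfsg.Agent.Lib.Lead.coprime_fix Z O hZO hcop (Or.inl hsolv) c' hk
  have hy1 : (QuotientGroup.mk' O) y = 1 := (QuotientGroup.eq_one_iff y).mpr hy
  refine ⟨c' * y, ?_, ?_⟩
  · apply Cfsg.Agent.Lib.Lead.mem_centralizer_of_normalizes' Z O hcop (c' * y) ?_ hy2
    intro a ha
    have h3 : a⁻¹ * ((c' * y)⁻¹ * a * (c' * y))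
        = (a⁻¹ * (c'⁻¹ * a * c')) * ((c'⁻¹ * a * c')⁻¹ * y⁻¹ * (c'⁻¹ * a * c')) * y := by group
    rw [h3]
    have h4 : (c'⁻¹ * a * c')⁻¹ * y⁻¹ * (c'⁻¹ * a * c') ∈ O := by
      have := hO.conj_mem y⁻¹ (O.inv_mem hy) (c'⁻¹ * a * c')⁻¹
      rwa [inv_inv] at this
    exact O.mul_mem (O.mul_mem (hk a ha) h4) hy
  · rw [map_mul, hy1, mul_one]

theorem tfq_lift_normalizer [Finite G] (O J : Subgroup G) [hO : O.Normal]
    (hcop : (Nat.card ↥O).Coprime (Nat.card ↥J)) (hsolv : Group.IsSolvable ↥J) (n' : G)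
    (h : QuotientGroup.mk' O n' ∈ Subgroup.normalizer
      ((J.map (QuotientGroup.mk' O) : Subgroup (G ⧸ O)) : Set (G ⧸ O))) :
    ∃ n ∈ Subgroup.normalizer (J : Set G), QuotientGroup.mk' O n = QuotientGroup.mk' O n' := by
  have hJO : J ≤ Subgroup.normalizer (O : Set G) := by
    rw [Subgroup.normalizer_eq_top]; exact le_top
  have hK : MulAut.conj n' • J ≤ J ⊔ O := by
    intro x hx
    rw [Cfsg.Agent.Lib.Lead.mem_conj_smul] at hx
    have h1 := (Subgroup.mem_normalizer_iff.mp h (QuotientGroup.mk' O (n'⁻¹ * x * n'))).mp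
      (Subgroup.mem_map_of_mem _ hx)
    obtain ⟨j₂, hj₂, hj₂eq⟩ := h1
    have h2 : j₂⁻¹ * x ∈ O := by
      apply (QuotientGroup.eq_one_iff _).mp
      show (QuotientGroup.mk' O) (j₂⁻¹ * x) = 1
      rw [map_mul, map_inv, hj₂eq, map_mul, map_mul, map_inv]; group
    have h3 : x = j₂ * (j₂⁻¹ * x) := by group
    rw [h3]
    exact Subgroup.mul_mem _ (Subgroup.mem_sup_left hj₂) (Subgroup.mem_sup_right h2)
  obtain ⟨y, hy, hy2⟩ := Cfsg.Agent.Lib.Lead.szc O J (MulAut.conj n' • J) hJO hK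
    (Cfsg.Agent.Lib.Lead.card_conj_smul n' J) hcop (Or.inr hsolv)
  have hy1 : (QuotientGroup.mk' O) y = 1 := (QuotientGroup.eq_one_iff y).mpr hy
  refine ⟨y⁻¹ * n', ?_, ?_⟩
  · apply mem_normalizer_of_map_conj_le
    rintro _ ⟨j, hj, rfl⟩
    have h1 : n' * j * n'⁻¹ ∈ MulAut.conj n' • J := by
      rw [Cfsg.Agent.Lib.Lead.mem_conj_smul]
      have e : n'⁻¹ * (n' * j * n'⁻¹) * n' = j := by group
      rw [e]; exact hj
    rw [← hy2, Cfsg.Agent.Lib.Lead.mem_conj_smul] at h1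
    have e2 : (MulAut.conj (y⁻¹ * n')).toMonoidHom j = y⁻¹ * (n' * j * n'⁻¹) * y := by
      show (y⁻¹ * n') * j * (y⁻¹ * n')⁻¹ = _
      group
    rw [e2]; exact h1
  · rw [map_mul, map_inv, hy1, inv_one, one_mul]

theorem tfq_forward [Finite G] {p : ℕ} [Fact p.Prime] (hT : Cfsg.IsThompsonFactorizable p G) :
    Cfsg.IsThompsonFactorizable p (G ⧸ Cfsg.pPrimeCore p G) := by
  unfold Cfsg.IsThompsonFactorizable
  intro T gq
  obtain ⟨S, rfl⟩ := Sylow.mapSurjective_surjective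
    (QuotientGroup.mk'_surjective (Cfsg.pPrimeCore p G)) p T
  obtain ⟨g, rfl⟩ := QuotientGroup.mk'_surjective (Cfsg.pPrimeCore p G) gq
  obtain ⟨x, hx, c, hc, n, hn, hg⟩ := hT S g
  have hinj := tfq_injective (S : Subgroup G) S.isPGroup'
  have hx1 : (QuotientGroup.mk' (Cfsg.pPrimeCore p G)) x = 1 := (QuotientGroup.eq_one_iff x).mpr hx
  refine ⟨1, one_mem _, QuotientGroup.mk' _ c, ?_, QuotientGroup.mk' _ n, ?_, ?_⟩
  · rw [Sylow.coe_mapSurjective, tfq_omegaOne_center_map p _ _ hinj, Subgroup.mem_centralizer_iff]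
    rintro _ ⟨z, hz, rfl⟩
    rw [← map_mul, ← map_mul, Subgroup.mem_centralizer_iff.mp hc z hz]
  · rw [Sylow.coe_mapSurjective, ← jE_eq_elem, tfq_jE_map p _ _ hinj]
    apply mem_normalizer_of_map_conj_le
    rintro _ ⟨_, ⟨j, hj, rfl⟩, rfl⟩
    have hj' : j ∈ Cfsg.thompsonSubgroupOf p (S : Subgroup G) := by
      rw [← jE_eq_elem]; exact hj
    have h1 := (Subgroup.mem_normalizer_iff.mp hn j).mp hj'
    rw [← jE_eq_elem] at h1
    exact ⟨n * j * n⁻¹, h1, by rw [map_mul, map_mul, map_inv]; rfl⟩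
  · rw [hg, one_mul, map_mul, map_mul, hx1, one_mul]

theorem tfq_backward [Finite G] {p : ℕ} [Fact p.Prime]
    (hT : Cfsg.IsThompsonFactorizable p (G ⧸ Cfsg.pPrimeCore p G)) :
    Cfsg.IsThompsonFactorizable p G := by
  unfold Cfsg.IsThompsonFactorizable
  intro S g
  have hp : p.Prime := Fact.out
  have hsurj := QuotientGroup.mk'_surjective (Cfsg.pPrimeCore p G)
  have hinj := tfq_injective (S : Subgroup G) S.isPGroup'
  have hOcop : (Nat.card ↥(Cfsg.pPrimeCore p G)).Coprime p := pPrimeCore_coprime hp G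
  obtain ⟨xq, hxq, cq, hcq, nq, hnq, hgq⟩ :=
    hT (Sylow.mapSurjective hsurj S) (QuotientGroup.mk' _ g)
  rw [Cfsg.Agent.Lib.Helper2.pPrimeCore_quotient_eq_bot p G, Subgroup.mem_bot] at hxq
  rw [hxq, one_mul] at hgq
  rw [Sylow.coe_mapSurjective, tfq_omegaOne_center_map p _ _ hinj] at hcq
  rw [Sylow.coe_mapSurjective, ← jE_eq_elem, tfq_jE_map p _ _ hinj] at hnq
  obtain ⟨c', rfl⟩ := hsurj cq
  obtain ⟨n', rfl⟩ := hsurj nq
  have hZS : Cfsg.omegaOne p ((S : Subgroup G) ⊓ Subgroup.centralizer ((S : Subgroup G) : Set G))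
      ≤ (S : Subgroup G) ⊓ Subgroup.centralizer ((S : Subgroup G) : Set G) := by
    unfold Cfsg.omegaOne
    rw [Subgroup.closure_le]
    exact fun x hx => hx.1
  obtain ⟨i, hi⟩ := IsPGroup.iff_card.mp (S.isPGroup'.to_le (hZS.trans inf_le_left))
  obtain ⟨j, hj⟩ := IsPGroup.iff_card.mp (S.isPGroup'.to_le (jE_le p (S : Subgroup G)))
  obtain ⟨c, hc, hcc'⟩ := tfq_lift_centralizer (Cfsg.pPrimeCore p G)
    (Cfsg.omegaOne p ((S : Subgroup G) ⊓ Subgroup.centralizer ((S : Subgroup G) : Set G)))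
    (by rw [hi]; exact (Nat.Coprime.pow_right i hOcop).symm)
    (fun a ha b hb => (Subgroup.mem_centralizer_iff.mp (Subgroup.mem_inf.mp (hZS ha)).2 b
      (Subgroup.mem_inf.mp (hZS hb)).1).symm) c' hcq
  have hJnil : Group.IsNilpotent ↥(jE p (S : Subgroup G)) :=
    (S.isPGroup'.to_le (jE_le p (S : Subgroup G))).isNilpotent
  obtain ⟨n, hn, hnn'⟩ := tfq_lift_normalizer (Cfsg.pPrimeCore p G) (jE p (S : Subgroup G))
    (by rw [hj]; exact Nat.Coprime.pow_right j hOcop) inferInstance n' hnq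
  rw [jE_eq_elem] at hn
  refine ⟨g * (c * n)⁻¹, ?_, c, hc, n, hn, by group⟩
  apply (QuotientGroup.eq_one_iff _).mp
  show QuotientGroup.mk' (Cfsg.pPrimeCore p G) (g * (c * n)⁻¹) = 1
  rw [map_mul, map_inv, map_mul, hcc', hnn', hgq, mul_inv_cancel]

theorem tfq_iff [Finite G] {p : ℕ} [Fact p.Prime] :
    Cfsg.IsThompsonFactorizable p G ↔
      Cfsg.IsThompsonFactorizable p (G ⧸ Cfsg.pPrimeCore p G) :=
  ⟨tfq_forward, tfq_backward⟩

end TFQ

end Cfsg.Agent.Lib.Helper3
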