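import Mathlib
import Cfsg.Agent.Lib.Helper3.ThompsonSC
import Cfsg.Agent.Lib.Helper3.ZJNpc
import Cfsg.Agent.Lib.Helper3.Quasi

set_option autoImplicit false

namespace Cfsg.Agent.Lib.Helper3

open Cfsg

universe u

section NCBasic

variable {X : Type*} [Group X]

theorem map_conj_centralizer (A : Subgroup X) (g : X) :
    (Subgroup.centralizer (A : Set X)).map (MulAut.conj g).toMonoidHom
      = Subgroup.centralizer ((A.map (MulAut.conj g).toMonoidHom : Subgroup X) : Set X) := by
  ext y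
  rw [mem_map_conj_iff, Subgroup.mem_centralizer_iff, Subgroup.mem_centralizer_iff]
  constructor
  · intro h a' ha'
    rw [SetLike.mem_coe, mem_map_conj_iff] at ha'
    have h1 := h _ ha'
    calc a' * y = g * ((g⁻¹ * a' * g) * (g⁻¹ * y * g)) * g⁻¹ := by group
      _ = g * ((g⁻¹ * y * g) * (g⁻¹ * a' * g)) * g⁻¹ := by rw [h1]
      _ = y * a' := by group
  · intro h a ha
    have h1 := h (g * a * g⁻¹) (by
      rw [SetLike.mem_coe, mem_map_conj_iff]
      have : g⁻¹ * (g * a * g⁻¹) * g = a := by group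
      rw [this]; exact ha)
    calc a * (g⁻¹ * y * g) = g⁻¹ * ((g * a * g⁻¹) * y) * g := by group
      _ = g⁻¹ * (y * (g * a * g⁻¹)) * g := by rw [h1]
      _ = g⁻¹ * y * g * a := by group

/-- Modulo a normal `p'`-subgroup, centralizers of `p`-subgroups are images of centralizers. -/
theorem centralizer_map_mk_le [Finite X] {p : ℕ} [Fact p.Prime]
    (K : Subgroup X) [K.Normal] (hK : (Nat.card ↥K).Coprime p) (V : Subgroup X)
    (hV : IsPGroup p ↥V) :
    Subgroup.centralizer ((V.map (QuotientGroup.mk' K) : Subgroup (X ⧸ K)) : Set (X ⧸ K)) ≤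
      (Subgroup.centralizer (V : Set X)).map (QuotientGroup.mk' K) := by
  intro y hy
  have hyN := Subgroup.centralizer_le_normalizer _ hy
  obtain ⟨n, hn, rfl⟩ := normalizer_map_mk_le K hK V hV hyN
  refine ⟨n, ?_, rfl⟩
  have hVK : V ⊓ K = ⊥ := disjoint_of_isPGroup_of_coprime V K hV hK
  rw [SetLike.mem_coe] at hn
  rw [SetLike.mem_coe, Subgroup.mem_centralizer_iff]
  intro v hv
  have h1 : n * v * n⁻¹ ∈ V := (Subgroup.mem_normalizer_iff.mp hn v).mp hv
  have h2 := (Subgroup.mem_centralizer_iff.mp hy) _ (Subgroup.mem_map_of_mem (QuotientGroup.mk' K) hv)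
  have h3 : (QuotientGroup.mk' K) (n * v * n⁻¹) = (QuotientGroup.mk' K) v := by
    rw [map_mul, map_mul, map_inv, ← h2]; group
  have h4 : (n * v * n⁻¹)⁻¹ * v ∈ K := QuotientGroup.eq.mp h3
  have h5 : (n * v * n⁻¹)⁻¹ * v ∈ V ⊓ K :=
    Subgroup.mem_inf.mpr ⟨V.mul_mem (V.inv_mem h1) hv, h4⟩
  rw [hVK, Subgroup.mem_bot] at h5
  have h6 : v = n * v * n⁻¹ := by
    calc v = (n * v * n⁻¹) * ((n * v * n⁻¹)⁻¹ * v) := by group
      _ = n * v * n⁻¹ := by rw [h5, mul_one]
  calc v * n = (n * v * n⁻¹) * n := by rw [← h6]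
    _ = n * v := by group

theorem npc_sub_normalizer [Finite X] {p : ℕ} [Fact p.Prime] (N : Subgroup X) (B : Subgroup ↥N)
    (h : Cfsg.HasNormalPComplement p
      ↥(Subgroup.normalizer ((B.map N.subtype : Subgroup X) : Set X))) :
    Cfsg.HasNormalPComplement p ↥(Subgroup.normalizer (B : Set ↥N)) := by
  have hle' : ∀ x : ↥(Subgroup.normalizer (B : Set ↥N)),
      (N.subtype.comp (Subgroup.subtype _)) x ∈ Subgroup.normalizer
        ((B.map N.subtype : Subgroup X) : Set X) := by
    intro x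
    exact Subgroup.le_normalizer_map N.subtype ⟨x.1, x.2, rfl⟩
  refine npc_of_injective ((N.subtype.comp (Subgroup.subtype _)).codRestrict _ hle') ?_ h
  intro a b hab
  have h0 := congrArg Subtype.val hab
  have h1 : ((a : ↥N) : X) = ((b : ↥N) : X) := h0
  exact Subtype.ext (Subtype.ext h1)

theorem npc_sub_centralizer [Finite X] {p : ℕ} [Fact p.Prime] (N : Subgroup X) (B : Subgroup ↥N)
    (h : Cfsg.HasNormalPComplement p
      ↥(Subgroup.centralizer ((B.map N.subtype : Subgroup X) : Set X))) :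
    Cfsg.HasNormalPComplement p ↥(Subgroup.centralizer (B : Set ↥N)) := by
  have hle' : ∀ x : ↥(Subgroup.centralizer (B : Set ↥N)),
      (N.subtype.comp (Subgroup.subtype _)) x ∈ Subgroup.centralizer
        ((B.map N.subtype : Subgroup X) : Set X) := by
    intro x
    rw [Subgroup.mem_centralizer_iff]
    rintro _ ⟨b, hb, rfl⟩
    have := (Subgroup.mem_centralizer_iff.mp x.2) b hb
    exact congrArg Subtype.val this
  refine npc_of_injective ((N.subtype.comp (Subgroup.subtype _)).codRestrict _ hle') ?_ h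
  intro a b hab
  have h0 := congrArg Subtype.val hab
  have h1 : ((a : ↥N) : X) = ((b : ↥N) : X) := h0
  exact Subtype.ext (Subtype.ext h1)

end NCBasic

/-- hypothesis: `N(W₁(T))` and `C(W₂(T))` are `p`-nilpotent -/
def HypNC (p : ℕ) (W₁ W₂ : ∀ (Q : Type u) [Group Q], Subgroup Q) (X : Type u) [Group X]
    (T : Subgroup X) : Prop :=
  Cfsg.HasNormalPComplement p
      ↥(Subgroup.normalizer ((Cfsg.inducedFunctor W₁ T : Subgroup X) : Set X)) ∧
    Cfsg.HasNormalPComplement p
      ↥(Subgroup.centralizer ((Cfsg.inducedFunctor W₂ T : Subgroup X) : Set X))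

theorem npc_normalizer_quot {p : ℕ} [Fact p.Prime] (W : ∀ (Q : Type u) [Group Q], Subgroup Q)
    (hW : Cfsg.IsCharPFunctor.{u} p W) (X : Type u) [Group X] [Finite X] (T : Sylow p X)
    (Q : Subgroup X) [Q.Normal] (hQT : Q ≤ (T : Subgroup X))
    (hV : ∀ V : Subgroup X, Q < V → V ≤ (T : Subgroup X) →
      (T : Subgroup X) ≤ Subgroup.normalizer (V : Set X) →
      Cfsg.HasNormalPComplement p ↥(Subgroup.normalizer (V : Set X)))
    (hTQ : ¬ (T : Subgroup X) ≤ Q) :
    Cfsg.HasNormalPComplement p ↥(Subgroup.normalizer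
      ((Cfsg.inducedFunctor W ((T : Subgroup X).map (QuotientGroup.mk' Q)) : Subgroup (X ⧸ Q)) :
        Set (X ⧸ Q))) := by
  have hπ : Function.Surjective (QuotientGroup.mk' Q) := QuotientGroup.mk'_surjective Q
  have hconjb := isConjugacyFunctor_inducedFunctor hW (X ⧸ Q)
  have hTbp : IsPGroup p ↥((T : Subgroup X).map (QuotientGroup.mk' Q)) := T.isPGroup'.map _
  have hmemT : ∀ x : X, (QuotientGroup.mk' Q) x ∈ (T : Subgroup X).map (QuotientGroup.mk' Q) →
      x ∈ (T : Subgroup X) := by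
    intro x hx
    obtain ⟨t, ht, hte⟩ := hx
    have h2 : t⁻¹ * x ∈ Q := QuotientGroup.eq.mp hte
    have h3 : x = t * (t⁻¹ * x) := by group
    rw [h3]; exact Subgroup.mul_mem _ ht (hQT h2)
  obtain ⟨Wb, hWb⟩ : ∃ Wb, Wb = Cfsg.inducedFunctor W ((T : Subgroup X).map (QuotientGroup.mk' Q)) :=
    ⟨_, rfl⟩
  rw [← hWb]
  have hTbne : (T : Subgroup X).map (QuotientGroup.mk' Q) ≠ ⊥ := by
    intro h
    rw [Subgroup.map_eq_bot_iff, QuotientGroup.ker_mk'] at h
    exact hTQ h
  have hWbne : Wb ≠ ⊥ := by rw [hWb]; exact (hconjb _ hTbp).2.1 hTbne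
  have hWble : Wb ≤ (T : Subgroup X).map (QuotientGroup.mk' Q) := by
    rw [hWb]; exact inducedFunctor_le _
  obtain ⟨V, hVdef⟩ : ∃ V, V = Wb.comap (QuotientGroup.mk' Q) := ⟨_, rfl⟩
  have hVT : V ≤ (T : Subgroup X) := by
    rw [hVdef]
    intro x hx
    exact hmemT x (hWble hx)
  have hQV : Q ≤ V := by
    rw [hVdef]
    intro x hx
    rw [Subgroup.mem_comap]
    have h1 : (QuotientGroup.mk' Q) x = 1 := (QuotientGroup.eq_one_iff x).mpr hx
    rw [h1]; exact Subgroup.one_mem _
  have hVQ : V ≠ Q := by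
    intro h
    apply hWbne
    have h1 : Wb = V.map (QuotientGroup.mk' Q) := by
      rw [hVdef, Subgroup.map_comap_eq_self_of_surjective hπ]
    rw [h1, h, Subgroup.map_eq_bot_iff, QuotientGroup.ker_mk']
  have hnorm : Subgroup.normalizer (V : Set X) =
      (Subgroup.normalizer (Wb : Set (X ⧸ Q))).comap (QuotientGroup.mk' Q) := by
    rw [hVdef]; exact (Subgroup.comap_normalizer_eq_of_surjective Wb hπ).symm
  have hTV : (T : Subgroup X) ≤ Subgroup.normalizer (V : Set X) := by
    rw [hnorm]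
    intro t ht
    rw [Subgroup.mem_comap, hWb]
    exact le_normalizer_inducedFunctor hW _ hTbp (Subgroup.mem_map_of_mem _ ht)
  have h1 := hV V (lt_of_le_of_ne hQV (Ne.symm hVQ)) hVT hTV
  have h2 : (Subgroup.normalizer (V : Set X)).map (QuotientGroup.mk' Q) =
      Subgroup.normalizer (Wb : Set (X ⧸ Q)) := by
    rw [hnorm, Subgroup.map_comap_eq_self_of_surjective hπ]
  have h3 := npc_of_surjective ((QuotientGroup.mk' Q).subgroupMap
    (Subgroup.normalizer (V : Set X))) (MonoidHom.subgroupMap_surjective _ _) h1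
  exact npc_congr h2 h3

theorem hypNC_quotP {p : ℕ} [Fact p.Prime] (W₁ W₂ : ∀ (Q : Type u) [Group Q], Subgroup Q)
    (hW₁ : Cfsg.IsCharPFunctor.{u} p W₁) (hW₂ : Cfsg.IsCharPFunctor.{u} p W₂)
    (X : Type u) [Group X] [Finite X] (T : Sylow p X)
    (Q : Subgroup X) [Q.Normal] (hQT : Q ≤ (T : Subgroup X))
    (hV : ∀ V : Subgroup X, Q < V → V ≤ (T : Subgroup X) →
      (T : Subgroup X) ≤ Subgroup.normalizer (V : Set X) →
      Cfsg.HasNormalPComplement p ↥(Subgroup.normalizer (V : Set X))) :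
    HypNC p W₁ W₂ (X ⧸ Q) ((T : Subgroup X).map (QuotientGroup.mk' Q)) := by
  by_cases hTQ : (T : Subgroup X) ≤ Q
  · have hcop : (Nat.card (X ⧸ Q)).Coprime p := by
      have hTQ' : (T : Subgroup X) = Q := le_antisymm hTQ hQT
      rw [← Subgroup.index_eq_card, ← hTQ']
      exact ((Nat.Prime.coprime_iff_not_dvd Fact.out).mpr T.not_dvd_index).symm
    constructor <;>
      exact npc_of_coprime (Nat.Coprime.coprime_dvd_left (Subgroup.card_subgroup_dvd_card _) hcop)
  · refine ⟨npc_normalizer_quot W₁ hW₁ X T Q hQT hV hTQ, ?_⟩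
    exact npc_of_le (Subgroup.centralizer_le_normalizer _)
      (npc_normalizer_quot W₂ hW₂ X T Q hQT hV hTQ)

theorem thHyp_nc {p : ℕ} [Fact p.Prime] (W₁ W₂ : ∀ (Q : Type u) [Group Q], Subgroup Q)
    (hW₁ : Cfsg.IsCharPFunctor.{u} p W₁) (hW₂ : Cfsg.IsCharPFunctor.{u} p W₂)
    (hfin : ∀ (X : Type u) [Group X] [Finite X] (T : Sylow p X),
      Constrained p X → Cfsg.HasNormalPComplement p (X ⧸ Cfsg.pCore p X) →
      IsCoatom (T : Subgroup X) → HypNC p W₁ W₂ X (T : Subgroup X) →
      Cfsg.HasNormalPComplement p X) :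
    ThHyp p (HypNC p W₁ W₂) := by
  refine ⟨?_, ?_, ?_, ?_, hfin⟩
  · -- conj
    intro X _ _ T g ⟨h1, h2⟩
    have hconj₁ := isConjugacyFunctor_inducedFunctor hW₁ X
    have hconj₂ := isConjugacyFunctor_inducedFunctor hW₂ X
    constructor
    · rw [(hconj₁ _ T.isPGroup').2.2 g]
      have h3 := npc_map_conj _ g h1
      rw [Subgroup.map_equiv_normalizer_eq] at h3
      exact h3
    · rw [(hconj₂ _ T.isPGroup').2.2 g]
      have h3 := npc_map_conj _ g h2
      rw [map_conj_centralizer] at h3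
      exact h3
  · -- sub
    intro X _ _ T N P₁ hle hZ ⟨h1, h2⟩ hthird
    have hconj₁ := isConjugacyFunctor_inducedFunctor hW₁ X
    have hconj₂ := isConjugacyFunctor_inducedFunctor hW₂ X
    have hmap₁ : (Cfsg.inducedFunctor W₁ (P₁ : Subgroup ↥N)).map N.subtype
        = Cfsg.inducedFunctor W₁ ((P₁ : Subgroup ↥N).map N.subtype) :=
      map_inducedFunctor hW₁ N.subtype _ P₁.isPGroup'
        (fun x _ hx => N.subtype_injective (by rw [map_one]; exact hx))
    have hmap₂ : (Cfsg.inducedFunctor W₂ (P₁ : Subgroup ↥N)).map N.subtype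
        = Cfsg.inducedFunctor W₂ ((P₁ : Subgroup ↥N).map N.subtype) :=
      map_inducedFunctor hW₂ N.subtype _ P₁.isPGroup'
        (fun x _ hx => N.subtype_injective (by rw [map_one]; exact hx))
    obtain ⟨T₁, hT₁⟩ : ∃ T₁, T₁ = (P₁ : Subgroup ↥N).map N.subtype := ⟨_, rfl⟩
    rw [← hT₁] at hle hZ hthird hmap₁ hmap₂
    have hT₁p : IsPGroup p ↥T₁ := by rw [hT₁]; exact P₁.isPGroup'.map _
    by_cases hbot : (P₁ : Subgroup ↥N) = ⊥
    · have hcop : (Nat.card ↥N).Coprime p := by
        have := P₁.not_dvd_index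
        rw [hbot, Subgroup.index_bot] at this
        exact ((Nat.Prime.coprime_iff_not_dvd Fact.out).mpr this).symm
      constructor <;>
        exact npc_of_coprime (Nat.Coprime.coprime_dvd_left (Subgroup.card_subgroup_dvd_card _) hcop)
    · have hT₁ne : T₁ ≠ ⊥ := by
        rw [hT₁]
        intro h
        exact hbot ((Subgroup.map_eq_bot_iff_of_injective _ N.subtype_injective).mp h)
      have key₁ : Cfsg.HasNormalPComplement p
          ↥(Subgroup.normalizer ((Cfsg.inducedFunctor W₁ T₁ : Subgroup X) : Set X)) := by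
        by_cases hT : T₁ = (T : Subgroup X)
        · rw [hT]; exact h1
        · exact hthird hT _ ((hconj₁ T₁ hT₁p).2.1 hT₁ne) (hconj₁ T₁ hT₁p).1
            (inf_le_right.trans (normalizer_le_normalizer_functor _ hconj₁ T₁ hT₁p))
      have key₂ : Cfsg.HasNormalPComplement p
          ↥(Subgroup.centralizer ((Cfsg.inducedFunctor W₂ T₁ : Subgroup X) : Set X)) := by
        by_cases hT : T₁ = (T : Subgroup X)
        · rw [hT]; exact h2
        · exact npc_of_le (Subgroup.centralizer_le_normalizer _)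
            (hthird hT _ ((hconj₂ T₁ hT₁p).2.1 hT₁ne) (hconj₂ T₁ hT₁p).1
              (inf_le_right.trans (normalizer_le_normalizer_functor _ hconj₂ T₁ hT₁p)))
      rw [← hmap₁] at key₁
      rw [← hmap₂] at key₂
      exact ⟨npc_sub_normalizer N _ key₁, npc_sub_centralizer N _ key₂⟩
  · -- quotP
    intro X _ _ T _ hV
    exact hypNC_quotP W₁ W₂ hW₁ hW₂ X T (Cfsg.pCore p X)
      (Cfsg.Agent.Lib.Helper4.pCore_le_sylow T) hV
  · -- quotR
    intro X _ _ T R hRn hRc ⟨h1, h2⟩
    have hTR : (T : Subgroup X) ⊓ R = ⊥ := disjoint_of_isPGroup_of_coprime _ R T.isPGroup' hRc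
    have hinj : ∀ x ∈ (T : Subgroup X), (QuotientGroup.mk' R) x = 1 → x = 1 := by
      intro x hx hx1
      have h1 : x ∈ (T : Subgroup X) ⊓ R :=
        Subgroup.mem_inf.mpr ⟨hx, (QuotientGroup.eq_one_iff x).mp hx1⟩
      rw [hTR] at h1
      exact Subgroup.mem_bot.mp h1
    have hWmap₁ : (Cfsg.inducedFunctor W₁ (T : Subgroup X)).map (QuotientGroup.mk' R) =
        Cfsg.inducedFunctor W₁ ((T : Subgroup X).map (QuotientGroup.mk' R)) :=
      map_inducedFunctor hW₁ _ _ T.isPGroup' hinj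
    have hWmap₂ : (Cfsg.inducedFunctor W₂ (T : Subgroup X)).map (QuotientGroup.mk' R) =
        Cfsg.inducedFunctor W₂ ((T : Subgroup X).map (QuotientGroup.mk' R)) :=
      map_inducedFunctor hW₂ _ _ T.isPGroup' hinj
    constructor
    · have e2 : (Subgroup.normalizer
          ((Cfsg.inducedFunctor W₁ (T : Subgroup X) : Subgroup X) : Set X)).map (QuotientGroup.mk' R) =
          Subgroup.normalizer ((Cfsg.inducedFunctor W₁ ((T : Subgroup X).map (QuotientGroup.mk' R)) :
            Subgroup (X ⧸ R)) : Set (X ⧸ R)) := by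
        rw [← hWmap₁]
        apply le_antisymm (Subgroup.le_normalizer_map _)
        exact normalizer_map_mk_le R hRc _ (T.isPGroup'.to_le (inducedFunctor_le _))
      have h3 := npc_of_surjective ((QuotientGroup.mk' R).subgroupMap _)
        (MonoidHom.subgroupMap_surjective _ _) h1
      exact npc_congr e2 h3
    · have e2 : (Subgroup.centralizer
          ((Cfsg.inducedFunctor W₂ (T : Subgroup X) : Subgroup X) : Set X)).map (QuotientGroup.mk' R) =
          Subgroup.centralizer ((Cfsg.inducedFunctor W₂ ((T : Subgroup X).map (QuotientGroup.mk' R)) :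
            Subgroup (X ⧸ R)) : Set (X ⧸ R)) := by
        rw [← hWmap₂]
        apply le_antisymm
        · rintro _ ⟨c, hc, rfl⟩
          rw [Subgroup.mem_centralizer_iff]
          rintro _ ⟨w, hw, rfl⟩
          rw [← map_mul, ← map_mul, (Subgroup.mem_centralizer_iff.mp hc) w hw]
        · exact centralizer_map_mk_le R hRc _ (T.isPGroup'.to_le (inducedFunctor_le _))
      have h3 := npc_of_surjective ((QuotientGroup.mk' R).subgroupMap _)
        (MonoidHom.subgroupMap_surjective _ _) h2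
      exact npc_congr e2 h3

end Cfsg.Agent.Lib.Helper3
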