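import Mathlib
import Cfsg.Agent.Lib.Helper3.ThompsonNC
import Cfsg.Agent.Lib.Helper3.ZJThompson

set_option autoImplicit false

universe u

namespace Cfsg.Agent.Lib.Helper3

open Cfsg

/-- the functor `Q ↦ J_e(Q)` -/
def jFun (e : ℕ) : ∀ (Q : Type u) [Group Q], Subgroup Q := fun Q _ => jE e (⊤ : Subgroup Q)

theorem inducedFunctor_jFun {G : Type u} [Group G] (e : ℕ) (P : Subgroup G) :
    Cfsg.inducedFunctor (jFun.{u} e) P = jE e P := by
  unfold Cfsg.inducedFunctor jFun
  rw [← jE_map_inj e P.subtype P.subtype_injective]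
  congr 1
  rw [← MonoidHom.range_eq_map, Subgroup.range_subtype]

theorem jFun_isCharPFunctor (p : ℕ) [Fact p.Prime] (e : ℕ) (he : e = 0 ∨ e = p) :
    Cfsg.IsCharPFunctor.{u} p (jFun.{u} e) := by
  constructor
  · intro Q _ _ hQ hnt
    have h1 := (zjFun_isCharPFunctor.{u} p e he).1 Q hQ hnt
    intro h
    apply h1
    have h2 : zjFun e Q ≤ jFun e Q := zjE_le_jE e ⊤
    rw [h] at h2
    exact le_bot_iff.mp h2
  · intro Q R _ _ _ hQ φ
    unfold jFun
    have h1 := jE_map e φ (⊤ : Subgroup Q)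
    rw [← h1]
    congr 1
    rw [← MonoidHom.range_eq_map]
    exact MonoidHom.range_eq_top.mpr φ.surjective

/-- the functor `Q ↦ Z(Q)` -/
def centerFun : ∀ (Q : Type u) [Group Q], Subgroup Q := fun Q _ => Subgroup.center Q

theorem inducedFunctor_centerFun {G : Type u} [Group G] (P : Subgroup G) :
    Cfsg.inducedFunctor centerFun.{u} P = P ⊓ Subgroup.centralizer (P : Set G) := by
  unfold Cfsg.inducedFunctor centerFun
  ext x
  constructor
  · rintro ⟨z, hz, rfl⟩
    refine Subgroup.mem_inf.mpr ⟨z.2, ?_⟩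
    rw [Subgroup.mem_centralizer_iff]
    intro t ht
    have := Subgroup.mem_center_iff.mp hz ⟨t, ht⟩
    exact congrArg Subtype.val this
  · intro hx
    obtain ⟨hxP, hxC⟩ := Subgroup.mem_inf.mp hx
    refine ⟨⟨x, hxP⟩, ?_, rfl⟩
    rw [SetLike.mem_coe, Subgroup.mem_center_iff]
    intro g
    exact Subtype.ext ((Subgroup.mem_centralizer_iff.mp hxC) g.1 g.2)

theorem centerFun_isCharPFunctor (p : ℕ) [Fact p.Prime] :
    Cfsg.IsCharPFunctor.{u} p centerFun.{u} := by
  constructor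
  · intro Q _ _ hQ hnt
    have := hQ.bot_lt_center (p := p)
    exact ne_of_gt this
  · intro Q R _ _ _ hQ φ
    exact map_center_mulEquiv φ

/-- a `p'`-element normalizing an abelian `p`-group and centralizing its elements of order `p`
centralizes it. -/
theorem conj_eq_of_centralizes_omegaOne {X : Type*} [Group X] [Finite X] {p : ℕ} [Fact p.Prime]
    (Z : Subgroup X) (hZc : ∀ a ∈ Z, ∀ b ∈ Z, a * b = b * a) (x : X)
    (hxn : ∀ z ∈ Z, x * z * x⁻¹ ∈ Z) (hxo : (orderOf x).Coprime p)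
    (hx : ∀ v ∈ Z, v ^ p = 1 → x * v * x⁻¹ = v) :
    ∀ n : ℕ, ∀ z ∈ Z, z ^ p ^ n = 1 → x * z * x⁻¹ = z := by
  intro n
  induction n with
  | zero =>
    intro z _ hz
    rw [pow_zero, pow_one] at hz
    rw [hz]; group
  | succ n ih =>
    intro z hz hzn
    have hzp : (z ^ p) ^ p ^ n = 1 := by rw [← pow_mul, ← pow_succ']; exact hzn
    have h1 := ih (z ^ p) (Z.pow_mem hz p) hzp
    obtain ⟨w, hw⟩ : ∃ w, w = x * z * x⁻¹ * z⁻¹ := ⟨_, rfl⟩
    have hwZ : w ∈ Z := by rw [hw]; exact Z.mul_mem (hxn z hz) (Z.inv_mem hz)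
    have hwp : w ^ p = 1 := by
      have hc : Commute (x * z * x⁻¹) z⁻¹ := hZc _ (hxn z hz) _ (Z.inv_mem hz)
      rw [hw, hc.mul_pow, conj_pow, h1, inv_pow, mul_inv_cancel]
    have hxw := hx w hwZ hwp
    have hxz : x * z * x⁻¹ = w * z := by rw [hw]; group
    have hk : ∀ k : ℕ, x ^ k * z * (x ^ k)⁻¹ = w ^ k * z := by
      intro k
      induction k with
      | zero => simp
      | succ k ihk =>
        calc x ^ (k + 1) * z * (x ^ (k + 1))⁻¹ = x * (x ^ k * z * (x ^ k)⁻¹) * x⁻¹ := by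
              rw [pow_succ']; group
          _ = x * (w ^ k * z) * x⁻¹ := by rw [ihk]
          _ = (x * w * x⁻¹) ^ k * (x * z * x⁻¹) := by rw [conj_pow]; group
          _ = w ^ k * (w * z) := by rw [hxw, hxz]
          _ = w ^ (k + 1) * z := by rw [pow_succ]; group
    have h2 := hk (orderOf x)
    rw [pow_orderOf_eq_one] at h2
    have h3 : w ^ orderOf x = 1 := by
      have : z = w ^ orderOf x * z := by simpa using h2
      calc w ^ orderOf x = (w ^ orderOf x * z) * z⁻¹ := by group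
        _ = 1 := by rw [← this, mul_inv_cancel]
    have h4 : orderOf w ∣ orderOf x := orderOf_dvd_of_pow_eq_one h3
    have h5 : orderOf w ∣ p := orderOf_dvd_of_pow_eq_one hwp
    have h6 : orderOf w = 1 := Nat.eq_one_of_dvd_coprimes hxo h4 h5
    have h7 : w = 1 := orderOf_eq_one_iff.mp h6
    rw [hxz, h7, one_mul]

/-- Thompson's theorem in a special group. -/
theorem thompson_fin {X : Type u} [Group X] [Finite X] {p : ℕ} [Fact p.Prime] (hp : p ≠ 2)
    (T : Sylow p X) (hcon : Subgroup.centralizer (Cfsg.pCore p X : Set X) ≤ Cfsg.pCore p X)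
    (hq : Cfsg.HasNormalPComplement p (X ⧸ Cfsg.pCore p X)) (hTco : IsCoatom (T : Subgroup X))
    (h1 : Cfsg.HasNormalPComplement p
      ↥(Subgroup.normalizer ((jE p (T : Subgroup X) : Subgroup X) : Set X)))
    (h2 : Cfsg.HasNormalPComplement p
      ↥(Subgroup.centralizer (((T : Subgroup X) ⊓ Subgroup.centralizer ((T : Subgroup X) : Set X)
        : Subgroup X) : Set X))) :
    Cfsg.HasNormalPComplement p X := by
  classical
  have hPAbP := isPAbP_of_special hq (T : Subgroup X) T.isPGroup' T.not_dvd_index hTco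
  have hst : PStab p X := pStab_of_isNormalizerPStable (hPAbP.isNormalizerPStable hp)
  obtain ⟨Q, hQ⟩ : ∃ Q, Q = Cfsg.pCore p X := ⟨_, rfl⟩
  have hQn : Q.Normal := hQ ▸ Cfsg.Agent.Lib.Helper4.pCore_normal p X
  have hQp : IsPGroup p Q := hQ ▸ Cfsg.Agent.Lib.Helper4.pCore_isPGroup p X
  have hQT : Q ≤ T := hQ ▸ Cfsg.Agent.Lib.Helper4.pCore_le_sylow T
  rw [← hQ] at hcon
  obtain ⟨Z, hZ⟩ : ∃ Z, Z = Q ⊓ Subgroup.centralizer (Q : Set X) := ⟨_, rfl⟩
  have hZn : Z.Normal := by
    rw [hZ]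
    have : (Subgroup.centralizer (Q : Set X)).Normal := Subgroup.normal_centralizer
    exact Subgroup.normal_inf_normal _ _
  have hZQ : Z ≤ Q := hZ ▸ inf_le_left
  have hZc : ∀ a ∈ Z, ∀ b ∈ Z, a * b = b * a := by
    intro a ha b hb
    rw [hZ] at ha hb
    exact (Subgroup.mem_centralizer_iff.mp (Subgroup.mem_inf.mp hb).2) a (Subgroup.mem_inf.mp ha).1
  obtain ⟨V₀, hV₀⟩ : ∃ V₀, V₀ = Cfsg.omegaOne p Z := ⟨_, rfl⟩
  have hV₀mem : ∀ x, x ∈ V₀ ↔ x ∈ Z ∧ x ^ p = 1 := fun x => by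
    rw [hV₀]; exact mem_omegaOne_iff_of_comm p Z hZc x
  have hV₀Z : V₀ ≤ Z := fun x hx => ((hV₀mem x).mp hx).1
  have hV₀n : V₀.Normal := by
    constructor
    intro v hv g
    rw [hV₀mem] at hv ⊢
    exact ⟨hZn.conj_mem v hv.1 g, by rw [conj_pow, hv.2]; group⟩
  have hV₀Q : V₀ ≤ Q := hV₀Z.trans hZQ
  have hV₀p : IsPGroup p V₀ := hQp.to_le hV₀Q
  have hV₀adm : AdmE p V₀ :=
    ⟨fun x hx y hy => hZc x (hV₀Z hx) y (hV₀Z hy), fun a ha => ((hV₀mem a).mp ha).2⟩
  obtain ⟨C₀, hC₀⟩ : ∃ C₀, C₀ = Subgroup.centralizer (V₀ : Set X) := ⟨_, rfl⟩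
  have hC₀n : C₀.Normal := by rw [hC₀]; exact Subgroup.normal_centralizer
  by_cases hCp : IsPGroup p C₀
  · have hC₀Q : C₀ ≤ Q := by rw [hQ]; exact Cfsg.Agent.Lib.Helper4.le_pCore hC₀n hCp
    have hfamV : ∀ A ∈ famE p (T : Subgroup X), V₀ ≤ A := by
      by_contra hne
      push Not at hne
      obtain ⟨U, hU, hVU⟩ := hne
      have hcomm : ⁅V₀, V₀⁆ = ⊥ := by
        rw [Subgroup.commutator_eq_bot_iff_le_centralizer]
        intro x hx
        rw [Subgroup.mem_centralizer_iff]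
        intro y hy
        exact hV₀adm.1 y hy x hx
      obtain ⟨A, hA, -, hVA, hVN⟩ := famE_replacement hp p
        (Or.inr (Nat.Prime.odd_of_ne_two Fact.out hp)) (T : Subgroup X) T.isPGroup'
        (T : Subgroup X) le_rfl (fun g hg x hx => T.mul_mem (T.mul_mem hg hx) (T.inv_mem hg)) V₀
        (hV₀Q.trans hQT) (fun g _ x hx => hV₀n.conj_mem x hx g)
        ⟨U, hU, by rw [hcomm]; exact bot_le, hVU⟩
      apply hVA
      have hAQ : A ≤ Q := by
        intro a ha
        have hquad := quad_of_normalizes hA.2.1.1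
          (fun v hv a' ha' => (Subgroup.mem_normalizer_iff.mp (hVN hv) a').mp ha') ha
        have hael : ∃ n : ℕ, a ^ p ^ n = 1 := by
          obtain ⟨n, hn⟩ := T.isPGroup' ⟨a, hA.1 ha⟩
          exact ⟨n, congrArg Subtype.val hn⟩
        obtain ⟨K, hKn, hCK, hKC, haK⟩ := hst V₀ hV₀n hV₀p a hael hquad
        have hKp : IsPGroup p K := by
          intro k
          obtain ⟨n, hn⟩ := hKC k.1 k.2
          rw [← hC₀] at hn
          obtain ⟨m, hm⟩ := hCp ⟨_, hn⟩
          refine ⟨n + m, Subtype.ext ?_⟩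
          have h1 : ((k : X) ^ p ^ n) ^ p ^ m = 1 := congrArg Subtype.val hm
          show (k : X) ^ p ^ (n + m) = 1
          rw [pow_add, pow_mul]; exact h1
        rw [hQ]; exact Cfsg.Agent.Lib.Helper4.le_pCore hKn hKp haK
      apply le_of_mem_famE hA (hV₀Q.trans hQT) hV₀adm
      intro y hy a ha
      have hyZ := hV₀Z hy
      rw [hZ] at hyZ
      exact ((Subgroup.mem_centralizer_iff.mp (Subgroup.mem_inf.mp hyZ).2) a (hAQ ha)).symm
    have hfamQ : ∀ A ∈ famE p (T : Subgroup X), A ≤ Q := by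
      intro A hA a ha
      apply hC₀Q
      rw [hC₀, Subgroup.mem_centralizer_iff]
      intro v hv
      exact hA.2.1.1 v (hfamV A hA hv) a ha
    have hJeq : jE p (T : Subgroup X) = jE p Q := by
      obtain ⟨A₀, hA₀⟩ := famE_nonempty p (T : Subgroup X)
      have h3 := famE_of_le hQT hA₀ (hfamQ A₀ hA₀)
      unfold jE
      congr 1
      apply Set.Subset.antisymm
      · intro A hA; exact (famE_of_le hQT hA (hfamQ A hA)).1
      · exact h3.2
    have hJn : Subgroup.normalizer ((jE p (T : Subgroup X) : Subgroup X) : Set X) = ⊤ := by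
      rw [hJeq, eq_top_iff]
      intro g _
      apply mem_normalizer_of_map_conj_eq'
      rw [← jE_map p (MulAut.conj g) Q]
      congr 1
      exact map_conj_eq_of_mem_normalizer Q g (by rw [Subgroup.normalizer_eq_top]; trivial)
    rw [hJn] at h1
    exact npc_top_iff.mp h1
  · have hcard : ¬ ∃ n, Nat.card C₀ = p ^ n := fun h => hCp (IsPGroup.of_card h.choose_spec)
    obtain ⟨q, hqp, hqd, hqne⟩ : ∃ q : ℕ, q.Prime ∧ q ∣ Nat.card C₀ ∧ q ≠ p := by
      by_contra hno
      push Not at hno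
      apply hcard
      exact ⟨_, Nat.eq_prime_pow_of_unique_prime_dvd Nat.card_pos.ne'
        (fun {d} hd hdn => hno d hd hdn)⟩
    haveI := Fact.mk hqp
    obtain ⟨x, hx⟩ := exists_prime_orderOf_dvd_card' q hqd
    have hxo : orderOf (x : X) = q := by rw [Subgroup.orderOf_coe]; exact hx
    have hxC : (x : X) ∈ Subgroup.centralizer (V₀ : Set X) := by rw [← hC₀]; exact x.2
    have hcop : (orderOf (x : X)).Coprime p := by
      rw [hxo]; exact (Nat.coprime_primes hqp Fact.out).mpr hqne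
    have hxZ : ∀ z ∈ Z, (x : X) * z * (x : X)⁻¹ = z := by
      intro z hz
      obtain ⟨n, hn⟩ := hQp ⟨z, hZQ hz⟩
      have hn' : z ^ p ^ n = 1 := congrArg Subtype.val hn
      refine conj_eq_of_centralizes_omegaOne Z hZc (x : X) (fun z hz => hZn.conj_mem z hz _) hcop
        ?_ n z hz hn'
      intro v hv hvp
      have hvV : v ∈ V₀ := (hV₀mem v).mpr ⟨hv, hvp⟩
      have := (Subgroup.mem_centralizer_iff.mp hxC) v hvV
      rw [← this]; group
    have hZT : (T : Subgroup X) ⊓ Subgroup.centralizer ((T : Subgroup X) : Set X) ≤ Z := by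
      intro z hz
      obtain ⟨hzT, hzC⟩ := Subgroup.mem_inf.mp hz
      have hzCQ : z ∈ Subgroup.centralizer (Q : Set X) := Subgroup.centralizer_le hQT hzC
      rw [hZ]
      exact Subgroup.mem_inf.mpr ⟨hcon hzCQ, hzCQ⟩
    obtain ⟨M, hM⟩ : ∃ M, M = Subgroup.centralizer (((T : Subgroup X) ⊓
        Subgroup.centralizer ((T : Subgroup X) : Set X) : Subgroup X) : Set X) := ⟨_, rfl⟩
    rw [← hM] at h2
    have hxM : (x : X) ∈ M := by
      rw [hM, Subgroup.mem_centralizer_iff]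
      intro z hz
      have := hxZ z (hZT hz)
      calc z * (x : X) = ((x : X) * z * (x : X)⁻¹) * (x : X) := by rw [this]
        _ = (x : X) * z := by group
    have hTM : (T : Subgroup X) ≤ M := by
      intro t ht
      rw [hM, Subgroup.mem_centralizer_iff]
      intro z hz
      exact ((Subgroup.mem_centralizer_iff.mp (Subgroup.mem_inf.mp hz).2) t ht).symm
    have hxT : (x : X) ∉ (T : Subgroup X) := by
      intro hxT
      obtain ⟨n, hn⟩ := T.isPGroup' ⟨(x : X), hxT⟩
      have hn' : (x : X) ^ p ^ n = 1 := congrArg Subtype.val hn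
      have h3 : q ∣ p ^ n := by rw [← hxo]; exact orderOf_dvd_of_pow_eq_one hn'
      exact hqne ((Nat.prime_dvd_prime_iff_eq hqp Fact.out).mp (hqp.dvd_of_dvd_pow h3))
    have hlt : (T : Subgroup X) < M := lt_of_le_of_ne hTM (fun h => hxT (h ▸ hxM))
    have hMtop := hTco.2 M hlt
    rw [hMtop] at h2
    exact npc_top_iff.mp h2

/-- **Thompson's normal `p`-complement theorem** (`p` odd). -/
theorem thompson_npc {G : Type u} [Group G] [Finite G] {p : ℕ} [Fact p.Prime] (hp : p ≠ 2)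
    (P : Sylow p G)
    (h1 : Cfsg.HasNormalPComplement p
      ↥(Subgroup.normalizer ((jE p (P : Subgroup G) : Subgroup G) : Set G)))
    (h2 : Cfsg.HasNormalPComplement p
      ↥(Subgroup.centralizer (((P : Subgroup G) ⊓ Subgroup.centralizer ((P : Subgroup G) : Set G)
        : Subgroup G) : Set G))) :
    Cfsg.HasNormalPComplement p G := by
  apply thompson_reduction_abs (HypNC p (jFun.{u} p) centerFun.{u})
    (thHyp_nc _ _ (jFun_isCharPFunctor p p (Or.inr rfl)) (centerFun_isCharPFunctor p) ?_)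
    (Nat.card G) G le_rfl P
    ⟨by rw [inducedFunctor_jFun]; exact h1, by rw [inducedFunctor_centerFun]; exact h2⟩
  intro X _ _ T hcon hq hTco ⟨k1, k2⟩
  rw [inducedFunctor_jFun] at k1
  rw [inducedFunctor_centerFun] at k2
  exact thompson_fin hp T hcon hq hTco k1 k2

end Cfsg.Agent.Lib.Helper3
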